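import Cfsg.Agent.H12.E27

/-! The isometry group of the cubic form in `27` variables is generated by the root elements of `E₆` (`E27.T_eq`). -/

set_option autoImplicit false

namespace H12.E27
open Cfsg.Lie Matrix StSys

variable {F : Type*} [Field F]

def sg (k : Fin 5) : F := if k = 0 then 1 else -1
def qq (c : I27) (v : I27 → F) : F := ∑ k, sg k * (v (pa c k) * v (pb c k))
def bb (c : I27) (u v : I27 → F) : F := ∑ k, sg k * (u (pa c k) * v (pb c k) + v (pa c k) * u (pb c k))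
def DD (v w : I27 → F) : F := ∑ c, w c * qq c v
def bv (a : I27) : I27 → F := Pi.single a 1
theorem sg_ne (k : Fin 5) : (sg k : F) ≠ 0 := by unfold sg; split_ifs <;> simp
theorem cubic_eq (v : I27 → F) : cubicT v = ∑ i, v (0, 0, i) * (v (0, 1, i + 1) * v (0, 2, i + 2) - v (0, 1, i + 2) * v (0, 2, i + 1)) +
    ∑ i, v (1, 0, i) * (v (1, 1, i + 1) * v (1, 2, i + 2) - v (1, 1, i + 2) * v (1, 2, i + 1)) +
    ∑ i, v (2, 0, i) * (v (2, 1, i + 1) * v (2, 2, i + 2) - v (2, 1, i + 2) * v (2, 2, i + 1)) - ∑ i, ∑ j, ∑ l, v (0, i, j) * v (1, j, l) * v (2, l, i) := by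
  simp [cubicT, mat3, det_fin_three, trace_fin_three, mul_apply, Fin.sum_univ_three]; ring
theorem polar (v w : I27 → F) (s : F) : cubicT (v + s • w) = cubicT v + s * DD v w + s ^ 2 * DD w v + s ^ 3 * cubicT w := by
  simp [cubic_eq, DD, qq, sg, pa, pb, Fintype.sum_prod_type, Fin.sum_univ_three, Fin.sum_univ_five]; ring
theorem qq_add (c : I27) (u v : I27 → F) : qq c (u + v) = qq c u + qq c v + bb c u v := by
  simp only [qq, bb, ← Finset.sum_add_distrib, Pi.add_apply]; exact Finset.sum_congr rfl fun _ _ => by ring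
theorem DD_bv (v : I27 → F) (c : I27) : DD v (bv c) = qq c v := by simp [DD, bv, Pi.single_apply]
theorem qq_bv (c a : I27) : qq c (bv a : I27 → F) = 0 := Finset.sum_eq_zero fun k _ => by
  have := (p_inj c k k).1
  simp only [bv, Pi.single_apply]; grind
theorem bb_bv {c a b : I27} (h : Tr c a b) : ∃ e : F, e ≠ 0 ∧ ∀ w, bb c w (bv b) = e * w a := by
  obtain ⟨k, hk⟩ := h
  refine ⟨sg k, sg_ne k, fun w => ?_⟩
  rw [bb, Finset.sum_eq_single k (fun k' _ h => ?_) (by simp)]
  · have := p_inj c k k; simp only [bv, Pi.single_apply]; grind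
  · have := p_inj c k k'; have := p_inj c k' k; simp only [bv, Pi.single_apply]; grind
theorem rad {c : I27} {w : I27 → F} : (∀ v, bb c w v = 0) ↔ ∀ a, tri c a → w a = 0 := by
  refine ⟨fun h a ⟨k, hk⟩ => ?_, fun h v => Finset.sum_eq_zero fun k _ => by rw [h _ ⟨k, .inl rfl⟩, h (pb c k) ⟨k, .inr rfl⟩]; simp⟩
  obtain ⟨b, hb⟩ : ∃ b, Tr c a b := hk.elim (fun h => ⟨_, k, .inl ⟨h, rfl⟩⟩) fun h => ⟨_, k, .inr ⟨rfl, h⟩⟩
  obtain ⟨e, he, h'⟩ := bb_bv (F := F) hb
  simpa [h, he] using h' w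
theorem white {w : I27 → F} (hw : ∀ c, qq c w = 0) {a : I27} (h0 : w a ≠ 0) (h : ∀ b ≠ a, ¬ tri a b → w b = 0) {b : I27} (hb : b ≠ a) : w b = 0 := by
  by_contra h1
  obtain ⟨c, k, h2, h3⟩ := p_wh a b (by by_contra h2; exact h1 (h b hb h2))
  have := hw c
  rw [qq, Finset.sum_eq_single k (fun k' _ e => by rw [h _ (h3 k' e).1 (h3 k' e).2]; simp) (by simp)] at this
  rcases h2 with ⟨rfl, rfl⟩ | ⟨rfl, rfl⟩ <;> simp [sg_ne, h0, h1] at this

theorem spM_mv (L : Sp I27) (x : I27 → F) (a : I27) : (spM F L *ᵥ x) a = (L.map fun c => if a = c.1 then c.2.2 * x c.2.1 else 0).sum := by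
  induction L with
  | nil => simp
  | cons c L ih => simp [add_mulVec, ih, single_mulVec, Function.update_apply]
set_option maxHeartbeats 2000000 in
theorem T_le : (rep.sys F).T ≤ E6univ F := by
  have : ∀ r : Φ chevE6, r.1 ∈ [56, 46, 42, 39, 37, 36, 15, 25, 29, 32, 34, 35] → ∀ t, (rep.sys F).x r t ∈ E6univ F := fun r hr t v => by
    change cubicT (repX mat (fun _ => []) F r t *ᵥ v) = _
    generalize r.1 = r at hr
    simp only [cubic_eq, Fin.sum_univ_three, repX, add_mulVec, smul_mulVec, one_mulVec, Pi.add_apply, Pi.smul_apply, smul_eq_mul, spM_nil, smul_zero, add_zero, spM_mv]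
    fin_cases hr <;> simp only [mat, List.getD_cons_succ, List.getD_cons_zero, en] <;> simp <;> ring
  exact T_le_of_sim (fun i => this _ (by revert i; decide +kernel)) fun i => this _ (by revert i; decide +kernel)
theorem act {S : List I27} {a b : I27} (h : Ok S a b) : ∃ (r : Φ chevE6) (e : F), e ≠ 0 ∧ ∀ t, (∀ c ∈ S, (rep.sys F).x r t • (bv c : I27 → F) = bv c) ∧
    ∀ v : I27 → F, ((rep.sys F).x r t • v) a = v a + t * (e * v b) ∧ ∀ c ≠ a, ¬ tri b c → ((rep.sys F).x r t • v) c = v c := by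
  obtain ⟨r, hr, ⟨c, hc, rfl, rfl⟩, h2⟩ := h
  obtain ⟨k1, k2, k3⟩ := mat_spec r hr c hc
  have e : ∀ (t : F) (v : I27 → F) a, ((rep.sys F).x ⟨r, hr⟩ t • v) a = v a + t * ∑ b, (spC (mat r) a b : F) * v b := fun t v a => by
    change (repX mat (fun _ => []) F r t *ᵥ v) a = _
    simp [repX, add_mulVec, smul_mulVec]; simp [mulVec, dotProduct, spM_apply]
  refine ⟨⟨r, hr⟩, c.2.2, fun h => by simpa [h] using congrArg (Int.cast : ℤ → F) k1, fun t => ⟨fun d hd => funext fun a => ?_, fun v => ⟨?_, fun d h1 h2 => ?_⟩⟩⟩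
  · simp [e, bv, Pi.single_apply, spC_eq_zero (a := a) (b := d) fun c hc h => h2 c hc (h.2 ▸ hd)]
  · simp [e, k2]
  · simp [e, fun b => spC_eq_zero (a := d) (b := b) fun c hc h => (k3 c hc).elim (fun k => h1 (h.1 ▸ k)) fun k => h2 (h.1 ▸ k)]

variable (hF : ∃ a : F, a ≠ 0 ∧ a ≠ 1) {g : GL I27 F} (hg : g ∈ E6univ F)
include hF hg
theorem DD_smul (v w : I27 → F) : DD (g • v) (g • w) = DD v w := by
  have k : ∀ v, cubicT (g • v) = cubicT v := hg
  obtain ⟨a, h0, h1⟩ := hF
  have e := fun s : F => k (v + s • w)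
  simp only [smul_add, smul_comm g, polar, k] at e
  have e1 := e 1
  have e2 := e a
  grind
theorem white_smul (a c : I27) : qq c (g • (bv a : I27 → F)) = 0 := by
  rw [← DD_bv, ← smul_inv_smul g (bv c), DD_smul hF hg]; simp [DD, qq_bv]
theorem bb_smul {c : I27} (h : g • (bv c : I27 → F) = bv c) (u v : I27 → F) : bb c (g • u) (g • v) = bb c u v := by
  have k : ∀ v : I27 → F, qq c (g • v) = qq c v := fun v => by rw [← DD_bv, ← DD_bv, ← DD_smul hF hg v, h]
  simpa [qq_add, k] using k (u + v)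
theorem rad_smul {c : I27} (h : g • (bv c : I27 → F) = bv c) (a : I27) : (∀ b, tri c b → (g • (bv a : I27 → F)) b = 0) ↔ ¬ tri c a := by
  rw [← rad, (MulAction.surjective g).forall]
  simp only [bb_smul hF hg h, rad]
  exact ⟨fun k k' => by simpa [bv] using k a k', fun k b k' => Pi.single_eq_of_ne (by rintro rfl; exact k k') _⟩
omit hg

/-- all isometries fixing the basis vectors in `S` and satisfying `P` at the image of `bv a` lie in the group generated by root elements -/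
def Gd (S : List I27) (a : I27) (P : (I27 → F) → Prop) : Prop :=
  ∀ g ∈ E6univ F, (∀ c ∈ S, g • (bv c : I27 → F) = bv c) → P (g • bv a) → g ∈ (rep.sys F).T
omit hF in
theorem Gd.step {S : List I27} {a : I27} {P : (I27 → F) → Prop} (h : Gd S a P) (hg : g ∈ E6univ F) (h1 : ∀ c ∈ S, g • (bv c : I27 → F) = bv c) {r : Φ chevE6} {t : F}
    (h2 : ∀ c ∈ S, (rep.sys F).x r t • (bv c : I27 → F) = bv c) (h3 : P ((rep.sys F).x r t • g • bv a)) : g ∈ (rep.sys F).T :=
  (Subgroup.mul_mem_cancel_left _ (x_mem_T _ r t)).1 (h _ (mul_mem (T_le (x_mem_T _ r t)) hg) (fun c hc => by rw [mul_smul, h1 c hc, h2 c hc]) (by rwa [mul_smul]))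
theorem kill {S : List I27} {a : I27} (h : Gd S a fun w : I27 → F => w = bv a) (hc : ∀ b, b = a ∨ tri a b ∨ Ex S a b ∨ Ok S b a) (A : Finset I27) :
    Gd S a fun w : I27 → F => w a = 1 ∧ ∀ b ∉ A, b ≠ a → ¬ tri a b → w b = 0 := by
  induction A using Finset.induction_on with
  | empty =>
    refine fun g hg h1 ⟨h2, h3⟩ => h g hg h1 (funext fun b => ?_)
    by_cases e : b = a
    · rw [e, h2, bv, Pi.single_eq_same]
    · rw [white (white_smul hF hg a) (by simp [h2]) (h3 · (by simp)) e, bv, Pi.single_eq_of_ne e]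
  | insert b A _ ih =>
    intro g hg h1 ⟨h2, h3⟩
    by_cases e : b ≠ a → ¬ tri a b → (g • (bv a : I27 → F)) b = 0
    · exact ih g hg h1 ⟨h2, by grind⟩
    push Not at e
    obtain ⟨r, ε, h4, h5⟩ := act (F := F) ((((hc b).resolve_left e.1).resolve_left e.2.1).resolve_left fun ⟨c, k1, k2, k3⟩ =>
      e.2.2 ((rad_smul hF hg (h1 c k1) a).2 k2 b k3))
    obtain ⟨h6, h7⟩ := h5 (-(g • (bv a : I27 → F)) b / ε)
    obtain ⟨h8, h9⟩ := h7 (g • bv a)
    have := (p_inj a 0 0).2.2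
    exact ih.step hg h1 h6 ⟨by grind, by grind⟩
theorem Cert.gd {S : List I27} {a : I27} (hc : Cert S a) (h : Gd S a fun w : I27 → F => w = bv a) : Gd S a fun _ : I27 → F => True := by
  have k1 : Gd S a fun w : I27 → F => w a = 1 := fun g hg h1 h2 => kill hF h hc.1 Finset.univ g hg h1 ⟨h2, by simp⟩
  have k2 : ∀ b, Ok S a b → Gd S a fun w : I27 → F => w b ≠ 0 := fun b hb g hg h1 h2 => by
    obtain ⟨r, ε, h4, h5⟩ := act (F := F) hb
    obtain ⟨h6, h7⟩ := h5 ((1 - (g • (bv a : I27 → F)) a) / (ε * (g • (bv a : I27 → F)) b))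
    exact k1.step hg h1 h6 (by rw [(h7 _).1, div_mul_cancel₀ _ (mul_ne_zero h4 h2), add_sub_cancel])
  have k3 : ∀ b, Re S a b → Gd S a fun w : I27 → F => w b ≠ 0 := fun b hb g hg h1 h2 => by
    rcases hb with ⟨c, e1, e2, e3⟩ | hb | ⟨c, e1, e2⟩
    · exact absurd ((rad_smul hF hg (h1 c e1) a).2 e2 b e3) h2
    · exact k2 b hb g hg h1 h2
    by_cases e : (g • (bv a : I27 → F)) c = 0
    · obtain ⟨r, ε, h4, h5⟩ := act (F := F) e1
      exact (k2 c e2).step hg h1 (h5 1).1 (by simp [((h5 1).2 _).1, e, h4, h2])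
    · exact k2 c e2 g hg h1 e
  intro g hg h1 _
  rcases hc.2 with ⟨c, e1, b, e2, e3⟩ | e | ⟨c, e1, e2, e3⟩
  · obtain ⟨ε, h4, h5⟩ := bb_bv (F := F) e3
    have := bb_smul hF hg (h1 c e1) (bv a) (bv b)
    rw [h1 b e2, h5, h5] at this
    exact k1 g hg h1 (by simpa [h4, bv] using this)
  · obtain ⟨b, hb⟩ := Function.ne_iff.1 (show g • (bv a : I27 → F) ≠ 0 by rw [Ne, smul_eq_zero_iff_eq]; simp [bv])
    exact k3 b (e b) g hg h1 hb
  · have := mt (rad_smul hF hg (h1 c e1) a).1 (not_not.2 e2)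
    push Not at this
    obtain ⟨b, h2, h3⟩ := this
    exact k3 b (e3 b h2) g hg h1 h3
theorem T_eq : (rep.sys F).T = E6univ F := by
  have : ∀ n ≤ 27, Gd (ord.take n) 0 fun _ : I27 → F => True := fun n hn => by
    induction hn using Nat.decreasingInduction with
    | self =>
      refine fun g _ h _ => (show 1 = g from Units.ext (ext_of_mulVec_single fun i => ?_)) ▸ one_mem _
      exact (one_mulVec _).trans (h i (cert.2 i)).symm
    | of_succ n hn ih =>
      refine fun g hg h1 _ => (cert.1 n hn).gd hF (fun g hg h1 h2 => ih g hg (fun c hc => ?_) trivial) g hg h1 trivial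
      rw [List.take_add_one, List.mem_append] at hc
      refine hc.elim (h1 c) fun hc => ?_
      obtain rfl : ord.getD n 0 = c := by simp_all [List.getD]
      exact h2
  exact le_antisymm T_le fun g hg => this 0 (by simp) g hg (by simp) trivial

end H12.E27
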