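import Cfsg.Agent.H12.Loc2
import Cfsg.Agent.H12.E56
import Cfsg.Agent.H24.MSRep

/-! The torus in the `56`-dimensional representation `E56.ρ` of `E₇`, eigenvalue multiplicities `E56.mu`, rational elements of orders `5` and `7` (`E56.rat`). -/

set_option autoImplicit false

namespace H12.E56
open Cfsg.Lie StSys
open Matrix hiding zpow_add one_zpow zpow_neg mul_inv_rev zpow_mul

variable {k : Type*} [Field k]
/-- the weights -/
def ω (a : (Fin 56)) : Λ chevE7 := fun i => om a i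
theorem map_mm (L L' : Sp (Fin 56)) : spM k L * spM k L' = (spM ℤ L * spM ℤ L').map (Int.castRingHom k) := by rw [Matrix.map_mul, map_spM, map_spM]
theorem ef (r : Φ chevE7) : spM k (mat r) * spM k (mat r) = 0 ∧ spM k (mat r) * spM k (mat (ng r : Φ _)) * spM k (mat r) = spM k (mat r) ∧
    (spM k (mat r) * spM k (mat (ng r : Φ _)) = diagonal fun x => if pairL r (ω x) = 1 then 1 else 0) ∧
    (spM k (mat (ng r : Φ _)) * spM k (mat r) = diagonal fun x => if pairL r (ω x) = -1 then 1 else 0) ∧ ∀ x, pairL r (ω x) = 0 ∨ pairL r (ω x) = 1 ∨ pairL r (ω x) = -1 := by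
  have h0 : ∀ (r : Φ chevE7) x y, spM ℤ (mat r) x y ≠ 0 → ω x = ω y + wt r := fun r x y h => funext (rep.wt_e r (by simpa [spM_apply] using h))
  obtain ⟨a, -, c, d, e⟩ := H24.ef_diag (e := spM ℤ (mat r)) (f := spM ℤ (mat (ng r : Φ _))) (μ := fun x => pairL r (ω x)) (by simpa using rep.sq_e ℤ r) (by simpa using rep.sq_e ℤ (ng r)) (by
      have := rep.lie (K := ℚ) r (ee ℚ (ng r))
      rw [adL_ee, E_ee_ng, hv_eq_sum, map_sum, repρ_ee, repρ_ee, map_mm, map_mm] at this
      ext x y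
      refine Int.cast_injective (α := ℚ) (.trans (.trans (by simp) (congrFun (congrFun this x) y).symm) ?_)
      simp only [map_smul, repρ_hh, Matrix.sum_apply, Matrix.smul_apply, diagonal_apply]
      split_ifs <;> simp [pairL, dotProduct, ω])
    (fun x y h => by rw [h0 r x y h, map_add]; exact congrArg _ (pr_self r)) fun x y h => by
      rw [h0 _ x y h, map_add, wt_ng, map_neg, sub_eq_add_neg]; exact congrArg (fun t => _ + -t) (pr_self r)
  refine ⟨by simpa using rep.sq_e k r, ?_, ?_, ?_, e⟩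
  · rw [map_mm, ← map_spM ℤ (Int.castRingHom k), ← Matrix.map_mul, a]
  all_goals rw [map_mm]; simp only [c, d]; ext x y; by_cases h : x = y <;> simp [h]
theorem coe_h (r : Φ chevE7) (t : kˣ) : ((rep.sys k).h r t : Matrix _ _ k) = diagonal fun a => ((t ^ pairL r (ω a) : kˣ) : k) := by
  obtain ⟨h1, h2, h3, h4, h5⟩ := ef (k := k) r
  simp only [h_def, n_def, Units.val_mul, RepChk.coe_sys_x, repX, spM_nil, smul_zero, add_zero]
  rw [H24.h_of_sq_zero h1 (ef _).1 h2 (by simpa using (ef (k := k) (ng r)).2.1), h3, h4]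
  ext a b
  by_cases e : a = b
  · subst e; rcases h5 a with h | h | h <;> simp [h]
  · simp [e]
theorem r3 : (rep.sys k).R3 := fun r t u => Units.ext (by simp [coe_h, mul_zpow])
/-- the representation -/
noncomputable def ρ (k : Type*) [Field k] : chevE7.SteinbergGroup k →* Matrix (Fin 56) (Fin 56) k := (Units.coeHom _).comp (r3 (k := k)).lift
theorem ρ_hl (c : I chevE7 → kˣ) : ρ k ((stS chevE7 k).hl c) = diagonal fun a => (tch c (ω a) : kˣ).1 := by
  have key : ∀ L : List (I chevE7), ((L.map fun i => (rep.sys k).h (sim i) (c i)).prod : GL _ k).1 = diagonal fun a => ((L.map fun i => c i ^ ω a i).prod : kˣ).1 :=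
    fun L => by induction L <;> simp_all [coe_h, pairL_sim]
  rw [ρ, MonoidHom.comp_apply, H24.lift_hl]
  simpa [Fin.prod_univ_def, hl, tch] using key (List.finRange _)
theorem ρ_x (r : Φ chevE7) (t : k) : ρ k ((stS chevE7 k).x r t) = 1 + t • spM k (mat r) := by simp [ρ, repX]
/-- the codimension of an eigenspace -/
noncomputable def mu (g : chevE7.SteinbergGroup k) (η : k) : ℕ := (ρ k g - η • 1).rank
theorem mu_conj (a g : chevE7.SteinbergGroup k) (η : k) : mu (a * g * a⁻¹) η = mu g η := by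
  have u : ∀ a, IsUnit (ρ k a).det := fun a => (isUnit_iff_isUnit_det _).1 (Group.isUnit a |>.map _)
  rw [mu, mu, ← rank_mul_eq_left_of_isUnit_det _ _ (u a), ← rank_mul_eq_right_of_isUnit_det _ (ρ k g - _) (u a), sub_mul, mul_sub, ← map_mul, ← map_mul]
  simp
open Classical in
theorem mu_hl (c : I chevE7 → kˣ) (η : kˣ) : mu ((stS chevE7 k).hl c) η = ∑ a, if tch c (ω a) = η then 0 else 1 := by
  rw [mu, ρ_hl, smul_one_eq_diagonal, diagonal_sub, rank_diagonal, Fintype.card_subtype, Finset.card_filter]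
  exact Finset.sum_congr rfl fun a _ => by simp [sub_eq_zero, Units.ext_iff]
theorem mu_wT (u : W chevE7) (c : I chevE7 → kˣ) (η : k) : mu ((stS chevE7 k).hl (wT u c)) η = mu ((stS chevE7 k).hl c) η := by
  rw [← r3_st.rep_conj_hl (rep_nr u), mu_conj]

theorem rat [IsAlgClosed k] {p r : ℕ} [hp : Fact p.Prime] [CharP k p] (hr : r ∈ [5, 7]) (hp' : p ≠ r) {y g : chevE7.SteinbergGroup k} (h : orderOf y = r) (e0 : g * y * g⁻¹ = y ^ 2) :
    ∃ ζ : kˣ, orderOf ζ = r ∧ if r = 5 then mu y 1 = 40 else mu y 1 = 36 ∧ mu y ζ = 50 ∨ mu y 1 = 48 ∧ mu y ζ = 48 ∨ mu y 1 = 54 ∧ mu y ζ = 47 := by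
  classical
  have hr' : r = 5 ∨ r = 7 := by simpa using hr
  have r1 : r.Prime := by rcases hr' with rfl | rfl <;> norm_num
  obtain ⟨ζ, hζ, hζ'⟩ := exists_prim (k := k) p (N := r) fun e => hp' ((Nat.prime_dvd_prime_iff_eq hp.out r1).1 e)
  obtain ⟨a, c, e1⟩ := exists_conj_H p ((Nat.coprime_primes r1 hp.out).2 hp'.symm) (h ▸ pow_orderOf_eq_one y)
  have h1 : c ^ r = 1 := hi_st k (by rw [map_pow, map_one, r3_st.hprod_apply, ← e1, conj_pow, ← h, pow_orderOf_eq_one]; simp)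
  choose s hs using fun i => hζ' (c i) (congrFun h1 i)
  obtain ⟨u, x, e, h4⟩ := exists_alcove (D := chevE7) (K := r) r1.pos (hζ ▸ pow_orderOf_eq_one ζ) (Fintype.linearCombination ℤ fun i => (s i : ℤ))
  rw [show (fun i => ζ ^ Fintype.linearCombination ℤ (fun i => (s i : ℤ)) (Pi.single i 1)) = c from funext fun i => by simp [hs]] at e
  let t (j : Fin 7) : ℕ := (x (wt (sim (D := chevE7) j))).toNat
  have t0 : ∀ j : Fin 7, (t j : ℤ) = x (wt (sim (D := chevE7) j)) := fun j => Int.toNat_of_nonneg (h4 _ (isPos_sim (D := chevE7) j)).1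
  have t1 : ∀ j : Fin 7, ([(t 0 : ℤ), t 1, t 2, t 3, t 4, t 5, t 6] : List ℤ).getD j 0 = x (wt (sim (D := chevE7) j)) := fun j => .trans (by fin_cases j <;> rfl) (t0 j)
  have t2 : ∀ (v : List ℤ) (μ : Λ chevE7), (∀ i : I chevE7, μ i = sumLt 7 fun j => v.getD j 0 * (tab chevE7).ca i ((tab chevE7).sim j)) →
      x μ = dot7 v [(t 0 : ℤ), t 1, t 2, t 3, t 4, t 5, t 6] := fun v μ hv => by
    rw [show μ = ∑ j : I chevE7, v.getD j 0 • wt (sim j) from funext fun i => by rw [Finset.sum_apply]; exact (hv i).trans (sumLt_eq _ _), map_sum, dot7, sumLt_eq]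
    exact Finset.sum_congr rfl fun j _ => by rw [t1 j, map_smul]; rfl
  have t4 := (t2 _ (wt ⟨125, by decide⟩) fun i => rw_spec.2.2 i i.2).symm.trans_le (h4 ⟨125, by decide⟩ (by decide)).2
  rw [dot7, sumLt_eq, Fin.sum_univ_seven] at t4
  simp only [Fin.coe_ofNat_eq_mod, Nat.reduceMod, List.getD_cons_succ, List.getD_cons_zero] at t4
  rcases rat_spec r hr (t 3) (by omega) (t 2) (by omega) (t 4) (by omega) (by omega) (t 0) (by omega) (t 1) (by omega) (t 5) (by omega) (by omega) (t 6) (by omega) (by omega) with t5 | t5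
  · have k0 : ∀ j, r ∣ t j := by
      simp only [Nat.add_eq_zero_iff] at t5
      obtain ⟨⟨⟨⟨⟨⟨a0, a1⟩, a2⟩, a3⟩, a4⟩, a5⟩, a6⟩ := t5
      simp [Fin.forall_fin_succ, a0, a1, a2, a3, a4, a5, Nat.dvd_of_mod_eq_zero a6]
    have k1 : wT u c ^ 2 = 1 := smithE7.pow_eq_one (e := 2) (by decide) (mem_ker_iff.2 fun j => by
      rw [e, tch_zpow_lin, ← t0 j, zpow_natCast, ← orderOf_dvd_iff_pow_eq_one, hζ]; exact k0 j)
    have k2 : c ^ 2 = 1 := by rw [← wT_one c, ← inv_mul_cancel u, wT_mul, ← map_pow, k1, map_one]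
    have k3 : y ^ 2 = 1 := by
      have : a * y ^ 2 * a⁻¹ = 1 := by rw [← conj_pow, e1, ← r3_st.hl_pow, k2, r3_st.hl_one]
      simpa using this
    have := Nat.le_of_dvd two_pos (h ▸ orderOf_dvd_of_pow_eq_one k3); omega
  have t6 : ∀ i : ℕ, i < r → cn (rwL.map fun v => dot7 v [(t 0 : ℤ), t 1, t 2, t 3, t 4, t 5, t 6] % r) i = mu y (ζ ^ i : kˣ) := fun i hi => by
    rw [← mu_conj g, e0, ← mu_conj a, ← conj_pow, e1, ← r3_st.hl_pow, ← mu_wT u, map_pow, e, mu_hl, cn, List.map_map, show rwL = (List.finRange 56).map fun b : Fin 56 => rwL.getD b [] by decide +kernel, List.map_map, ← Fin.sum_univ_def]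
    refine Finset.sum_congr rfl fun b _ => if_congr ?_ rfl rfl
    rw [pow_tch, tch_zpow_lin, ← zpow_natCast, ← zpow_mul, ← zpow_natCast, Loc.zpow_iff hζ, Int.emod_eq_of_lt (by omega) (by omega : (i : ℤ) < r),
      show x (ω b) * (2 : ℕ) = x (2 • ω b) by rw [map_nsmul, nsmul_eq_mul, mul_comm], t2 (rwL.getD b []) (2 • ω b) fun i => by simpa [ω] using rw_spec.1 b i i.2]
  have t7 : ∀ i : ℕ, mu y (ζ ^ (i * 2) : kˣ) = mu y (ζ ^ i : kˣ) := fun i => by
    have : ∀ n j : ℕ, mu (y ^ n) (ζ ^ j : kˣ) = ∑ b, if x (ω b) * n % r = j % r then 0 else 1 := fun n j => by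
      rw [← mu_conj a, ← conj_pow, e1, ← r3_st.hl_pow, ← mu_wT u, map_pow, e, mu_hl]
      exact Finset.sum_congr rfl fun b _ => if_congr (by rw [pow_tch, tch_zpow_lin, ← zpow_natCast, ← zpow_mul, ← zpow_natCast, Loc.zpow_iff hζ]) rfl rfl
    rw [← mu_conj g, e0, this, ← pow_one y, this]
    exact Finset.sum_congr rfl fun b _ => if_congr (by push_cast; rcases hr' with rfl | rfl <;> omega) rfl rfl
  have t8 := t5 ((t6 2 (by omega)).trans ((t7 1).trans (t6 1 (by omega)).symm)) ((t6 4 (by omega)).trans ((t7 2).trans (t6 2 (by omega)).symm))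
  rw [show cn _ 0 = _ from t6 0 (by omega), show cn _ 2 = _ from (t6 2 (by omega)).trans (t7 1)] at t8
  exact ⟨ζ, hζ, by simpa using t8⟩

end H12.E56
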