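import Cfsg.Agent.H12.Hecke
import Cfsg.Agent.H9.Dihedral
import Mathlib.NumberTheory.Niven
/-! The Feit-Higman theorem for BN-pairs of rank two (`feit_higman`), through the Schur elements of the two dimensional representations
of the dihedral Hecke algebra. -/

set_option autoImplicit false

namespace H12
open Cfsg H13 H7 Finset MonoidAlgebra
open scoped Classical

/-- alternating products over a local unit -/
def altE {R : Type*} [Monoid R] (e : R) : R → R → ℕ → R
  | _, _, 0 => e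
  | a, b, k + 1 => a * altE e b a k
/-- reversed alternating products -/
def ralt {R : Type*} [Monoid R] : R → R → ℕ → R
  | _, _, 0 => 1
  | a, b, k + 1 => ralt b a k * a
theorem altE_even {R : Type*} [Monoid R] (a b : R) (j : ℕ) : altE 1 a b (2 * j) = (a * b) ^ j := by
  induction j with
  | zero => simp [altE]
  | succ j ih => rw [pow_succ', ← ih, mul_assoc]; rfl
theorem altE_odd {R : Type*} [Monoid R] (a b : R) (j : ℕ) : altE 1 a b (2 * j + 1) = (a * b) ^ j * a := by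
  rw [altE, altE_even, mul_pow_mul]
theorem ralt_even {R : Type*} [Monoid R] (a b : R) (j : ℕ) : ralt a b (2 * j) = (b * a) ^ j := by
  induction j with
  | zero => simp [ralt]
  | succ j ih => rw [pow_succ, ← ih, ← mul_assoc]; rfl
theorem ralt_odd {R : Type*} [Monoid R] (a b : R) (j : ℕ) : ralt a b (2 * j + 1) = (a * b) ^ j * a := by rw [ralt, ralt_even]

/-- complex two by two matrices -/
abbrev M2 : Type := Matrix (Fin 2) (Fin 2) ℂ

section abstract
variable {R : Type*} [Ring R] [Algebra ℂ R] {n : ℕ} {u v : ℂ} {e a b : R} {M N : M2}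

/-- the relations of the normalised dihedral Hecke algebra -/
structure HR (n : ℕ) (u v : ℂ) (e a b : R) : Prop where
  ee : e * e = e
  ea : e * a = a
  eb : e * b = b
  aa : a * a = e + u • a
  bb : b * b = e + v • b
  br : altE e a b n = altE e b a n
theorem HR.symm (h : HR n u v e a b) : HR n v u e b a := ⟨h.ee, h.eb, h.ea, h.bb, h.aa, h.br.symm⟩
theorem HR.e_mul (h : HR n u v e a b) : ∀ k, e * altE e a b k = altE e a b k
  | 0 => h.ee
  | k + 1 => by rw [altE, ← mul_assoc, h.ea]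

/-- the dual of a matrix coefficient -/
noncomputable def EE (n : ℕ) (e a b : R) (M N : M2) (j : Fin 2) : R :=
  ∑ k ∈ range n, (ralt N M k 0 j • altE e b a k + ralt M N (k + 1) 0 j • altE e a b (k + 1))
theorem EE_symm (h1 : altE e a b n = altE e b a n) (h2 : ralt M N n = ralt N M n) : EE n e a b M N = EE n e b a N M := by
  ext j
  have k : ∀ f : ℕ → R, ∑ k ∈ range n, f (k + 1) = ∑ k ∈ range n, f k + f n - f 0 := fun f => by
    rw [← sum_range_succ, sum_range_succ', add_sub_cancel_right]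
  simp only [EE, sum_add_distrib]
  rw [k fun k => ralt M N k 0 j • altE e a b k, k fun k => ralt N M k 0 j • altE e b a k, h1, h2]
  simp only [ralt, altE]; abel
theorem HR.a_mul (h : HR n u v e a b) (hM : M * M = 1 + u • M) (j : Fin 2) : a * EE n e a b M N j = ∑ i, M i j • EE n e a b M N i := by
  simp only [EE, mul_sum, smul_sum]
  rw [sum_comm]
  refine sum_congr rfl fun k _ => ?_
  have h1 : ∀ (Y : M2) (x : R), ∑ i, M i j • Y 0 i • x = (Y * M) 0 j • x := fun Y x => by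
    simp [Matrix.mul_apply, smul_smul, add_smul, mul_comm]
  simp only [smul_add, sum_add_distrib, h1, ralt, altE, mul_add, mul_smul_comm, ← mul_assoc, h.aa, add_mul, h.symm.e_mul, smul_mul_assoc]
  rw [mul_assoc _ M M, hM, mul_add, mul_one, mul_smul_comm, Matrix.add_apply, Matrix.smul_apply, smul_eq_mul]; module
theorem altE_mul {E : Fin 2 → R} (he : ∀ j, e * E j = E j) (k : ℕ) : ∀ {a b : R} {M N : M2}, (∀ j, a * E j = ∑ i, M i j • E i) →
    (∀ j, b * E j = ∑ i, N i j • E i) → ∀ j, altE e a b k * E j = ∑ i, altE 1 M N k i j • E i := by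
  induction k with
  | zero => intro a b M N _ _ j; simp [altE, he, Matrix.one_apply]
  | succ k ih =>
    intro a b M N ha hb j
    simp only [altE, mul_assoc, ih hb ha, mul_add, mul_smul_comm, ha, Matrix.mul_apply, Fin.sum_univ_two]; module
theorem HR.b_mul (h : HR n u v e a b) (h' : HR n u v 1 M N) (hr : ralt M N n = ralt N M n) (j : Fin 2) :
    b * EE n e a b M N j = ∑ i, N i j • EE n e a b M N i := by rw [EE_symm h.br hr]; exact h.symm.a_mul h'.bb j
theorem HR.EE_mul (h : HR n u v e a b) (h' : HR n u v 1 M N) (hr : ralt M N n = ralt N M n) (l j : Fin 2) :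
    EE n e a b M N l * EE n e a b M N j = ∑ i, EE n 1 M N M N l i j • EE n e a b M N i := by
  have he : ∀ j, e * EE n e a b M N j = EE n e a b M N j := fun j => by
    simp only [EE, mul_sum, mul_add, mul_smul_comm, h.e_mul, h.symm.e_mul]
  have h1 := fun k => altE_mul he k (h.a_mul h'.aa) (h.b_mul h' hr) j
  have h2 := fun k => altE_mul he k (h.b_mul h' hr) (h.a_mul h'.aa) j
  generalize EE n e a b M N j = x at h1 h2
  generalize hE : EE n e a b M N = E at h1 h2
  have := congrFun hE l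
  rw [← this]
  simp only [EE, sum_mul, add_mul, smul_mul_assoc, h1, h2, Matrix.sum_apply, sum_smul]
  rw [sum_comm]
  refine sum_congr rfl fun k _ => ?_
  simp only [Fin.sum_univ_two, Matrix.add_apply, Matrix.smul_apply, smul_eq_mul]; module

theorem HR.schur (h : HR n u v e a b) (hn : Even n ∨ u = v) {ζ : ℂ} (h1 : ζ ^ n = 1) (h0 : n ≠ 0) (h2 : ζ ^ 2 ≠ 1) :
    ∃ (M N : M2) (c : ℂ), c * (4 - (ζ + ζ⁻¹) ^ 2) = n * (4 + u ^ 2 + v ^ 2 + u * v * (ζ + ζ⁻¹) - (ζ + ζ⁻¹) ^ 2) ∧
      EE n e a b M N 0 * EE n e a b M N 0 = c • EE n e a b M N 0 := by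
  have z0 : ζ ≠ 0 := by rintro rfl; simp [h0] at h1
  obtain ⟨ξ, hξ, x1⟩ : ∃ ξ, ζ⁻¹ = ξ ∧ ζ * ξ = 1 := ⟨_, rfl, mul_inv_cancel₀ z0⟩
  have x2 : ζ - ξ ≠ 0 := fun a => h2 (by linear_combination ζ * a + x1)
  have x3 : ξ ^ n = 1 := by rw [← hξ, inv_pow, h1, inv_one]
  obtain ⟨α, hα⟩ : ∃ α, α * (ζ - ξ) = u * ζ + v := ⟨_, div_mul_cancel₀ _ x2⟩
  obtain ⟨δ, rfl⟩ : ∃ δ, u = α + δ := ⟨u - α, by ring⟩
  obtain rfl : v = -(δ * ζ + α * ξ) := by linear_combination -hα
  obtain ⟨γ, hγ⟩ : ∃ γ, γ = 1 + α * δ := ⟨_, rfl⟩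
  rw [hξ]
  set M : M2 := !![α, 1; γ, δ]
  set M' : M2 := !![-δ, 1; γ, -α]
  set Y : M2 := !![ζ, 0; 0, ξ]
  have hY : ∀ j, Y ^ j = !![ζ ^ j, 0; 0, ξ ^ j] := fun j => by
    induction j with
    | zero => simp [Matrix.one_fin_two]
    | succ j ih => rw [pow_succ, ih]; simp [Y, pow_succ]
  have m1 : M * M' = 1 := by ext i j; fin_cases i <;> fin_cases j <;> simp [M, M', hγ, Matrix.mul_apply] <;> ring
  have m2 : M' * M = 1 := by ext i j; fin_cases i <;> fin_cases j <;> simp [M, M', hγ, Matrix.mul_apply] <;> ring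
  have m3 : M * (M' * Y) = Y := by rw [← mul_assoc, m1, one_mul]
  have m4 : ∀ j, (M' * Y * M) ^ j = M' * Y ^ j * M := fun j => by
    induction j with
    | zero => simp [m2]
    | succ j ih => rw [pow_succ, ih, pow_succ]; simp only [mul_assoc, ← mul_assoc M M', m1, one_mul]
  have m5 : ∀ j, (M' * Y * M) ^ j * (M' * Y) = M' * Y ^ (j + 1) := fun j => by rw [m4, mul_assoc, m3, pow_succ, mul_assoc]
  have hb : altE 1 M (M' * Y) n = altE 1 (M' * Y) M n ∧ ralt M (M' * Y) n = ralt (M' * Y) M n := by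
    obtain ⟨m, rfl | rfl⟩ := n.even_or_odd'
    · have : ξ ^ m = ζ ^ m := by
        have : ζ ^ m * ξ ^ m = 1 := by rw [← mul_pow, x1, one_pow]
        linear_combination ζ ^ m * this - ξ ^ m * h1
      have : M' * Y ^ m * M = Y ^ m := by
        rw [show Y ^ m = ζ ^ m • 1 by rw [hY, this]; ext i j; fin_cases i <;> fin_cases j <;> simp]; simp [m2]
      simp only [altE_even, ralt_even, m3, m4, this, and_self]
    · have h3 : α + δ = -(δ * ζ + α * ξ) := hn.resolve_left (by simp)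
      have h4 : α = -δ * ζ := mul_left_cancel₀ (a := 1 + ξ) (fun a => h2 (by linear_combination (ζ - 1) * ζ * a + (1 - ζ) * x1))
        (by linear_combination h3 + δ * x1)
      have h5 : ξ ^ (m + 1) = ζ ^ m := by
        have : ζ ^ (m + 1) * ξ ^ (m + 1) = 1 := by rw [← mul_pow, x1, one_pow]
        linear_combination ζ ^ m * this - ξ ^ (m + 1) * h1
      have h6 : ξ ^ m = ζ ^ (m + 1) := by linear_combination ζ * h5 - ξ ^ m * x1
      simp only [altE_odd, ralt_odd, m3, m5, and_self, hY, h5, h6]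
      ext i j; fin_cases i <;> fin_cases j <;> simp [M, M', h4, Matrix.mul_apply] <;> ring
  have h' : HR n (α + δ) (-(δ * ζ + α * ξ)) 1 M (M' * Y) := ⟨one_mul _, one_mul _, one_mul _,
    by ext i j; fin_cases i <;> fin_cases j <;> simp [M, hγ, Matrix.mul_apply] <;> ring, by
      ext i j; fin_cases i <;> fin_cases j <;> simp [M', Y, hγ, Matrix.mul_apply] <;> grind, hb.1⟩
  have c1 : EE n 1 M (M' * Y) M (M' * Y) 1 1 0 = n * γ := by
    rw [EE, Matrix.sum_apply, ← nsmul_eq_mul, ← card_range n, ← sum_const, card_range]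
    refine sum_congr rfl fun k _ => ?_
    have : ∀ m, ζ ^ m * ξ ^ m = 1 := fun m => by rw [← mul_pow, x1, one_pow]
    obtain ⟨m, rfl | rfl⟩ := k.even_or_odd'
    · simp only [altE_even, ralt_even, altE_odd, ralt_odd, m3, hY]
      simp [M, Matrix.mul_apply]; linear_combination γ * this m
    · simp only [add_assoc, one_add_one_eq_two, ← Nat.mul_succ, altE_even, ralt_even, altE_odd, ralt_odd, m3, m5, hY]
      simp [M', Matrix.mul_apply]; linear_combination γ * this (m + 1)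
  have e1 := fun j => h'.a_mul (N := M' * Y) h'.aa j
  have e2 := fun j => altE_mul (fun _ => one_mul _) 2 e1 (h'.b_mul h' hb.2) j
  simp only [altE, mul_one, m3] at e2
  have e3 := h.EE_mul h' hb.2 0 0
  generalize EE n 1 M (M' * Y) M (M' * Y) = E at c1 e1 e2 e3
  have c2 := congrFun (congrFun (e2 0) 1) 0
  have c3 := congrFun (congrFun (e1 1) 0) 0
  have c4 := congrFun (congrFun (e2 1) 0) 0
  simp [Y, M, Matrix.mul_apply] at c2 c3 c4
  have c5 : E 0 1 0 = 0 := c2.resolve_left fun a => x2 (by rw [a, sub_self])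
  have c6 : E 1 0 0 = 0 := c4.resolve_left fun a => x2 (by rw [a, sub_self])
  refine ⟨M, M' * Y, n * γ, by rw [hγ]; grind, ?_⟩
  rw [e3, Fin.sum_univ_two, c5, zero_smul, add_zero, ← c1]
  congr 1; linear_combination -c3 + (α - δ) * c6
end abstract

variable {G ι W : Type*} [Group G] [Group W] {S : InvGen ι W}

theorem eq_alt_of_reduced {s t : ι} (h : ∀ i, i = s ∨ i = t) {l : List ι} (hl : S.Reduced l) :
    l = InvGen.alt s t l.length ∨ l = InvGen.alt t s l.length := by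
  induction l with
  | nil => exact Or.inl rfl
  | cons i l ih =>
    have h1 : ∀ l', l ≠ i :: l' := by
      rintro l' rfl
      have := S.len_wp_le l'
      simp only [InvGen.Reduced, InvGen.wp_cons, InvGen.σ_mul_σ_mul, List.length_cons] at hl; omega
    cases l with
    | nil => rcases h i with rfl | rfl <;> simp [InvGen.alt]
    | cons j l =>
      rcases h i with rfl | rfl <;> rcases ih (hl.of_cons S) with e | e
      · exact absurd e (h1 _)
      · exact Or.inl (congrArg _ e)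
      · exact Or.inr (congrArg _ e)
      · exact absurd e (h1 _)
theorem len_alt (hE : S.Exchange) {k : ℕ} : ∀ {s t : ι}, (∀ i, i = s ∨ i = t) → (∀ j, 0 < j → j < k → (S.σ s * S.σ t) ^ j ≠ 1) →
    S.len (S.wp (InvGen.alt s t k)) = k := by
  induction k with
  | zero => intro s t _ _; simp [InvGen.alt]
  | succ k ih =>
    intro s t h h1
    have h2 := ih (s := t) (t := s) (fun i => (h i).symm) fun j a b e => h1 j a (by omega) (by
      rw [← inv_eq_one, ← inv_pow, mul_inv_rev, S.inv_σ, S.inv_σ, e])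
    rw [InvGen.alt, S.wp_cons]
    refine (hE.len_σ_mul s _).elim (fun e => by rw [e, h2]) fun e => ?_
    obtain ⟨l, h3, h4⟩ := S.exists_reduced (S.σ s * S.wp (InvGen.alt t s k))
    have h5 : S.wp (s :: l) = S.wp (InvGen.alt t s k) := by simp [h4]
    have h6 : (s :: l).length = k := by simp [h3, e, h2]
    have h7 : s :: l = InvGen.alt s t k := by
      rcases eq_alt_of_reduced (S := S) h (l := s :: l) (by rw [InvGen.Reduced, h5, h2, h6]) with a | a
      · rwa [h6] at a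
      · obtain rfl : s = t := (List.cons.inj a).1
        rwa [h6] at a
    have := InvGen.prod_alt_mul S.σ S.sq s t k
    rw [h7, InvGen.wp, InvGen.wp] at h5
    rw [h5, mul_inv_cancel] at this
    exact absurd this.symm (h1 k (by simp [← h6]) k.lt_succ_self)

namespace CellSys
variable [Fintype G] (X : CellSys G S)
/-- the normalised basis of the Hecke algebra -/
noncomputable def T' (w : W) : ℂ[G] := ((√(X.q w) : ℝ) : ℂ)⁻¹ • X.T w
theorem altE_T' {k : ℕ} : ∀ {s t : ι}, S.len (S.wp (InvGen.alt s t k)) = k →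
    altE (X.T 1) (X.T' (S.σ s)) (X.T' (S.σ t)) k = X.T' (S.wp (InvGen.alt s t k)) ∧
      X.q (S.wp (InvGen.alt s t k)) = altE 1 (X.q (S.σ s)) (X.q (S.σ t)) k := by
  induction k with
  | zero => intro s t _; simp [altE, InvGen.alt, T']
  | succ k ih =>
    intro s t h
    have h1 : S.len (S.wp (InvGen.alt t s k)) = k := by
      simpa [InvGen.Reduced, InvGen.length_alt] using InvGen.Reduced.of_cons S (i := s) (l := InvGen.alt t s k)
        (by simpa [InvGen.Reduced, InvGen.length_alt, InvGen.alt] using h)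
    rw [InvGen.alt, S.wp_cons] at h ⊢
    have h2 : S.len (S.wp (InvGen.alt t s k)) ≤ S.len (S.σ s * S.wp (InvGen.alt t s k)) := by omega
    refine ⟨?_, by rw [X.q_s_mul h2, (ih h1).2, altE]⟩
    rw [altE, (ih h1).1, T', T', T', smul_mul_smul_comm, X.T_s_mul h2, X.q_s_mul h2, Real.sqrt_mul (X.q_pos _).le]
    push_cast; rw [mul_inv]
theorem T'_sq (i : ι) : X.T' (S.σ i) * X.T' (S.σ i) = X.T 1 + ((√(X.q (S.σ i)) - (√(X.q (S.σ i)))⁻¹ : ℝ) : ℂ) • X.T' (S.σ i) := by
  have h : ((√(X.q (S.σ i)) : ℝ) : ℂ) ≠ 0 := by simpa using (Real.sqrt_pos.2 (X.q_pos _)).ne'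
  have h' : (X.q (S.σ i) : ℂ) = ((√(X.q (S.σ i)) : ℝ) : ℂ) ^ 2 := by exact_mod_cast (Real.sq_sqrt (X.q_pos _).le).symm
  rw [T', smul_mul_smul_comm, T_sq, h']; push_cast
  generalize ((√(X.q (S.σ i)) : ℝ) : ℂ) = x at h
  match_scalars <;> field_simp

theorem schur_rat {s t : ι} (h : ∀ i, i = s ∨ i = t) {n : ℕ} (hn : orderOf (S.σ s * S.σ t) = n) (h0 : n ≠ 0) {u v : ℝ}
    (hu : u = √(X.q (S.σ s)) - (√(X.q (S.σ s)))⁻¹) (hv : v = √(X.q (S.σ t)) - (√(X.q (S.σ t)))⁻¹) (h3 : Even n ∨ u = v)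
    {φ : ℝ} (h1 : Complex.exp (φ * Complex.I) ^ n = 1) (h2 : Real.cos φ ^ 2 ≠ 1) :
    ∃ c : ℚ, c * (4 - (2 * Real.cos φ) ^ 2) = 4 + u ^ 2 + v ^ 2 + u * v * (2 * Real.cos φ) - (2 * Real.cos φ) ^ 2 := by
  have l1 : ∀ k ≤ n, S.len (S.wp (InvGen.alt s t k)) = k := fun k hk =>
    len_alt X.exch h fun j a b => pow_ne_one_of_lt_orderOf a.ne' (by omega)
  have l2 : ∀ k ≤ n, S.len (S.wp (InvGen.alt t s k)) = k := fun k hk => len_alt X.exch (fun i => (h i).symm) fun j a b =>
    pow_ne_one_of_lt_orderOf a.ne' (by rw [← orderOf_inv, mul_inv_rev, S.inv_σ, S.inv_σ]; omega)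
  have H : HR n (u : ℂ) v (X.T 1) (X.T' (S.σ s)) (X.T' (S.σ t)) := ⟨by simp, by simp [T'], by simp [T'], hu ▸ X.T'_sq s, hv ▸ X.T'_sq t, by
    have := InvGen.prod_alt_mul S.σ S.sq s t n
    rw [← hn, pow_orderOf_eq_one, mul_inv_eq_one, hn] at this
    rw [(X.altE_T' (l1 n le_rfl)).1, (X.altE_T' (l2 n le_rfl)).1, InvGen.wp, this, InvGen.wp]⟩
  have e : Complex.exp (φ * Complex.I) + (Complex.exp (φ * Complex.I))⁻¹ = ((2 * Real.cos φ : ℝ) : ℂ) := by
    push_cast; rw [Complex.two_cos, ← Complex.exp_neg, neg_mul]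
  obtain ⟨M, N, c, h4, h5⟩ := H.schur (h3.imp_right (congrArg _)) h1 h0 fun a => h2 (by
    have z := Complex.exp_ne_zero (φ * Complex.I)
    have : ((2 * Real.cos φ : ℝ) : ℂ) ^ 2 = 4 := by rw [← e]; field_simp; rw [a]; norm_num
    have : (2 * Real.cos φ) ^ 2 = 4 := by exact_mod_cast this
    linarith)
  rw [e] at h4
  have h6 : (EE n (X.T 1) (X.T' (S.σ s)) (X.T' (S.σ t)) M N 0).coeff 1 = (Nat.card X.B : ℂ)⁻¹ := by
    have k : ∀ w, S.len w ≠ 0 → (X.T' w).coeff 1 = 0 := fun w hw => by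
      rw [T', coeff_smul', coeff_T, if_neg fun a => hw (S.len_eq_zero_iff.2 (X.uniq a (X.one.2 (one_mem _)))), mul_zero]
    have k1 : ∀ j < n, (altE (X.T 1) (X.T' (S.σ s)) (X.T' (S.σ t)) (j + 1)).coeff 1 = 0 := fun j hj => by
      rw [(X.altE_T' (l1 _ hj)).1, k _ (by simp [l1 _ hj])]
    rw [EE, coeff_sum', sum_eq_single 0 (fun j hj a => ?_) (by simp [h0]), coeff_add', coeff_smul', coeff_smul', k1 0 (by omega)]
    · simp [ralt, altE, coeff_T, X.one]
    · rw [coeff_add', coeff_smul', coeff_smul', k1 j (mem_range.1 hj), (X.altE_T' (l2 _ (mem_range.1 hj).le)).1,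
        k _ (by simpa [l2 _ (mem_range.1 hj).le])]; simp
  obtain ⟨r, rfl⟩ : ∃ r : ℚ, c = r := by
    by_cases a : c = 0
    · exact ⟨0, by simp [a]⟩
    obtain ⟨m, h7, -⟩ := trace_idem (f := c⁻¹ • EE n (X.T 1) (X.T' (S.σ s)) (X.T' (S.σ t)) M N 0) (by
      rw [smul_mul_smul_comm, h5, smul_smul, mul_assoc, inv_mul_cancel₀ a, mul_one])
    rw [coeff_smul', h6] at h7
    have := X.cB
    have : (Nat.card G : ℂ) ≠ 0 := Nat.cast_ne_zero.2 Nat.card_pos.ne'
    exact ⟨Nat.card G / (Nat.card X.B * m), by push_cast; rw [← h7]; field_simp⟩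
  refine ⟨r / n, ?_⟩
  have h7 : (r : ℝ) * (4 - (2 * Real.cos φ) ^ 2) = n * (4 + u ^ 2 + v ^ 2 + u * v * (2 * Real.cos φ) - (2 * Real.cos φ) ^ 2) := by
    exact_mod_cast h4
  have : (n : ℝ) ≠ 0 := by simpa
  push_cast; field_simp; linear_combination h7

theorem feit_higman {s t : ι} (h : ∀ i, i = s ∨ i = t) {n : ℕ} (hn : orderOf (S.σ s * S.σ t) = n) (h0 : 2 ≤ n)
    (hs : 1 < X.q (S.σ s)) (ht : 1 < X.q (S.σ t)) : n ∈ ({2, 3, 4, 6, 8} : Set ℕ) := by
  have key := fun u v hu hv h3 φ => X.schur_rat h hn (by omega) (u := u) (v := v) hu hv h3 (φ := φ)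
  have hq : ∀ w, 1 < X.q w → ∀ u, u = √(X.q w) - (√(X.q w))⁻¹ → 0 < u ∧ ∃ a : ℚ, u ^ 2 = a := fun w hw u hu => by
    have h1 : 1 < √(X.q w) := Real.lt_sqrt_of_sq_lt (by simpa)
    refine ⟨by have := inv_lt_one_of_one_lt₀ h1; linarith, #{g | X.C w g} / Nat.card X.B + (#{g | X.C w g} / Nat.card X.B : ℚ)⁻¹ - 2, ?_⟩
    have h2 := Real.sq_sqrt (X.q_pos w).le
    push_cast; rw [← q, hu, ← h2]; simp only [Real.sqrt_sq (zero_le_one.trans h1.le)]; field_simp; ring
  obtain ⟨u, hu⟩ : ∃ u, u = √(X.q (S.σ s)) - (√(X.q (S.σ s)))⁻¹ := ⟨_, rfl⟩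
  obtain ⟨v, hv⟩ : ∃ v, v = √(X.q (S.σ t)) - (√(X.q (S.σ t)))⁻¹ := ⟨_, rfl⟩
  obtain ⟨u0, a, ha⟩ := hq _ hs u hu
  obtain ⟨v0, b, hb⟩ := hq _ ht v hv
  have hn' : (n : ℝ) ≠ 0 := by positivity
  have e1 : ∀ j : ℕ, Complex.exp ((((2 * j / n : ℚ) : ℝ) * Real.pi : ℝ) * Complex.I) ^ n = 1 := fun j => by
    rw [← Complex.exp_nat_mul, ← Complex.exp_nat_mul_two_pi_mul_I j]; congr 1
    have : (n : ℂ) ≠ 0 := by exact_mod_cast hn'
    push_cast; field_simp
  have e2 : ∀ r : ℚ, 0 < r → r < 1 → Real.cos (r * Real.pi) ^ 2 < 1 := fun r a b => by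
    have a' : (0 : ℝ) < r := by exact_mod_cast a
    have b' : (r : ℝ) < 1 := by exact_mod_cast b
    have := Real.sin_pos_of_pos_of_lt_pi (x := r * Real.pi) (by positivity) (by nlinarith [Real.pi_pos])
    nlinarith [Real.sin_sq_add_cos_sq (r * Real.pi)]
  rcases h0.eq_or_lt with rfl | h0
  · simp
  have h1 : (2 : ℚ) < n := by exact_mod_cast h0
  have r0 : ∀ j : ℕ, 0 < j → (0 : ℚ) < 2 * j / n := fun j _ => by positivity
  obtain ⟨m, rfl | rfl⟩ := n.even_or_odd'
  · have k : ∀ j : ℕ, 0 < j → j < m → (∃ c : ℚ, Real.cos ((2 * j / (2 * m : ℕ) : ℚ) * Real.pi) ^ 2 = c) ∧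
        ∃ c : ℚ, u * v * Real.cos ((2 * j / (2 * m : ℕ) : ℚ) * Real.pi) = c := fun j j0 j1 => by
      have c0 := e2 _ (r0 j j0) (by rw [div_lt_one (by positivity)]; exact_mod_cast (by omega : 2 * j < 2 * m))
      obtain ⟨c, hc⟩ := key u v hu hv (Or.inl (by simp)) _ (e1 j) c0.ne
      obtain ⟨d, hd⟩ := key u v hu hv (Or.inl (by simp)) (((2 * j / (2 * m : ℕ) : ℚ) : ℝ) * Real.pi + Real.pi) (by
        have := e1 j
        push_cast at this ⊢
        rw [add_mul, Complex.exp_add, Complex.exp_pi_mul_I, mul_pow, this]; simp) (by simpa using c0.ne)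
      rw [Real.cos_add_pi] at hd
      generalize Real.cos _ = x at c0 hc hd ⊢
      have d0 : (c : ℝ) + d - 2 ≠ 0 := fun z => by
        have : u ^ 2 + v ^ 2 = 0 := by linear_combination (4 - 4 * x ^ 2) / 2 * z - hc / 2 - hd / 2
        nlinarith
      have d1 : x ^ 2 = ((1 - (a + b) / (2 * (c + d - 2)) : ℚ) : ℝ) := by
        push_cast; field_simp; linear_combination -hc / 2 - hd / 2 - ha - hb
      exact ⟨⟨_, d1⟩, (c - d) * (1 - (1 - (a + b) / (2 * (c + d - 2)))), by
        rw [Rat.cast_mul, Rat.cast_sub 1, ← d1]; push_cast; linear_combination hd / 4 - hc / 4⟩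
    have m2 : (2 : ℚ) ≤ m := by exact_mod_cast (by omega : 2 ≤ m)
    have m0 : (m : ℚ) ≠ 0 := by positivity
    obtain ⟨⟨c, hc⟩, d, hd⟩ := k 1 one_pos (by omega)
    have := niven_angle_div_pi_eq (r := 2 / m) ⟨2 * c - 1, by
      push_cast at hc ⊢; rw [← hc, ← Real.cos_two_mul]; congr 1; field_simp⟩ ⟨by positivity, by rw [div_le_one (by positivity)]; exact m2⟩
    simp only [Set.mem_insert_iff, Set.mem_singleton_iff] at this ⊢
    field_simp at this
    norm_cast at this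
    simp only [false_or] at this
    rcases (by omega : m = 6 ∨ m = 4 ∨ m = 3 ∨ m = 2) with rfl | rfl | rfl | rfl <;> try simp
    obtain ⟨-, d', hd'⟩ := k 2 two_pos (by omega)
    rw [show ((2 * (2 : ℕ) / (2 * 6 : ℕ) : ℚ) : ℝ) * Real.pi = Real.pi / 3 by push_cast; ring, Real.cos_pi_div_three] at hd'
    have := niven_angle_div_pi_eq (r := 2 * (1 : ℕ) / (2 * 6 : ℕ)) ⟨d / (2 * d'), by
      have := mul_pos u0 v0
      rw [Rat.cast_div d, Rat.cast_mul 2 d', ← hd, ← hd']; push_cast; field_simp⟩ (by norm_num)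
    norm_num at this
  · have l : ∀ {s t : ι}, (∀ i, i = s ∨ i = t) → orderOf (S.σ s * S.σ t) = 2 * m + 1 →
        X.q (S.wp (InvGen.alt s t (2 * m + 1))) = (X.q (S.σ s) * X.q (S.σ t)) ^ m * X.q (S.σ s) := fun h hn => by
      rw [(X.altE_T' (len_alt X.exch h fun j a b => pow_ne_one_of_lt_orderOf a.ne' (by omega))).2, altE_odd]
    have l1 := l h hn
    have l2 := l (fun i => (h i).symm) (by rw [← orderOf_inv, mul_inv_rev, S.inv_σ, S.inv_σ, hn])
    have := InvGen.prod_alt_mul S.σ S.sq s t (2 * m + 1)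
    rw [← hn, pow_orderOf_eq_one, mul_inv_eq_one, hn] at this
    rw [InvGen.wp, this, ← InvGen.wp, l2, mul_comm (X.q (S.σ t)), mul_right_inj' (by positivity)] at l1
    obtain rfl : u = v := by rw [hu, hv, l1]
    have c0 := e2 _ (r0 1 one_pos) (by rw [div_lt_one (by positivity)]; simpa using h1)
    obtain ⟨c, hc⟩ := key u u hu hv (Or.inr rfl) _ (e1 1) c0.ne
    have := niven_angle_div_pi_eq (r := 2 * (1 : ℕ) / (2 * m + 1 : ℕ)) ⟨1 - a / (2 * (c - 1)), by
      generalize Real.cos _ = x at c0 hc ⊢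
      have d0 : (c - 1) * (2 - 2 * x) = u ^ 2 := mul_left_cancel₀ (a := 1 + x) (by nlinarith) (by linear_combination hc / 2)
      have d1 : (c : ℝ) - 1 ≠ 0 := fun z => by rw [z] at d0; nlinarith
      push_cast; field_simp; linear_combination -d0 - ha⟩ ⟨(r0 1 one_pos).le, by rw [div_le_one (by positivity)]; simpa using h1.le⟩
    simp only [Set.mem_insert_iff, Set.mem_singleton_iff] at this ⊢
    field_simp at this
    norm_cast at this
    simp only [false_or] at this
    omega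
end CellSys

theorem feit_higman [Finite G] (P : BNPair G) (h2 : P.rank = 2) : Nat.card (BN.W P) ∈ ({4, 6, 8, 12, 16} : Set ℕ) := by
  have := Fintype.ofFinite G
  obtain ⟨s, t, h1, h3⟩ := Nat.card_eq_two_iff.1 h2
  have h : ∀ i, i = s ∨ i = t := fun i => by simpa using h3.ge (Set.mem_univ i)
  have o : ∀ i, orderOf (BN.sW P i) = 2 := fun i => orderOf_eq_prime (by rw [pow_two, BN.sW_sq]) (BN.sW_ne_one i)
  have q : ∀ i, 1 < (CellSys.ofBN P).q (BN.sW P i) := fun i => by
    obtain ⟨b, hb, e⟩ := BN.exists_conj_cell i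
    exact (CellSys.ofBN P).one_lt_q (i := i) ((BN.cell_sW i).mul_right hb) (BN.cell_sW i) e
  have h4 := (CellSys.ofBN P).feit_higman h rfl (by
    have := orderOf_pos (BN.sW P s * BN.sW P t)
    have : orderOf (BN.sW P s * BN.sW P t) ≠ 1 := fun e => h1 (BN.sW_injective P (by
      rw [orderOf_eq_one_iff, ← BN.sW_sq P t] at e; exact mul_right_cancel e))
    simp only [BN.gen_σ]; omega) (q s) (q t)
  obtain ⟨e⟩ := H9.nonempty_closure_pair_equiv_dihedral (o s) (o t)
  have h5 : Subgroup.closure {BN.sW P s, BN.sW P t} = ⊤ := eq_top_iff.2 fun w _ => by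
    obtain ⟨l, rfl⟩ := BN.exists_word P w
    exact list_prod_mem fun x hx => by
      obtain ⟨i, -, rfl⟩ := List.mem_map.1 hx
      rcases h i with rfl | rfl <;> exact Subgroup.subset_closure (by simp)
  rw [← Subgroup.card_top, ← h5, Nat.card_congr e.toEquiv, DihedralGroup.nat_card]
  simp only [BN.gen_σ, Set.mem_insert_iff, Set.mem_singleton_iff] at h4 ⊢; omega

end H12
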