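import Cfsg.Agent.H13.BN
import Cfsg.Agent.H7.GA
import Mathlib.LinearAlgebra.Trace
import Mathlib.Analysis.Complex.Basic
/-! Hecke algebras inside `ℂ[G]`: a `CellSys G S` is a Bruhat type decomposition of the finite group `G` over an `InvGen` with the exchange
condition; `T w` (the normalised cell sums) satisfy `T_s T_w = T_{sw}` (`T_s_mul`, `T_mul_s`), `T_s² = q + (q - 1) T_s` (`T_sq`).
`CellSys.ofBN` is the system of a BN-pair; `trace_idem`: `|G| f(1)` is the rank of an idempotent `f`. -/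

set_option autoImplicit false

namespace H12
open Cfsg H13 H7 Finset MonoidAlgebra
open scoped Classical

variable {G ι W : Type*} [Group G] [Group W]

theorem trace_mulLeft [Fintype G] (f : ℂ[G]) : LinearMap.trace ℂ _ (LinearMap.mulLeft ℂ f) = Nat.card G * f.coeff 1 := by
  rw [LinearMap.trace_eq_matrix_trace ℂ (MonoidAlgebra.basis G ℂ), Matrix.trace, Nat.card_eq_fintype_card, ← nsmul_eq_mul, ← card_univ, ← sum_const]
  refine sum_congr rfl fun g _ => ?_
  rw [Matrix.diag_apply, LinearMap.toMatrix_apply, MonoidAlgebra.basis_apply]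
  exact (coeff_mul_single_one' g f g).trans (by simp)
theorem trace_idem [Finite G] {f : ℂ[G]} (h : f * f = f) : ∃ m : ℕ, Nat.card G * f.coeff 1 = m ∧ (m = 0 → f = 0) := by
  have := Fintype.ofFinite G
  have : Module.Finite ℂ ℂ[G] := Module.Finite.of_basis (MonoidAlgebra.basis G ℂ)
  have h1 : IsIdempotentElem (LinearMap.mulLeft ℂ f) := LinearMap.ext fun x => by simp [← mul_assoc, h]
  have h2 := (LinearMap.IsIdempotentElem.isProj_range _ h1).trace
  refine ⟨_, (trace_mulLeft f).symm.trans h2, fun e => ?_⟩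
  simpa using LinearMap.congr_fun (LinearMap.IsIdempotentElem.eq_zero_of_trace_eq_zero h1 (by rw [h2, e, Nat.cast_zero])) 1

/-- Bruhat type cell decompositions -/
structure CellSys (G : Type*) [Group G] (S : InvGen ι W) where
  B : Subgroup G
  C : W → G → Prop
  exch : S.Exchange
  one : ∀ {g}, C 1 g ↔ g ∈ B
  inv : ∀ {w g}, C w g → C w⁻¹ g⁻¹
  mul_left : ∀ {w g b}, C w g → b ∈ B → C w (b * g)
  trans : ∀ {w g g'}, C w g → C w g' → ∃ b ∈ B, ∃ b' ∈ B, g' = b * g * b'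
  uniq : ∀ {v w g}, C v g → C w g → v = w
  ex : ∀ g, ∃ w, C w g
  ne : ∀ w, ∃ g, C w g
  s_mul : ∀ {i w x g}, C (S.σ i) x → C w g → C (S.σ i * w) (x * g) ∨ C w (x * g)
  s_mul_le : ∀ {i w x g}, S.len w ≤ S.len (S.σ i * w) → C (S.σ i) x → C w g → C (S.σ i * w) (x * g)

/-- the cell system of a BN-pair -/
def CellSys.ofBN (P : BNPair G) : CellSys G (BN.gen P) where
  B := P.B
  C := BN.Cell P
  exch := BN.exchange P
  one := BN.cell_one_iff
  inv := BN.Cell.inv
  mul_left := BN.Cell.mul_left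
  trans := BN.Cell.exists_eq
  uniq := BN.cell_unique
  ex := BN.exists_cell P
  ne w := (BN.exists_cell_nonempty w).elim fun n h => ⟨n, h.2⟩
  s_mul := BN.Cell.s_mul
  s_mul_le h := BN.cell_mul_of_len_le h

namespace CellSys
variable {S : InvGen ι W} (X : CellSys G S)

theorem mul_right {w : W} {g b : G} (h : X.C w g) (hb : b ∈ X.B) : X.C w (g * b) := by
  simpa using X.inv (X.mul_left (X.inv h) (inv_mem hb))
theorem left_iff {w : W} {g b : G} (hb : b ∈ X.B) : X.C w (b * g) ↔ X.C w g :=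
  ⟨fun h => by simpa using X.mul_left h (inv_mem hb), fun h => X.mul_left h hb⟩
theorem right_iff {w : W} {g b : G} (hb : b ∈ X.B) : X.C w (g * b) ↔ X.C w g :=
  ⟨fun h => by simpa using X.mul_right h (inv_mem hb), fun h => X.mul_right h hb⟩
theorem inv_iff {w : W} {g : G} : X.C w g⁻¹ ↔ X.C w⁻¹ g := ⟨fun h => by simpa using X.inv h, fun h => by simpa using X.inv h⟩
include X in
theorem σ_ne (i : ι) : S.σ i ≠ 1 := fun e => by simpa [e] using X.exch.len_σ_mul i 1

variable [Fintype G]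
/-- the normalised cell sum -/
noncomputable def T (w : W) : ℂ[G] := (Nat.card X.B : ℂ)⁻¹ • setSum ℂ {g | X.C w g}
/-- the number of cosets of `B` in a cell -/
noncomputable def q (w : W) : ℝ := #{g | X.C w g} / Nat.card X.B

omit [Fintype G] in
theorem cB [Finite G] : (Nat.card X.B : ℂ) ≠ 0 := Nat.cast_ne_zero.2 Nat.card_pos.ne'
theorem q_pos (w : W) : 0 < X.q w :=
  div_pos (Nat.cast_pos.2 (card_pos.2 ((X.ne w).imp fun _ h => by simpa using h))) (Nat.cast_pos.2 Nat.card_pos)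
theorem card_C (w : W) : (#{g | X.C w g} : ℂ) = X.q w * Nat.card X.B := by simp [q, X.cB]
theorem coeff_T (w : W) (g : G) : (X.T w).coeff g = if X.C w g then (Nat.card X.B : ℂ)⁻¹ else 0 := by
  simp [T, coeff_smul', coeff_setSum]
theorem coeff_T_mul (v : W) (a : ℂ[G]) (g : G) : (X.T v * a).coeff g = (Nat.card X.B : ℂ)⁻¹ * ∑ x with X.C v x, a.coeff (x⁻¹ * g) := by
  simp [coeff_mul_sum, coeff_T, sum_filter, mul_sum]
theorem coeff_T_mul_T (v w : W) (g : G) :
    (X.T v * X.T w).coeff g = (Nat.card X.B : ℂ)⁻¹ * (#{x | X.C v x ∧ X.C w (x⁻¹ * g)} * (Nat.card X.B : ℂ)⁻¹) := by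
  rw [coeff_T_mul, ← filter_filter, ← nsmul_eq_mul, ← sum_const, sum_filter (fun x => X.C w (x⁻¹ * g))]; simp only [coeff_T]
theorem card_coset (y : G) : #{x | y⁻¹ * x ∈ X.B} = Nat.card X.B := by
  rw [← Fintype.card_subtype, ← Nat.card_eq_fintype_card]
  exact Nat.card_congr ((Equiv.mulLeft y⁻¹).subtypeEquiv fun _ => Iff.rfl)
theorem T_mul_of {u v w : W} (h1 : ∀ x y, X.C u x → X.C v y → X.C w (x * y))
    (h2 : ∀ x y x' y', X.C u x → X.C v y → X.C u x' → X.C v y' → x * y = x' * y' → x⁻¹ * x' ∈ X.B) : X.T u * X.T v = X.T w := by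
  refine ga_ext fun g => ?_
  rw [coeff_T_mul_T, coeff_T]
  split_ifs with e
  · obtain ⟨x, hx⟩ := X.ne u
    obtain ⟨y, hy⟩ := X.ne v
    obtain ⟨b, hb, b', hb', rfl⟩ := X.trans (h1 x y hx hy) e
    rw [filter_congr (q := fun z => (b * x)⁻¹ * z ∈ X.B) fun z _ => ⟨fun a => h2 _ _ _ _ (X.mul_left hx hb)
      (X.mul_right hy hb') a.1 a.2 (by simp [mul_assoc]), fun a => ⟨by simpa [mul_assoc] using X.mul_right (X.mul_left hx hb) a,
        by simpa [mul_assoc] using X.mul_left (X.mul_right hy hb') (inv_mem a)⟩⟩, X.card_coset, mul_inv_cancel₀ X.cB, mul_one]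
  · rw [filter_false_of_mem fun x _ a => e (by simpa using h1 _ _ a.1 a.2)]; simp
@[simp] theorem T_one_mul (w : W) : X.T 1 * X.T w = X.T w :=
  X.T_mul_of (fun _ _ a b => X.mul_left b (X.one.1 a)) fun _ _ _ _ a _ b _ _ => mul_mem (inv_mem (X.one.1 a)) (X.one.1 b)
@[simp] theorem T_mul_one (w : W) : X.T w * X.T 1 = X.T w := X.T_mul_of (fun _ _ a b => X.mul_right a (X.one.1 b)) fun x y x' y' _ a _ b e => by
  rw [show x⁻¹ * x' = y * y'⁻¹ by rw [eq_mul_inv_iff_mul_eq, mul_assoc, ← e]; simp]; exact mul_mem (X.one.1 a) (inv_mem (X.one.1 b))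
theorem T_s_mul {i : ι} {w : W} (h : S.len w ≤ S.len (S.σ i * w)) : X.T (S.σ i) * X.T w = X.T (S.σ i * w) :=
  X.T_mul_of (fun _ _ => X.s_mul_le h) fun x y x' y' a b c d e => by
    refine (X.s_mul (by simpa using X.inv a : X.C (S.σ i) x⁻¹) c).elim (fun f => X.one.1 (S.sq i ▸ f)) fun f => absurd ?_ (X.σ_ne i)
    exact mul_eq_right.1 (X.uniq (X.s_mul_le h f d) (by rwa [mul_assoc, ← e, inv_mul_cancel_left]))
theorem T_mul_s {i : ι} {w : W} (h : S.len w ≤ S.len (w * S.σ i)) : X.T w * X.T (S.σ i) = X.T (w * S.σ i) := by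
  have h' : S.len w⁻¹ ≤ S.len (S.σ i * w⁻¹) := by rwa [S.len_inv, ← S.len_inv (_ * _), mul_inv_rev, inv_inv, S.inv_σ]
  have k : ∀ x y, X.C w x → X.C (S.σ i) y → X.C (w * S.σ i) (x * y) := fun x y a b => by
    simpa using X.inv (X.s_mul_le h' (by simpa using X.inv b : X.C (S.σ i) y⁻¹) (X.inv a))
  refine X.T_mul_of k fun x y x' y' a b c d e => ?_
  have e' : x⁻¹ * x' = y * y'⁻¹ := by rw [eq_mul_inv_iff_mul_eq, mul_assoc, ← e]; simp
  refine (X.s_mul b (by simpa using X.inv d : X.C (S.σ i) y'⁻¹)).elim (fun f => e' ▸ X.one.1 (S.sq i ▸ f)) fun f => absurd ?_ (X.σ_ne i)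
  exact mul_eq_left.1 (X.uniq (k _ _ a f) (by rwa [← e', mul_inv_cancel_left]))
theorem card_sq {i : ι} {g : G} (h : X.C (S.σ i) g) :
    #{x | X.C (S.σ i) x ∧ X.C (S.σ i) (x⁻¹ * g)} + Nat.card X.B = #{x | X.C (S.σ i) x} := by
  rw [← card_filter_add_card_filter_not (s := univ.filter (X.C (S.σ i))) (fun x => X.C (S.σ i) (x⁻¹ * g)), filter_filter, filter_filter,
    ← X.card_coset g]
  congr 2; ext x
  simp only [mem_filter, mem_univ, true_and]
  refine ⟨fun a => ⟨by simpa using X.mul_right h a, fun b => X.σ_ne i (X.uniq b (X.one.2 (by simpa using inv_mem a)))⟩, fun a => ?_⟩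
  simpa using inv_mem ((X.one (g := x⁻¹ * g)).1 (S.sq i ▸ (X.s_mul (by simpa using X.inv a.1 : X.C (S.σ i) x⁻¹) h).resolve_right a.2))
theorem T_sq (i : ι) : X.T (S.σ i) * X.T (S.σ i) = (X.q (S.σ i) : ℂ) • X.T 1 + (X.q (S.σ i) - 1 : ℂ) • X.T (S.σ i) := by
  refine ga_ext fun g => ?_
  rw [coeff_T_mul_T, coeff_add', coeff_smul', coeff_smul', coeff_T, coeff_T]
  have := X.cB
  by_cases e : X.C 1 g
  · rw [if_pos e, if_neg fun a => X.σ_ne i (X.uniq a e), filter_congr (q := X.C (S.σ i)) fun x _ => by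
      rw [X.right_iff (X.one.1 e), inv_iff, S.inv_σ, and_self], card_C]
    field_simp; simp
  rw [if_neg e]
  split_ifs with e'
  · have h := congrArg (Nat.cast (R := ℂ)) (X.card_sq e')
    rw [Nat.cast_add, card_C] at h
    rw [eq_sub_of_add_eq h]
    field_simp; simp
  · rw [filter_false_of_mem fun x _ a => by simpa [S.sq, e, e'] using X.s_mul a.1 a.2]; simp
theorem T_s_mul' {i : ι} {w : W} (h : ¬ S.len w ≤ S.len (S.σ i * w)) :
    X.T (S.σ i) * X.T w = (X.q (S.σ i) : ℂ) • X.T (S.σ i * w) + (X.q (S.σ i) - 1 : ℂ) • X.T w := by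
  have := X.T_s_mul (i := i) (w := S.σ i * w) (by simpa using le_of_not_ge h)
  rw [S.σ_mul_σ_mul] at this
  rw [← this, ← mul_assoc, T_sq, add_mul, smul_mul_assoc, smul_mul_assoc, T_one_mul]
theorem T_mul_s' {i : ι} {w : W} (h : ¬ S.len w ≤ S.len (w * S.σ i)) :
    X.T w * X.T (S.σ i) = (X.q (S.σ i) : ℂ) • X.T (w * S.σ i) + (X.q (S.σ i) - 1 : ℂ) • X.T w := by
  have := X.T_mul_s (i := i) (w := w * S.σ i) (by simpa using le_of_not_ge h)
  rw [S.mul_σ_mul_σ] at this
  rw [← this, mul_assoc, T_sq, mul_add, mul_smul_comm, mul_smul_comm, T_mul_one]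
theorem ev_T (w : W) : ev (fun _ => 1) (X.T w) = X.q w := by
  have := X.cB
  simp only [ev_apply, coeff_T, mul_one, ← sum_filter, sum_const, nsmul_eq_mul, card_C]; field_simp
theorem q_of_mul {u v w : W} (h : X.T u * X.T v = X.T w) : X.q w = X.q u * X.q v := by
  have := X.ev_T w
  rw [← h, ev_mul] at this
  simp only [mul_one, ← sum_mul_sum] at this
  have e := fun w => X.ev_T w
  simp only [ev_apply, mul_one] at e
  rw [e, e] at this; exact_mod_cast this.symm
@[simp] theorem q_one : X.q 1 = 1 := by simpa [(X.q_pos 1).ne'] using X.q_of_mul (X.T_one_mul 1)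
theorem q_s_mul {i : ι} {w : W} (h : S.len w ≤ S.len (S.σ i * w)) : X.q (S.σ i * w) = X.q (S.σ i) * X.q w := X.q_of_mul (X.T_s_mul h)
theorem one_lt_q {i : ι} {x y : G} (hx : X.C (S.σ i) x) (hy : X.C (S.σ i) y) (h : X.C (S.σ i) (x * y)) : 1 < X.q (S.σ i) := by
  rw [q, one_lt_div (Nat.cast_pos.2 Nat.card_pos), ← X.card_sq h]
  exact_mod_cast Nat.lt_add_of_pos_left (card_pos.2 ⟨x, by simp [hx, hy]⟩)

end CellSys
end H12
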