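import Cfsg.Agent.H12.MS
import Cfsg.Agent.H12.TwF4
import Cfsg.Agent.H24.MSRep
import Cfsg.Agent.H13.SzTori
import Cfsg.Agent.H21.SchurCover
/-! Subgroups with cyclic `r`-subgroups (`CycS`), splitting of coprime central extensions over them (`CX.eq_one_of_cyc`), and the
Suzuki Levi factor of `²F₄(q)` (`exists_sz`). -/

set_option autoImplicit false

namespace H12
open Cfsg.Lie H13 H24 StSys Subgroup
open scoped commutatorElement

section cyc
variable {G H : Type*} [Group G] [Group H] {r : ℕ}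
/-- the `r`-subgroups of `A` are cyclic -/
def CycS (r : ℕ) (A : Subgroup G) : Prop := ∀ P ≤ A, IsPGroup r P → ∃ g ∈ P, P ≤ zpowers g
theorem CycS.comap {A : Subgroup G} (h : CycS r A) {f : H →* G} (hf : Function.Injective f) : CycS r (A.comap f) := fun P h1 h2 => by
  obtain ⟨_, ⟨g, hg, rfl⟩, e⟩ := h (P.map f) (map_le_iff_le_comap.2 h1) (h2.map f)
  exact ⟨g, hg, fun x hx => let ⟨k, hk⟩ := e ⟨x, hx, rfl⟩; ⟨k, hf ((map_zpow f g k).trans hk)⟩⟩
theorem CycS.map {A : Subgroup G} (h : CycS r A) {f : G →* H} (hf : Function.Injective f) : CycS r (A.map f) := fun P h1 h2 => by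
  obtain ⟨g, hg, e⟩ := h (P.comap f) ((comap_mono h1).trans (comap_map_eq_self_of_injective hf A).le) (h2.comap_of_injective f hf)
  refine ⟨f g, hg, fun x hx => ?_⟩
  obtain ⟨y, -, rfl⟩ := h1 hx
  obtain ⟨k, rfl⟩ := e hx
  exact ⟨k, (map_zpow f g k).symm⟩
theorem CX.eq_one_of_cyc [Finite H] {p : ℕ} {π : H →* G} (h : CX π p) {s : Set H} (hs : ∀ e ∈ s, PE p e) {A : Subgroup G}
    (hA : ∀ r, r.Prime → r ≠ p → CycS r A) (hp : p.Prime) (hm : ∀ e ∈ s, π e ∈ A) {z : H} (hz : z ∈ closure s) (h1 : π z = 1) : z = 1 := by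
  by_contra h0
  obtain ⟨r, hr, n, hn⟩ := Nat.exists_prime_and_dvd (mt orderOf_eq_one_iff.1 h0)
  obtain ⟨m, hm1, hm2⟩ := h.cop
  have := Fact.mk hr
  have rp : r ≠ p := fun e => hp.one_lt.ne' (Nat.eq_one_of_dvd_coprimes hm1 dvd_rfl
    (e ▸ (Dvd.intro _ hn.symm).trans (orderOf_dvd_of_pow_eq_one (hm2 z h1))))
  let y : closure s := ⟨z, hz⟩ ^ n
  have hy : orderOf y = r := by
    have n0 : n ≠ 0 := fun e => (orderOf_pos z).ne' (by simp [hn, e])
    rw [orderOf_pow_of_dvd n0 (by rw [orderOf_mk, hn]; simp), orderOf_mk, hn, Nat.mul_div_cancel _ (Nat.pos_of_ne_zero n0)]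
  have k : ∀ x (hx : x ∈ closure s), PE p (Abelianization.of (⟨x, hx⟩ : closure s)) := fun x hx => by
    induction hx using closure_induction with
    | mem x hx => exact (hs x hx).imp fun k hk => by rw [← map_pow, show (⟨x, _⟩ ^ _ : closure s) = 1 from Subtype.ext hk, map_one]
    | one => exact PE.one
    | inv x _ ih => exact (map_inv Abelianization.of (⟨x, _⟩ : closure s)).symm ▸ ih.inv
    | mul x x' _ _ ih ih' =>
      obtain ⟨⟨a, ha⟩, b, hb⟩ := And.intro ih ih'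
      exact ⟨a + b, by
        rw [show (⟨x * x', _⟩ : closure s) = ⟨x, ‹_›⟩ * ⟨x', ‹_›⟩ from rfl, map_mul, mul_pow, pow_add, pow_mul, ha, mul_comm (p ^ a), pow_mul, hb]; simp⟩
  obtain ⟨j, hj⟩ := k y y.2
  have h2 : y ∈ commutator _ := by
    rw [← Abelianization.ker_of, MonoidHom.mem_ker]
    exact orderOf_eq_one_iff.1 (Nat.eq_one_of_dvd_coprimes (((Nat.coprime_primes hr hp).2 rp).pow_right j)
      (hy ▸ orderOf_map_dvd _ y) (orderOf_dvd_of_pow_eq_one hj))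
  obtain ⟨P⟩ : Nonempty (Sylow r (closure s)) := inferInstance
  have h3 := H21.pow_index_mem_commutator (P : Subgroup (closure s)) (mem_center_iff.2 fun g => Subtype.ext
    (mem_center_iff.1 (h.cen (pow_mem (show z ∈ π.ker from h1) n)) g)) h2
  obtain ⟨_, ⟨g, -, rfl⟩, e⟩ := hA r hr rp ((P : Subgroup (closure s)).map (π.comp (closure s).subtype))
    (by rintro _ ⟨x, -, rfl⟩; exact (closure_le (A.comap π)).2 hm x.2) (P.2.map _)
  have h4 : ⁅(P : Subgroup (closure s)), (P : Subgroup (closure s))⁆ ≤ ⊥ := commutator_le.2 fun a ha b hb => Subtype.ext (by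
    obtain ⟨⟨i, hi⟩, k, hk⟩ := And.intro (e ⟨a, ha, rfl⟩) (e ⟨b, hb, rfl⟩)
    exact (comm_congr h.cen (a' := g.1 ^ i) (b' := g.1 ^ k) (hi.symm.trans (map_zpow π _ _).symm) (hk.symm.trans (map_zpow π _ _).symm)).trans
      ((Commute.refl _).zpow_zpow i k).commutator_eq)
  exact P.not_dvd_index (hy.symm.dvd.trans (orderOf_dvd_of_pow_eq_one (h4 h3)))
end cyc

theorem Lay.Orb.rp_congr {D : ChevalleyDatum} [Good D] {F Γ E : Type*} [Field F] [Group Γ] [Group E] {S : StSys D F Γ} {θ : Γ →* GL D.Idx F}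
    {L : Lay D F} {R : RSym D} {τ : TwF S R} {π : E →* Γ} (o : L.Orb R) (hθ : S.Cov θ) (hf : π.range ≤ τ.Fix) {r s : Φ D} (hr : IsPos r)
    (hs : IsPos s) (e : L.κ s = L.κ r) {A : Set Γ} (h : L.Rp S π r A) : L.Rp S π s A := fun a ha => by
  obtain ⟨b, h1, h2, h3⟩ := h a (e ▸ ha)
  have := o.congr hθ hr h2.1 (e ▸ ha.1) (hf h2.2) (hf ha.2) h3
  rw [← e] at this h2
  refine ⟨b, h1, h2, ?_⟩
  rw [← mul_inv_cancel_left b a, Lay.ld_mul hθ hs h2.1 (L.U_mono S (Nat.le_succ _) this), Lay.ld_succ hθ hs this, add_zero]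

/-- the root elements of `Sp₄` -/
def mat4 (r : ℕ) : Sp (Fin 4) := [[(3, 0, -1)], [(2, 0, -1), (3, 1, -1)], [(1, 0, 1), (3, 2, -1)], [(2, 1, 1)], [(1, 2, 1)],
  [(0, 1, 1), (2, 3, -1)], [(0, 2, -1), (1, 3, -1)], [(0, 3, -1)]].getD r []
theorem rep4 : RepChk (tab chevB2) mat4 (fun _ => []) fun a i => ent [[1, 0], [-1, 1], [1, -1], [-1, 0]] a i := by
  rw [tabB2_eq]; decide +kernel
theorem lift_inj_B2 {K Γ : Type*} [Field K] [Finite K] [CharP K 2] [Group Γ] (h : ∃ a : K, a ≠ 0 ∧ a ≠ 1) (S : StSys chevB2 K Γ)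
    (h0 : ∃ r t, S.x r t ≠ 1) : Function.Injective (r3_of_finite S).lift := (MonoidHom.ker_eq_bot_iff _).1 (eq_bot_iff.2
  ((ker_lift_le _ (simple_group fun S => perfB2.perfect h S) (perfB2.perfect h _) h0).trans
    (center_st_eq_bot (smithB2.ker_eq_bot_two (by decide))).le))
/-- the roots of `B₂` -/
def rB (i : Fin 8) : Φ chevB2 := i
theorem x4 {K : Type*} [Field K] [CharP K 2] (r : Fin 8) (t : K) : ((rep4.sys K).x (rB r) t).1 =
    ![!![1, 0, 0, 0; 0, 1, 0, 0; 0, 0, 1, 0; t, 0, 0, 1], !![1, 0, 0, 0; 0, 1, 0, 0; t, 0, 1, 0; 0, t, 0, 1],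
      !![1, 0, 0, 0; t, 1, 0, 0; 0, 0, 1, 0; 0, 0, t, 1], !![1, 0, 0, 0; 0, 1, 0, 0; 0, t, 1, 0; 0, 0, 0, 1],
      !![1, 0, 0, 0; 0, 1, t, 0; 0, 0, 1, 0; 0, 0, 0, 1], !![1, t, 0, 0; 0, 1, 0, 0; 0, 0, 1, t; 0, 0, 0, 1],
      !![1, 0, t, 0; 0, 1, 0, t; 0, 0, 1, 0; 0, 0, 0, 1], !![1, 0, 0, t; 0, 1, 0, 0; 0, 0, 1, 0; 0, 0, 0, 1]] r := by
  change repX mat4 (fun _ => []) K r t = _
  ext i j
  fin_cases r <;> fin_cases i <;> fin_cases j <;> simp [repX, mat4, CharTwo.neg_eq]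
theorem exists_sz {K : Type*} [Field K] [Fintype K] {m : ℕ} [Sz.IsSz K m] {φ : K →+* K} (hφ : ∀ t, φ t = t ^ 2 ^ m) (h2 : ∀ t, φ (φ t) ^ 2 = t) :
    ∃ A : Subgroup (GL chevF4.Idx K), (∀ r, r.Prime → r ≠ 2 → CycS r A) ∧ ∀ t u, yF φ t u ∈ A ∧ yF' φ t u ∈ A := by
  obtain ⟨a, ha⟩ := Sz.exists_unit_ne_one (F := K)
  have h : ∃ a : K, a ≠ 0 ∧ a ≠ 1 := ⟨a, a.ne_zero, fun e => ha (Units.ext e)⟩
  let S := (adS chevF4 K).twist chk_eB2 (Or.inl rfl)
  have hS : ∀ r t, S.x r t = (adS chevF4 K).x (chk_eB2.emb r) t := fun r t => by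
    have := (show ∀ r < 8, eB2.ε r = 1 ∧ eB2.lam r = 1 by decide +kernel) r r.2
    exact (twist_x ..).trans (by rw [this.1, this.2, pow_one, Int.cast_one, one_mul])
  have th : ∀ t, Sz.th m t = φ t ^ 2 := fun t => by rw [hφ, ← pow_mul, ← pow_succ]; rfl
  let ι : Cfsg.Sz K m →* GL (Fin 4) K := Matrix.SpecialLinearGroup.toGL.comp (Subgroup.subtype _)
  have hι : ∀ g, (ι g).1 = Sz.mat g := fun _ => rfl
  have key : ∀ a b c d t u g, (rep4.sys K).szY φ a b c d t u = ι g → (adS chevF4 K).szY φ (chk_eB2.emb a) (chk_eB2.emb b) (chk_eB2.emb c)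
      (chk_eB2.emb d) t u ∈ (((⊤ : Subgroup _).map ι).comap (r3_of_finite (rep4.sys K)).lift).map (r3_of_finite S).lift :=
    fun a b c d t u g e => ⟨(stS chevB2 K).szY φ a b c d t u, ⟨g, trivial, by simpa [szY, q4] using e.symm⟩, by simp [szY, q4, hS]⟩
  refine ⟨_, fun r hr r2 => (CycS.comap (CycS.map (fun P _ hP => ?_) fun a b e => Sz.mat_injective (congrArg Units.val e))
    (lift_inj_B2 h _ ⟨rB 4, 1, fun e => ?_⟩)).map (lift_inj_B2 h _ ⟨rB 4, 1, fun e => ?_⟩), fun t u =>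
    ⟨key (rB 5) (rB 4) (rB 6) (rB 7) t u (Sz.u m (φ t) (φ t * t + u)) (Units.ext ?_),
      key (rB 2) (rB 3) (rB 1) (rB 0) t u (Sz.w K m * Sz.u m (φ t) (φ t * t + u) * Sz.w K m) (Units.ext ?_)⟩⟩
  · have := Fact.mk hr
    obtain ⟨g, hg⟩ := (Sz.isCyclic_of_isPGroup r2 hP).exists_generator
    exact ⟨g, g.2, fun x hx => let ⟨k, hk⟩ := hg ⟨x, hx⟩; ⟨k, congrArg Subtype.val hk⟩⟩
  · simpa using congrFun (congrFun ((x4 4 1).symm.trans (congrArg Units.val e)) 1) 2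
  · exact one_ne_zero (cov_ad.eq_zero_of_mem_Up (i := nF 2) ((hS _ _).symm.trans e ▸ one_mem _))
  all_goals
    simp only [szY, q4, Units.val_mul, x4]
    simp [hι, Sz.uMat, Sz.nf, Cfsg.suzukiForm, th, h2, CharTwo.add_sq, mul_pow]
    constructor <;> grind

end H12
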