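import Cfsg.Agent.H12.Fold3

/-! Automorphisms of twisted groups: diagonal (`dA`) and field (`fA`) automorphisms of `τ.G1`, rigidity (`triv_V`: trivial on `U_O` implies trivial on
`V_O`; `eq_one`), the reduction steps (`first`, `step`, `chain`) and the order formula `card_out`. -/

set_option autoImplicit false

namespace H12
open Cfsg.Lie H13 StSys H24

variable {D : ChevalleyDatum} [G : Good D] {F : Type*} [Field F] {R : RSym D} {τ : TwF (adS D F) R} {O : List (I D)}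
theorem fix_VO {Γ : Type*} [Group Γ] {S : StSys D F Γ} {τ : Tw S R} {θ : Γ →* GL D.Idx F} {K : Subgroup Γ} (hK : τ.Adm K) (hθ : S.Cov θ) {α : MulAut K} {i : I D}
    (h : Pres α (VO S R i) (VO S R i)) (f : ∀ y : K, y.1 ∈ UO S R i → α y = y) (v : K) (hv : v.1 ∈ VO S R i) : α v = v := by
  have c1 : ∀ {n x}, S.Rep n (w0J (R.orb i)) → x ∈ UO S R i → n * x * n⁻¹ ∈ VO S R i := fun r =>
    r.act.conj_mem fun s hs => ⟨fun e => (isPos_w0J hs.2).1 e hs.1, (inJ_smul (w0J_mem _)).2 hs.2⟩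
  have c2 : ∀ {n x}, S.Rep n (w0J (R.orb i)) → x ∈ VO S R i → n * x * n⁻¹ ∈ UO S R i := fun r =>
    r.act.conj_mem fun s hs => ⟨(isPos_w0J hs.2).2 hs.1, (inJ_smul (w0J_mem _)).2 hs.2⟩
  have hB : ∀ {x}, x ∈ UO S R i → x ∈ S.B := fun h => U_le_B _ (UO_le i h)
  by_cases e : v = 1
  · subst e; exact map_one α
  have a1 := (h v).2 hv
  obtain ⟨u, hu, n, hn, r, u', hu', e1⟩ := exists_unu_VO hK hθ v.2 hv fun h => e (Subtype.ext h)
  obtain ⟨a, ha, m, hm, r', a', ha', e2⟩ := exists_unu_VO hK hθ (α v).2 a1 fun h => e ((MulEquiv.map_eq_one_iff α).1 (Subtype.ext h))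
  obtain ⟨x, x1, x2, x3⟩ := exists_UO hK hθ i
  have e3 : (α ⟨n, hn⟩).1 = u⁻¹ * (a * m * a') * u'⁻¹ := by
    rw [← e2, show v = ⟨u, hu.2⟩ * ⟨n, hn⟩ * ⟨u', hu'.2⟩ from Subtype.ext e1, map_mul, map_mul, f ⟨u, hu.2⟩ hu.1, f ⟨u', hu'.2⟩ hu'.1]; simp [mul_assoc]
  have e4 := (h (⟨n, hn⟩ * ⟨x, x1⟩ * ⟨n, hn⟩⁻¹)).2 (c1 r x2)
  rw [map_mul, map_mul, map_inv, f ⟨x, x1⟩ x2, Subgroup.coe_mul, Subgroup.coe_mul, Subgroup.coe_inv, e3] at e4
  have r'' : S.Rep m⁻¹ (w0J (R.orb i)) := by simpa using r'.inv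
  have e5 : m⁻¹ * (u⁻¹ * a) * m⁻¹⁻¹ = 1 := by_contra fun ne => by
    obtain ⟨b, hb, k, -, r3, b', hb', e5⟩ := exists_unu_VO hK hθ (mul_mem (mul_mem (inv_mem hm) (mul_mem (K.inv_mem hu.2) ha.2)) (inv_mem (inv_mem hm)))
      (c1 r'' (mul_mem ((UO S R i).inv_mem hu.1) ha.1)) ne
    have y1 : b' * (a' * u'⁻¹) ∈ UO S R i := mul_mem hb'.1 (mul_mem ha'.1 ((UO S R i).inv_mem hu'.1))
    have := hθ.eq_one_of_V_B (VO_le i (c1 r3 (mul_mem (mul_mem y1 x2) (inv_mem y1)))) (by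
      convert mul_mem (mul_mem (inv_mem (hB hb.1)) (hB (c2 r'' e4))) (hB hb.1) using 1
      rw [show k = b⁻¹ * (m⁻¹ * (u⁻¹ * a) * m⁻¹⁻¹) * b'⁻¹ by rw [e5]; group]; group)
    exact x3 (conj_eq_one_iff.1 (conj_eq_one_iff.1 this))
  obtain rfl : u = a := inv_mul_eq_one.1 (conj_eq_one_iff.1 e5)
  refine Subtype.ext (inv_mul_eq_one.1 (hθ.eq_one_of_V_B (VO_le i (mul_mem (inv_mem hv) a1)) ?_)).symm
  rw [e2, e1, show (u * n * u')⁻¹ * (u * m * a') = u'⁻¹ * (n⁻¹ * m) * a' by group]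
  exact mul_mem (mul_mem (inv_mem (hB hu'.1)) (H_le_B _ (r.inv_mul_mem r'))) (hB ha'.1)

section cm
variable {Γ : Type*} [Group Γ] {S : StSys D F Γ} {τ : Tw S R} {θ : Γ →* GL D.Idx F} {K : Subgroup Γ}
/-- commuting orbits -/
def Cm (S : StSys D F Γ) (R : RSym D) (K : Subgroup Γ) (i j : I D) : Prop :=
  (∀ a b : K, a.1 ∈ UO S R i → b.1 ∈ UO S R j → Commute a b) ∧ ∀ a b : K, a.1 ∈ VO S R i → b.1 ∈ VO S R j → Commute a b
/-- an automorphism maps an orbit to an orbit -/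
def PP (S : StSys D F Γ) (R : RSym D) (α : K ≃* K) (i j : I D) : Prop := Pres α (UO S R i) (UO S R j) ∧ Pres α (VO S R i) (VO S R j)
theorem PP.symm {α : K ≃* K} {i j : I D} (h : PP S R α i j) : PP S R α.symm j i := ⟨h.1.symm, h.2.symm⟩
theorem PP.congr {α : K ≃* K} {i j i' j' : I D} (h : PP S R α i j) (e : R.orb i = R.orb i') (e' : R.orb j = R.orb j') : PP S R α i' j' := by
  unfold PP UO VO at *; rwa [← e, ← e']
theorem Cm.pull {α : K ≃* K} {i j i' j' : I D} (h : Cm S R K i' j') (h1 : PP S R α i i') (h2 : PP S R α j j') : Cm S R K i j :=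
  ⟨fun a b ha hb => α.injective (by simpa using (h.1 _ _ ((h1.1 a).2 ha) ((h2.1 b).2 hb)).eq),
    fun a b ha hb => α.injective (by simpa using (h.2 _ _ ((h1.2 a).2 ha) ((h2.2 b).2 hb)).eq)⟩
theorem cm_of_orth (h : Orth O) {i j : I D} (e : R.orb i ≠ R.orb j) (h1 : ∀ k ∈ R.orb i, k ∈ O) (h2 : ∀ k ∈ R.orb j, k ∈ O) : Cm S R K i j := by
  have k : ∀ a ∈ S.gen {r | InJ (R.orb i) r}, ∀ b ∈ S.gen {r | InJ (R.orb j) r}, Commute a b := fun a ha b hb => by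
    have : ∀ k ∈ R.orb i, ∀ c ∈ S.A1 k, c ∈ Subgroup.centralizer {b} := fun k hk c hc => by
      have (l) (hl : l ∈ R.orb j) (d) (hd : d ∈ S.A1 l) : d ∈ Subgroup.centralizer {c} := Subgroup.mem_centralizer_singleton_iff.2
        (h.commute S (h1 k hk) (h2 l hl) (fun e' => Set.disjoint_left.1 (RSym.orb_disjoint e) hk (e' ▸ hl)) hc hd).eq.symm
      exact Subgroup.mem_centralizer_singleton_iff.2 (Subgroup.mem_centralizer_singleton_iff.1
        (gen_inJ_le (fun l hl t => this l hl _ (S.x_mem_A1 _ _)) (fun l hl t => this l hl _ (S.x_ng_mem_A1 _ _)) hb)).symm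
    exact Subgroup.mem_centralizer_singleton_iff.1 (gen_inJ_le (fun l hl t => this l hl _ (S.x_mem_A1 _ _)) (fun l hl t => this l hl _ (S.x_ng_mem_A1 _ _)) ha)
  exact ⟨fun a b ha hb => Subtype.ext (k _ (S.gen_mono (fun _ h => h.2) ha) _ (S.gen_mono (fun _ h => h.2) hb)),
    fun a b ha hb => Subtype.ext (k _ (S.gen_mono (fun _ h => h.2) ha) _ (S.gen_mono (fun _ h => h.2) hb))⟩
theorem not_cm (hK : τ.Adm K) (hθ : S.Cov θ) {i j : I D} (e : R.orb i ≠ R.orb j) (h : wt (sim j) i ≠ 0) : ¬ Cm S R K i j := fun c => by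
  have k : ∀ i, ∃ u u' v : K, u.1 ∈ UO S R i ∧ u'.1 ∈ UO S R i ∧ v.1 ∈ VO S R i ∧ S.Rep (u * v * u').1 (w0J (R.orb i)) := fun i => by
    obtain ⟨v, c4, c5, c6⟩ := hK.neV i
    obtain ⟨u, hu, n, hn, r, u', hu', e1⟩ := exists_unu_VO hK hθ c4 c5 c6
    exact ⟨⟨u, hu.2⟩⁻¹, ⟨u', hu'.2⟩⁻¹, ⟨v, c4⟩, (UO S R i).inv_mem hu.1, (UO S R i).inv_mem hu'.1, c5, by simpa [e1, mul_assoc] using r⟩
  obtain ⟨u, u', v, a1, a2, a3, r⟩ := k i
  obtain ⟨w, w', z, b1, b2, b3, r'⟩ := k j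
  have k1 : ∀ {a : K}, a.1 ∈ UO S R i → Commute a (w * z * w') := fun h =>
    ((c.1 _ _ h b1).mul_right (Subtype.ext (commute_UO_VO e h b3))).mul_right (c.1 _ _ h b2)
  have k2 : Commute v (w * z * w') := Commute.mul_right (Commute.mul_right (Subtype.ext (commute_UO_VO e.symm b1 a3).symm) (c.2 _ _ a3 b3))
    (Subtype.ext (commute_UO_VO e.symm b2 a3).symm)
  have := congrArg Subtype.val (((k1 a1).mul_left k2).mul_left (k1 a2)).eq
  exact w0J_not_commute (RSym.orb_disjoint e) (R.mem_orb i) (R.mem_orb j) h (hθ.rep_unique (r.mul r') (by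
    rw [← Subgroup.coe_mul, this]; exact r'.mul r))
theorem PP.card {α : K ≃* K} {i j : I D} (h : PP S R α i j) (hK : τ.Adm K) (hθ : S.Cov θ) {k q : ℕ} (hq : 2 ≤ q)
    (hc : ∀ i, k ∣ ℓ (w0J (R.orb i)) ∧ Nat.card ↥(S.Um (w0J (R.orb i)) ⊓ τ.Fix) = q ^ (ℓ (w0J (R.orb i)) / k)) :
    ℓ (w0J (R.orb i)) / k = ℓ (w0J (R.orb j)) / k := by
  refine Nat.pow_right_injective hq ?_
  have : ∀ i, Nat.card ↥(S.Um (w0J (R.orb i)) ⊓ τ.Fix) = Nat.card ((UO S R i).subgroupOf K) := fun i => by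
    rw [← hK.U_inf hθ (S.Um_le_U _), mem_Um_w0J, ← Subgroup.inf_subgroupOf_right]
    exact (Nat.card_congr (Subgroup.subgroupOfEquivOfLe inf_le_right).toEquiv).symm
  simp only [← (hc i).2, ← (hc j).2, this]
  exact Nat.card_congr (α.toEquiv.subtypeEquiv fun g => (h.1 g).symm)
/-- the standard automorphisms -/
def stdG (S : StSys D F Γ) (K : Subgroup Γ) : Subgroup (MulAut K) := ⟨⟨⟨{α | Std S α}, fun h h' => h'.trans h⟩, ⟨fun _ => Iff.rfl, fun _ => Iff.rfl⟩⟩, fun h => h.symm⟩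
theorem card_std [Finite F] [Finite K] (hK : τ.Adm K) (hθ : S.Cov θ) (hi : Function.Injective θ) (hU : ∀ i, ∃ u ∈ S.U ⊓ K, u ∉ S.Up (sW i)) :
    Nat.card (Cfsg.Out K) * Nat.card ↥(S.H ⊓ K) = Nat.card (stdG S K) := by
  let o : stdG S K →* Cfsg.Out K := (QuotientGroup.mk' _).comp (stdG S K).subtype
  have o1 : o.range = ⊤ := MonoidHom.range_eq_top.2 fun a => by
    obtain ⟨α, rfl⟩ := QuotientGroup.mk_surjective a
    obtain ⟨x, h⟩ := exists_std hK hθ α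
    have : ((MulAut.conj x : MulAut K) : Cfsg.Out K) = 1 := (QuotientGroup.eq_one_iff _).2 ⟨x, rfl⟩
    exact ⟨⟨MulAut.conj x * α, h⟩, by simp [o, this]⟩
  have o2 : Nat.card ↥(S.H ⊓ K) = Nat.card o.ker := Nat.card_eq_of_bijective (fun x => ⟨⟨MulAut.conj ⟨x.1, x.2.2⟩,
    pres_conj_of_norm (H_le_normalizer _ x.2.1), pres_conj_of_norm (H_le_normalizer _ x.2.1)⟩, (QuotientGroup.eq_one_iff _).2 ⟨_, rfl⟩⟩) ⟨fun x y e => by
      have e : ∀ g ∈ K, y.1⁻¹ * x * g = g * (y.1⁻¹ * x) := fun g hg => by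
        have : x.1 * g * x.1⁻¹ = y * g * y.1⁻¹ := congrArg (fun a : o.ker => (a.1.1 ⟨g, hg⟩).1) e
        rw [mul_assoc, mul_inv_eq_iff_eq_mul.1 this]; group
      exact Subtype.ext (inv_mul_eq_one.1 (hi ((hK.ker_of_normal hθ hU (M := Subgroup.zpowers (y.1⁻¹ * x)) (by
        rintro g hg _ ⟨k, rfl⟩; rw [(Commute.zpow_right (e g hg).symm k).eq]; simp)
        (Subgroup.zpowers_le.2 (H_le_B _ (mul_mem (S.H.inv_mem y.2.1) x.2.1))) (Subgroup.mem_zpowers _)).trans (map_one θ).symm))).symm, fun ⟨⟨α, h⟩, h'⟩ => by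
      obtain ⟨x, rfl⟩ : α ∈ Cfsg.Inn K := (QuotientGroup.eq_one_iff _).1 h'
      obtain ⟨n, n1, n2⟩ := hK.exists_rep hθ RSym.w0_mem
      have k : ∀ {y : K}, Pres (MulAut.conj y) S.U S.U → y.1 ∈ S.B := fun {y} h =>
        mem_B_of_norm hK hθ y.2 fun u hu hu' => U_le_B _ ((h ⟨u, hu'⟩).2 hu)
      exact ⟨⟨x, (mem_H_iff hθ n2 _).2 ⟨k h.U, k (y := ⟨n, n1⟩⁻¹ * x * ⟨n, n1⟩) (by
        convert (Std.flip h (n := ⟨n, n1⟩) n2).U using 1; ext; simp [mul_assoc])⟩, x.2⟩, rfl⟩⟩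
  rw [o2, ← o.ker.card_mul_index, Subgroup.index_ker, o1, Subgroup.card_top, mul_comm]
end cm

local notation "S" => adS D F
local notation "K" => τ.G1

theorem TwF.map_mem {f : GL D.Idx F →* GL D.Idx F} (h1 : ∀ r t, ∃ u, f ((S).x r t) = (S).x r u)
    (h2 : ∀ i t, τ.σ (f ((S).x (sim i) t)) = f (τ.σ ((S).x (sim i) t)) ∧ τ.σ (f ((S).x (ng (sim i)) t)) = f (τ.σ ((S).x (ng (sim i)) t)))
    {g : GL D.Idx F} (hg : g ∈ K) : f g ∈ K := by
  have hP : ∀ P {g}, g ∈ (S).gen P → f g ∈ (S).gen P := fun P _ hg => (show (S).gen P ≤ ((S).gen P).comap f from (gen_le _).2 fun r hr t => by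
    obtain ⟨u, e⟩ := h1 r t; rw [Subgroup.mem_comap, e]; exact x_mem _ hr _) hg
  let P : Subgroup (GL D.Idx F) :=
    { carrier := {g | g ∈ (S).T ∧ τ.σ (f g) = f (τ.σ g)}
      mul_mem' := fun ha hb => ⟨mul_mem ha.1 hb.1, by rw [map_mul, τ.mul _ (hP _ ha.1) _ (hP _ hb.1), ha.2, hb.2, τ.mul _ ha.1 _ hb.1, map_mul]⟩
      one_mem' := ⟨one_mem _, by simp [τ.one]⟩
      inv_mem' := fun ha => ⟨inv_mem ha.1, by rw [map_inv, τ.inv (hP _ ha.1), ha.2, τ.inv ha.1, map_inv]⟩ }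
  have h : (S).T ≤ P := T_le_of_sim (fun i t => ⟨x_mem_T _ _ _, (h2 i t).1⟩) fun i t => ⟨x_mem_T _ _ _, (h2 i t).2⟩
  have k : ∀ {g}, g ∈ τ.Fix → f g ∈ τ.Fix := fun hg => ⟨hP _ hg.1, by rw [(h hg.1).2, hg.2]⟩
  exact (show K ≤ (K).comap f from sup_le (fun _ hu => Subgroup.mem_sup_left ⟨hP _ hu.1, k hu.2⟩) fun _ hu => Subgroup.mem_sup_right ⟨hP _ hu.1, k hu.2⟩) hg

variable (τ) in
/-- diagonal automorphisms -/
def dA : τ.T1 →* MulAut K := (K).normalizerMonoidHom.comp ((dl.comp τ.T1.subtype).codRestrict _ fun c =>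
  mem_normalizer_of_conj (fun _ => TwF.dl_mem c.2) fun _ hk => by simpa using TwF.dl_mem (inv_mem c.2) hk)
theorem coe_dA (c : τ.T1) (g : K) : (dA τ c g : GL D.Idx F) = dl c.1 * g * (dl c.1)⁻¹ := rfl
variable (hψ : ∀ j, ∃ k : ℕ, ∀ t, τ.ψ (sim j) t = t ^ k)
include hψ in
theorem glMap_mem (σ : F →+* F) {g : GL D.Idx F} (hg : g ∈ K) : glMap D σ g ∈ K := TwF.map_mem (fun r t => ⟨_, glMap_x σ r t⟩) (fun i t => by
  obtain ⟨k, e⟩ := hψ i
  have : ∀ r t, glMap D σ ((S).x r t) = (S).x r (σ t) := glMap_x σ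
  simp only [this, τ.σ_sim, τ.σ_ng_sim, e, map_pow, and_self]) hg
/-- field automorphisms -/
def fA : (F ≃+* F) →* MulAut K := MonoidHom.mk' (fun σ =>
  { toFun g := ⟨glMap D σ g, glMap_mem hψ _ g.2⟩
    invFun g := ⟨glMap D σ.symm g, glMap_mem hψ _ g.2⟩
    left_inv g := by ext; simp [coe_glMap]
    right_inv g := by ext; simp [coe_glMap]
    map_mul' a b := Subtype.ext (map_mul _ _ _) }) fun _ _ => rfl
theorem coe_fA (σ : F ≃+* F) (g : K) : (fA hψ σ g : GL D.Idx F) = glMap D (σ : F →+* F) g.1 := rfl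

/-- automorphisms preserving all `gen P` -/
def Sd (α : MulAut K) : Prop := Std S α ∧ ∀ i, Pres α (UO S R i) (UO S R i) ∧ Pres α (VO S R i) (VO S R i)
theorem Sd.mul {α β : MulAut K} (h : Sd α) (h' : Sd β) : Sd (α * β) :=
  ⟨h'.1.trans h.1, fun i => ⟨(h'.2 i).1.trans (h.2 i).1, (h'.2 i).2.trans (h.2 i).2⟩⟩
theorem pres_of {α : MulAut K} {A : Subgroup (GL D.Idx F)} (h1 : ∀ g : K, g.1 ∈ A → (α g).1 ∈ A) (h2 : ∀ g : K, g.1 ∈ A → (α⁻¹ g).1 ∈ A) : Pres α A A :=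
  fun g => ⟨fun h => by simpa using h2 _ h, h1 g⟩
theorem sd_of {α : MulAut K} (h : ∀ P, Pres α ((S).gen P) ((S).gen P)) : Sd α := ⟨⟨h _, h _⟩, fun _ => ⟨h _, h _⟩⟩
theorem dl_gen (c : I D → Fˣ) (P : Set (Φ D)) {g : GL D.Idx F} (h : g ∈ (S).gen P) : dl c * g * (dl c)⁻¹ ∈ (S).gen P := (act_dl c).conj_mem (fun _ h => h) h
theorem gl_gen (σ : F →+* F) (P : Set (Φ D)) {g : GL D.Idx F} (h : g ∈ (S).gen P) : glMap D σ g ∈ (S).gen P :=
  comap_gen_le _ _ _ ((map_gen_glMap _ _).le ⟨_, h, rfl⟩)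
theorem dA_gen (c : τ.T1) (P : Set (Φ D)) (g : K) (h : g.1 ∈ (S).gen P) : (dA τ c g).1 ∈ (S).gen P := dl_gen _ _ h
theorem sd_dA (c : τ.T1) : Sd (dA τ c) := sd_of fun P => pres_of (dA_gen c P) (map_inv (dA τ) c ▸ dA_gen c⁻¹ P)
theorem fA_gen (σ : F ≃+* F) (P : Set (Φ D)) (g : K) (h : g.1 ∈ (S).gen P) : (fA hψ σ g).1 ∈ (S).gen P := gl_gen _ _ h
theorem sd_fA (σ : F ≃+* F) : Sd (fA hψ σ) := sd_of fun P => pres_of (fA_gen hψ σ P) (map_inv (fA hψ) σ ▸ fA_gen hψ σ⁻¹ P)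
/-- fixed points -/
def Ef (α : MulAut K) : Subgroup (GL D.Idx F) := ((α : K →* K).eqLocus (.id _)).map (K).subtype
theorem mem_Ef {α : MulAut K} {g : K} : g.1 ∈ Ef α ↔ α g = g := ⟨fun ⟨_, h, e⟩ => (Subtype.ext e : _ = g) ▸ h, fun h => ⟨g, h, rfl⟩⟩
/-- trivial on an orbit -/
def Tr (α : MulAut K) (i : I D) : Prop := UO S R i ⊓ K ≤ Ef α
theorem Tr.congr {α : MulAut K} {i j : I D} (h : Tr α i) (e : R.orb j = R.orb i) : Tr α j := by unfold Tr UO at *; rwa [e]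
theorem UO_eq (i : I D) : UO S R i = (S).Um (w0J (R.orb i)) := mem_Um_w0J.symm
theorem Tr.dA {α : MulAut K} {i : I D} (h : Tr α i) {c : τ.T1} (hc : ∀ j ∈ R.orb i, c.1 j = 1) : Tr (dA τ c * α) i := fun u hu => by
  refine (mem_Ef (g := ⟨u, hu.2⟩)).2 (Subtype.ext ?_)
  rw [MulAut.mul_apply, (mem_Ef (g := ⟨u, hu.2⟩)).1 (h hu), coe_dA, mul_inv_eq_iff_eq_mul]
  refine (Subgroup.mem_centralizer_singleton_iff.1 (((gen_le _).2 fun r hr t => ?_ : UO S R i ≤ _) hu.1)).symm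
  rw [Subgroup.mem_centralizer_singleton_iff, eq_comm, ← mul_inv_eq_iff_eq_mul, dl_conj, cChar, AddChar.prod_apply, Finset.prod_eq_one fun j _ => ?_]
  · simp
  · by_cases e : j ∈ R.orb i
    · simp [hc j e]
    · simp [hr.2 j e]

variable (hK : τ.Adm τ.G1)
include hK
theorem triv_V {α : MulAut K} (h : Sd α) {i : I D} (h1 : Tr α i) : VO S R i ⊓ K ≤ Ef α := fun v hv =>
  (mem_Ef (g := ⟨v, hv.2⟩)).2 (fix_VO hK cov_ad (h.2 i).2 (fun y hy => mem_Ef.1 (h1 ⟨hy, y.2⟩)) _ hv.1)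
theorem eq_one {α : MulAut K} (h : Sd α) (h1 : ∀ i, Tr α i) : α = 1 := by
  have a2 : τ.Adm (Ef α) := ⟨(Subgroup.map_subtype_le _).trans hK.le, fun i u hu => h1 i ⟨(UO_eq i).ge hu.1, hK.hU i hu⟩, fun i => by
    obtain ⟨v, c4, c5, c6⟩ := hK.neV i
    exact ⟨v, triv_V hK h (h1 i) ⟨c5, c4⟩, c5, c6⟩⟩
  exact MulEquiv.ext fun x => mem_Ef.1 (a2.G1_le cov_ad x.2)

/-- the standard elements of an orbit -/
abbrev xO (O : List (I D)) (c : I D → F) : GL D.Idx F := (O.map fun j => (S).x (sim j) (c j)).prod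
omit hK in
theorem xO_inj (h : Orth O) {c c' : I D → F} (e : xO O c = xO O c') : ∀ j ∈ O, c j = c' j :=
  TwF.xU_inj cov_ad h.1 sim sim_injective (l := fl) (fun j => pos_fl _ (isPos_sim j)) e
omit hK in
theorem xO_congr {c c' : I D → F} (e : ∀ j ∈ O, c j = c' j) : xO O c = xO O c' := congrArg List.prod (List.map_congr_left fun j hj => by rw [e j hj])
omit hK in
theorem xO_zero : xO O (0 : I D → F) = 1 := List.prod_eq_one fun x hx => by obtain ⟨j, -, rfl⟩ := List.mem_map.1 hx; exact x_zero _ _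
omit hK in
theorem map_xO {f : GL D.Idx F →* GL D.Idx F} {g : I D → F → F} (h : ∀ j t, f ((S).x (sim j) t) = (S).x (sim j) (g j t)) (c : I D → F) :
    f (xO O c) = xO O fun j => g j (c j) := by simp only [xO, map_list_prod, List.map_map, Function.comp_def, h]
theorem mem_UO (h : OrbL R O) {i : I D} (hi : i ∈ O) {u : GL D.Idx F} : u ∈ UO S R i ⊓ K ↔ ∃ c, τ.Cp O c ∧ u = xO O c := by
  rw [hK.U_inf cov_ad (UO_le i), UO_eq, h.orb i hi]; exact TwF.mem_Um_fix cov_ad h.orth h.inv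
theorem cp_of_mem (h : OrbL R O) {i : I D} (hi : i ∈ O) {c : I D → F} (hc : xO O c ∈ K) : τ.Cp O c := by
  obtain ⟨d, h1, h2⟩ := (mem_UO hK h hi).1 ⟨list_prod_mem fun x hx => by
    obtain ⟨j, hj, rfl⟩ := List.mem_map.1 hx; exact x_mem _ (And.intro (isPos_sim j) (inJ_sim.2 ((h.orb i hi).ge hj))) _, hc⟩
  have := xO_inj h.orth h2
  exact fun j hj => by rw [this j hj, this _ ((h.inv j).2 hj), h1 j hj]
omit hK in
theorem cp_eq (h : OrbL R O) {i : I D} (hi : i ∈ O) {c d : I D → F} (hc : τ.Cp O c) (hd : τ.Cp O d) (e : c i = d i) : ∀ j ∈ O, c j = d j := fun k hk => by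
  obtain ⟨m, rfl⟩ := Equiv.Perm.SameCycle.exists_nat_pow_eq (show k ∈ R.orb i by rw [h.orb i hi]; exact hk)
  induction m with
  | zero => exact e
  | succ m ih =>
    have := (h.inv.pow m i).2 hi
    rw [pow_succ', Equiv.Perm.mul_apply, hc _ this, hd _ this, ih this]
theorem one_mem_UO (h : OrbL R O) {i : I D} (hi : i ∈ O) : xO O 1 ∈ UO S R i ⊓ K := (mem_UO hK h hi).2 ⟨1, fun _ _ => by simp, rfl⟩
/-- normalising the image of the standard element -/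
theorem step (h : OrbL R O) {i : I D} (hi : i ∈ O) {α : MulAut K} (hα : Sd α) : ∃ c : τ.T1, (∀ j ∉ O, c.1 j = 1) ∧ xO O 1 ∈ Ef (dA τ c * α) := by
  classical
  have m := one_mem_UO hK h hi
  obtain ⟨c, h1, h2⟩ := (mem_UO hK h hi).1 ⟨((hα.2 i).1 ⟨_, m.2⟩).2 m.1, (α _).2⟩
  have h0 : ∀ j ∈ O, c j ≠ 0 := fun j hj e => by
    rw [xO_congr (cp_eq h hj h1 (d := 0) (fun _ _ => by simp) e), xO_zero] at h2
    have : xO O (1 : I D → F) = xO O 0 := (congrArg Subtype.val ((MulEquiv.map_eq_one_iff α).1 (Subtype.ext h2))).trans xO_zero.symm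
    simpa using xO_inj h.orth this j hj
  refine ⟨⟨fun j => if e : j ∈ O then (Units.mk0 _ (h0 j e))⁻¹ else 1, fun j => Units.ext ?_⟩, fun j hj => dif_neg hj,
    (mem_Ef (g := ⟨_, m.2⟩)).2 (Subtype.ext ?_)⟩
  · by_cases e : j ∈ O
    · simp [e, show R.π j ∈ O from (h.inv j).2 e, h1 j e]
    · simp [e, show R.π j ∉ O from mt (h.inv j).1 e]
  · rw [MulAut.mul_apply, coe_dA, h2]
    refine (map_xO (f := (MulAut.conj _).toMonoidHom) (fun j t => dl_conj _ _ t) c).trans (xO_congr fun j hj => ?_)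
    simp [cChar_sim, hj, h0 j hj]
theorem h_mem {O' : List (I D)} (h : OrbL R O') {j : I D} (hj : j ∈ O') {α : MulAut K} (hα : Sd α) (h1 : Tr α j) {s : I D → Fˣ} (hs : τ.Cp O' fun k => s k) :
    ∃ g ∈ Ef α, ∀ r t, g * (S).x r t * g⁻¹ = (S).x r (((O'.map fun k => s k ^ wt r k).prod : Fˣ) * t) := by
  have key : ∀ c : I D → Fˣ, (τ.Cp O' fun j => c j) → (O'.map fun j => (S).n (sim j) (c j)).prod ∈ Ef α := fun c hc => by
    simp only [n_def]
    rw [h.orth.prod_mul S (fun _ => mul_mem ((S).x_mem_A1 _ _) ((S).x_ng_mem_A1 _ _)) fun _ => (S).x_mem_A1 _ _,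
      h.orth.prod_mul S (fun _ => (S).x_mem_A1 _ _) fun _ => (S).x_ng_mem_A1 _ _]
    have a1 := h1 ((mem_UO hK h hj).2 ⟨_, hc, rfl⟩)
    refine mul_mem (mul_mem a1 (triv_V hK hα h1 ⟨by rw [VO, h.orb j hj]; exact TwF.xV_mem _, Subgroup.mem_sup_right
      ⟨(S).gen_mono (fun _ h => h.1) (TwF.xV_mem _), TwF.xV_fix h.orth h.inv fun j hj => ?_⟩⟩)) a1
    simp [hc j hj]
  refine ⟨(O'.map fun j => (S).h (sim j) (s j)).prod, ?_, fun r t => ?_⟩
  · simp only [h_def]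
    rw [h.orth.prod_mul S (fun _ => (S).n_mem_A1 _ _) fun _ => (S).n_mem_A1 _ _]
    exact mul_mem (key s hs) (key (fun _ => -1) fun j _ => by simp)
  · clear hs key hj h
    induction O' with
    | nil => simp
    | cons k l ih => rw [List.map_cons, List.prod_cons, mul_inv_rev, ← mul_assoc, mul_assoc _ _ (x _ _ _), mul_assoc (h _ _ _), ih, h_conj_x, pr_sim]; simp [mul_assoc]
/-- rigidity along an edge of the diagram -/
theorem chain (h : OrbL R O) {i : I D} (hi : i ∈ O) {O' : List (I D)} (h' : OrbL R O') {j : I D} (hj : j ∈ O') (hd : ∀ k ∈ O', k ∉ O)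
    (hs : ∀ c, τ.Cp O c → c i ≠ 0 → ∃ s : I D → Fˣ, (τ.Cp O' fun k => s k) ∧ (((O'.map fun k => s k ^ wt (sim i) k).prod : Fˣ) : F) = c i)
    {α : MulAut K} (hα : Sd α) (h1 : Tr α j) : ∃ c : τ.T1, (∀ j ∉ O, c.1 j = 1) ∧ Tr (dA τ c * α) i := by
  obtain ⟨c, c1, c2⟩ := step hK h hi hα
  refine ⟨c, c1, fun u hu => ?_⟩
  obtain ⟨d, d1, rfl⟩ := (mem_UO hK h hi).1 hu
  by_cases e : d i = 0
  · rw [xO_congr (cp_eq h hi d1 (d := 0) (fun _ _ => by simp) e), xO_zero]; exact one_mem _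
  obtain ⟨s, s1, s2⟩ := hs d d1 e
  obtain ⟨g, g1, g2⟩ := h_mem hK h' hj ((sd_dA c).mul hα) (h1.dA fun k hk => c1 k (hd k ((h'.orb j hj).le hk))) s1
  have := mul_mem (mul_mem g1 c2) (inv_mem g1)
  rw [show g * xO O 1 * g⁻¹ = _ from map_xO (f := (MulAut.conj g).toMonoidHom) (fun j t => g2 _ t) 1] at this
  rwa [xO_congr (cp_eq h hi d1 (cp_of_mem hK h hi (Subgroup.map_subtype_le _ this)) (by simpa using s2.symm))]

/-- the rank one system of an orbit -/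
def orbR1 (h : OrbL R O) {f : I D → F →+* F} (hf : ∀ t, τ.Cp O fun j => f j t) : R1 F K where
  x t := ⟨xO O fun j => f j t, Subgroup.mem_sup_left ⟨TwF.xU_mem _, TwF.xU_fix h.orth h.inv (hf t)⟩⟩
  y t := ⟨(O.map fun j => (S).x (ng (sim j)) (f j t)).prod, Subgroup.mem_sup_right ⟨gen_mono _ (fun _ h => h.1) (TwF.xV_mem _), TwF.xV_fix h.orth h.inv (hf t)⟩⟩
  x_add t u := Subtype.ext (by simp only [xO, map_add, add, Subgroup.coe_mul]; exact h.orth.prod_mul S (fun _ => x_mem_A1 _ _ _) fun _ => x_mem_A1 _ _ _)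
  y_add t u := Subtype.ext (by simp only [map_add, add, Subgroup.coe_mul]; exact h.orth.prod_mul S (fun _ => x_ng_mem_A1 _ _ _) fun _ => x_ng_mem_A1 _ _ _)
  nx t u := Subtype.ext (by
    have a := fun j t => (S).x_mem_A1 j t
    have b := fun j t => (S).x_ng_mem_A1 j t
    simp only [xO, Subgroup.coe_mul, Subgroup.coe_inv]
    rw [← h.orth.prod_mul S (fun _ => a _ _) fun _ => b _ _, ← h.orth.prod_mul S (fun _ => mul_mem (a _ _) (b _ _)) fun _ => a _ _,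
      ← h.orth.prod_inv S fun _ => mul_mem (mul_mem (a _ _) (b _ _)) (a _ _), ← h.orth.prod_mul S (fun _ => mul_mem (mul_mem (a _ _) (b _ _)) (a _ _)) fun _ => a _ _,
      ← h.orth.prod_mul S (fun _ => mul_mem (mul_mem (mul_mem (a _ _) (b _ _)) (a _ _)) (a _ _)) fun _ => inv_mem (mul_mem (mul_mem (a _ _) (b _ _)) (a _ _))]
    congr 2; funext j
    simpa [stR1] using (stR1 S (sim j)).nx (Units.map (f j) t) (f j u))
theorem first [Finite F] (h : OrbL R O) {i : I D} (hi : i ∈ O) {f : I D → F →+* F} (hf : ∀ t, τ.Cp O fun j => f j t) (hfi : ∀ t, f i t = t)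
    {α : MulAut K} (hα : Sd α) : ∃ (σ : F ≃+* F) (c : τ.T1), Tr (dA τ c * (fA hψ σ * α)) i := by
  have m : ∀ {u}, u ∈ UO S R i ⊓ K → ∃ t, u = ((orbR1 h hf).x t).1 := fun hu => by
    obtain ⟨c, c1, rfl⟩ := (mem_UO hK h hi).1 hu
    exact ⟨c i, xO_congr (cp_eq h hi c1 (hf _) (hfi _).symm)⟩
  have fa : ∀ t, ((orbR1 h hf).y t).1 ∈ (S).B → t = 0 := fun t ht => by
    have := TwF.xU_inj cov_ad h.orth.1 (fun j => ng (sim j)) (ng_injective.comp sim_injective) (l := -fl) (fun j => neg_fl _ fun e => isPos_ng.1 e (isPos_sim j))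
      (c := fun j => f j t) (c' := 0) ((cov_ad.eq_one_of_V_B (gen_mono _ (fun _ h => h.1) (TwF.xV_mem _)) ht).trans (List.prod_eq_one fun x hx => by
        obtain ⟨j, -, rfl⟩ := List.mem_map.1 hx; exact x_zero _ _).symm) i hi
    rwa [hfi] at this
  have mx : ∀ t, ((orbR1 h hf).x t).1 ∈ UO S R i := fun t => ((mem_UO hK h hi).2 ⟨_, hf t, rfl⟩).1
  have r : (S).Rep ((orbR1 h hf).n 1).1 (w0J (R.orb i)) := by
    rw [h.orb i hi, h.orth.w0J_eq]; convert (rep_nw O : (S).Rep _ _) using 1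
    simp only [R1.n, orbR1, nw, n_def, xO, Subgroup.coe_mul]
    rw [h.orth.prod_mul S (fun _ => mul_mem ((S).x_mem_A1 _ _) ((S).x_ng_mem_A1 _ _)) fun _ => (S).x_mem_A1 _ _,
      h.orth.prod_mul S (fun _ => (S).x_mem_A1 _ _) fun _ => (S).x_ng_mem_A1 _ _]; simp
  choose a ha using fun t => m ⟨((hα.2 i).1 _).2 (mx t), (α _).2⟩
  have : ∀ t, ∃ u, α ((orbR1 h hf).y t) = (orbR1 h hf).y u := fun t => by
    obtain ⟨u, hu⟩ := m ⟨r.act.conj_mem (fun s hs => And.intro ((isPos_w0J hs.2).2 hs.1) ((inJ_smul (w0J_mem _)).2 hs.2))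
      (((hα.2 i).2 ((orbR1 h hf).y t)).2 (by rw [VO, h.orb i hi]; exact TwF.xV_mem _)), (_ * α _ * _⁻¹ : K).2⟩
    have := (orbR1 h hf).conj_x (-1) u
    rw [R1.n_neg, ← show (_ * α _ * _⁻¹ : K) = _ from Subtype.ext hu] at this
    exact ⟨_, by simpa [mul_assoc] using this⟩
  choose b hb using this
  have f1 : ((orbR1 h hf).map α.toMonoidHom).Fa :=
    ⟨(S).B.subgroupOf _, fun t => U_le_B _ (UO_le i (((hα.2 i).1 _).2 (mx t))), fun t ht => fa t ((hα.1.U.B hK cov_ad _).1 ht)⟩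
  have f2 : (orbR1 h hf).Fa := ⟨(S).B.subgroupOf _, fun t => U_le_B _ (UO_le i (mx t)), fa⟩
  obtain ⟨c0, φ, e1, -⟩ := R1.exists_field f1 f2 (f := a) (g := b) (fun t => Subtype.ext (ha t)) hb
  let σ := (RingEquiv.ofBijective φ (Finite.injective_iff_bijective.1 φ.injective)).symm
  obtain ⟨c, -, c2⟩ := step hK h hi ((sd_fA hψ σ).mul hα)
  have e : ∀ t, ((dA τ c * (fA hψ σ * α)) ((orbR1 h hf).x t)).1 = xO O fun j => c.1 j * σ (f j (c0 * φ t)) := fun t => by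
    rw [MulAut.mul_apply, MulAut.mul_apply, coe_dA, coe_fA, ha, e1]
    exact map_xO (f := (MulAut.conj (dl c.1)).toMonoidHom.comp (glMap D σ)) (fun j t => by simpa [cChar_sim] using dl_conj c.1 (sim j) (σ t)) _
  have k : ∀ t, σ (φ t) = t := (RingEquiv.ofBijective φ _).symm_apply_apply
  have e2 := xO_inj h.orth ((e 1).symm.trans ((congrArg Subtype.val (mem_Ef.1 (by convert c2 using 2; simp [orbR1]; rfl))).trans rfl)) i hi
  refine ⟨σ, c, fun u hu => ?_⟩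
  obtain ⟨t, rfl⟩ := m hu
  refine mem_Ef.2 (Subtype.ext ((e t).trans (xO_congr (cp_eq h hi (cp_of_mem hK h hi (e t ▸ Subtype.prop _)) (hf t) ?_))))
  simp only [hfi, map_mul, k, mul_one] at e2 ⊢
  rw [← mul_assoc, e2, one_mul]

/-- the order of the outer automorphism group -/
theorem card_out [Finite F] (hU : ∀ i, ∃ u ∈ (S).U ⊓ K, u ∉ (S).Up (sW i)) (h1 : ∀ α : MulAut K, Std S α → ∃ σ c, dA τ c * (fA hψ σ * α) = 1)
    {i : I D} (h : OrbL R (i :: O)) {f : I D → F →+* F} (hf : ∀ t, τ.Cp (i :: O) fun j => f j t) (hfi : ∀ t, f i t = t) :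
    Nat.card (Cfsg.Out K) * Nat.card ↥((S).H ⊓ K) = Nat.card (F ≃+* F) * Nat.card τ.T1 := by
  have h2 : ∀ t, ∃ u ∈ (S).U ⊓ K, ((S).x (sim i) t)⁻¹ * u ∈ (S).Up (sW i) := fun t => ⟨_, ⟨TwF.xU_mem _, ((orbR1 h hf).x t).2⟩, by
    rw [List.map_cons, List.prod_cons, hfi, inv_mul_cancel_left]
    refine list_prod_mem fun x hx => ?_
    obtain ⟨j, hj, rfl⟩ := List.mem_map.1 hx
    exact x_mem _ (And.intro (isPos_sim j) (by
      simpa using (isPos_sim j).sref (sim_injective.ne fun e : j = i => (List.nodup_cons.1 h.orth.1).1 (e ▸ hj)))) _⟩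
  have inj : ∀ σ c, dA τ c * fA hψ σ = 1 → σ = 1 ∧ c = 1 := fun σ c e => by
    have k : ∀ j t, ∀ u ∈ K, ((S).x (sim j) t)⁻¹ * u ∈ (S).Up (sW j) → c.1 j * σ t = t := fun j t u hu h => by
      have a1 : dl c.1 * glMap D (σ : F →+* F) (((S).x (sim j) t)⁻¹ * u) * (dl c.1)⁻¹ ∈ (S).Up (sW j) := dl_gen _ _ (gl_gen _ _ h)
      have a2 : dl c.1 * glMap D (σ : F →+* F) u * (dl c.1)⁻¹ = u := by
        have := congrArg Subtype.val (DFunLike.congr_fun e ⟨u, hu⟩)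
        rwa [MulAut.mul_apply, coe_dA, coe_fA] at this
      rw [map_mul, map_inv, ← conj_mul, a2, ← conj_inv, show glMap D (σ : F →+* F) ((S).x (sim j) t) = (S).x (sim j) (σ t) from glMap_x _ _ _, dl_conj, cChar_sim] at a1
      have := mul_mem h (inv_mem a1)
      rw [mul_inv_rev, inv_inv, mul_assoc, mul_inv_cancel_left, ← x_neg, ← add] at this
      exact neg_add_eq_zero.1 (cov_ad.eq_zero_of_mem_Up this) |>.symm
    have k1 : ∀ t, c.1 i * σ t = t := fun t => by obtain ⟨u, hu, h⟩ := h2 t; exact k i t u hu.2 h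
    obtain rfl : σ = 1 := RingEquiv.ext fun t => by simpa [show (c.1 i : F) = 1 by simpa using k1 1] using k1 t
    refine ⟨rfl, Subtype.ext (funext fun j => Units.ext ?_)⟩
    obtain ⟨u, hu, h⟩ := hU j
    obtain ⟨b, hb, a, ha, rfl⟩ := U_decomp' (sW j) hu.1
    obtain ⟨t, rfl⟩ := mem_Um_sW.1 hb
    exact (mul_left_eq_self₀.1 (k j t _ hu.2 (by simpa using ha))).resolve_right fun e => h (by rwa [show t = 0 from e, x_zero, one_mul])
  have o3 : Nat.card ((F ≃+* F) × τ.T1) = Nat.card (stdG S K) := Nat.card_eq_of_bijective (fun p => ⟨(dA τ p.2 * fA hψ p.1)⁻¹, (stdG S K).inv_mem ((sd_dA _).mul (sd_fA hψ _)).1⟩)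
    ⟨fun p p' e => by
      have e := inv_injective (congrArg Subtype.val e)
      have := inj (p.1 * p'.1⁻¹) (p'.2⁻¹ * p.2) (by rw [map_mul, map_mul, map_inv, map_inv, mul_assoc, ← mul_assoc (dA τ p.2), e]; group)
      exact Prod.ext (mul_inv_eq_one.1 this.1) (inv_mul_eq_one.1 this.2).symm, fun α => by
      obtain ⟨σ, c, e⟩ := h1 α.1 α.2
      exact ⟨(σ, c), Subtype.ext (inv_eq_of_mul_eq_one_right (by rw [mul_assoc, e]))⟩⟩
  rw [card_std hK cov_ad (fun _ _ h => h) hU, ← o3, Nat.card_prod]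
omit hK in
theorem exists_pow_eq {M : Type*} [CommGroup M] [Finite M] [IsCyclic M] {a b : ℕ} (h : Nat.card M = a * b) {x : M} (hx : x ^ b = 1) : ∃ u : M, u ^ a = x := by
  obtain ⟨g, hg⟩ := IsCyclic.exists_monoid_generator (α := M)
  obtain ⟨k, rfl⟩ := hg x
  have b0 : 0 < b := Nat.pos_of_mul_pos_left (h ▸ Nat.card_pos)
  obtain ⟨m, rfl⟩ := Nat.dvd_of_mul_dvd_mul_right b0 (h ▸ orderOf_eq_card_of_forall_mem_powers hg ▸ orderOf_dvd_of_pow_eq_one ((pow_mul g k b).trans hx))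
  exact ⟨g ^ m, by simp [← pow_mul, mul_comm]⟩
theorem sd_of_len [Finite F] {L : List (List (I D))} (h : ∀ O ∈ L, OrbL R O) (h' : ∀ i, ∃ O ∈ L, i ∈ O) {q : ℕ} (hq : 2 ≤ q)
    (hc : ∀ i, 1 ∣ ℓ (w0J (R.orb i)) ∧ Nat.card ↥((S).Um (w0J (R.orb i)) ⊓ τ.Fix) = q ^ (ℓ (w0J (R.orb i)) / 1)) {α : MulAut K} (hα : Std S α)
    (O : List (I D)) (hO : O ∈ L) (i : I D) (hi : i ∈ O) : ∃ O' ∈ L, O'.length = O.length ∧ ∀ j ∈ O', PP S R α i j := by
  obtain ⟨j, hj⟩ := hα.exists_orb hK cov_ad i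
  obtain ⟨O', h1, h2⟩ := h' j
  have := PP.card hj hK cov_ad hq hc
  rw [(h O hO).orb i hi, (h O' h1).orb j h2, (h O hO).orth.len, (h O' h1).orth.len, Nat.div_one, Nat.div_one] at this
  exact ⟨O', h1, this.symm, fun k hk => PP.congr hj rfl (((h O' h1).orb j h2).trans ((h O' h1).orb k hk).symm)⟩
end H12
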