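import Cfsg.Agent.H26.Qw0
/-! S1829, piece P1a: weak closure of `A`, `B` and the normalizer of `J`. -/

set_option autoImplicit false

namespace H12.QwA
open Subgroup H326.Qw
universe u

variable {G : Type u} [Group G] {ψ : TT →* G}

def Q (p : Bool × Bool) : Subgroup TT := Pr (if p.1 then 2 else 3) (if p.2 then 2 else 3)
instance decQ (p : Bool × Bool) (t : TT) : Decidable (t ∈ Q p) := inferInstanceAs (Decidable (t ∈ Pr _ _))
instance decI (p p' : Bool × Bool) (t : TT) : Decidable (t ∈ Q p ⊓ Q p') := inferInstanceAs (Decidable (t ∈ Q p ∧ t ∈ Q p'))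
theorem cardI : ∀ p p', Fintype.card ↥(Q p ⊓ Q p') = if p' = p then 16 else if p' = (!p.1, !p.2) then 4 else 8 := by decide +kernel
theorem cardQ (p : Bool × Bool) : Nat.card (Q p) = 16 := by
  have := cardI p p
  rwa [← Nat.card_eq_fintype_card, inf_idem, if_pos rfl] at this
theorem Q_el : ∀ p, ∀ t ∈ Q p, t ∈ J ∧ t * t = 1 ∧ ∀ j ∈ J, j * t * j⁻¹ ∈ Q p := by decide +kernel
theorem Q_cm : ∀ p, ∀ t ∈ Q p, ∀ t' ∈ Q p, t * t' = t' * t := by decide +kernel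
theorem out : ∀ y : TT, y.e = true → y * y = 1 → (Finset.univ.filter fun t => t * y = y * t ∧ t * t = 1).card < 16 := by
  decide +kernel
theorem dd : ∀ a b : D, a * a = 1 → b * b = 1 → a * b = b * a → mD 2 a = true ∨ mD 3 b = true := by decide +kernel
theorem gen : ∀ t ∈ J, ∃ a ∈ A, a⁻¹ * t ∈ B := by decide +kernel
theorem nrm : ∀ b : Bool, ∀ t ∈ Q (b, b), ∀ j : TT, j * t * j⁻¹ ∈ Q (b, b) := by decide +kernel
theorem perm : ∀ σ : Bool × Bool → Bool × Bool, (∀ p p', σ p = σ p' → p = p') → (∀ p, σ (!p.1, !p.2) = (!(σ p).1, !(σ p).2)) →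
    ∀ p, σ (σ (σ (σ p))) = p := by decide +kernel

theorem e16 {Y : Subgroup TT} (h : Nat.card Y = 16) (h1 : ∀ t ∈ Y, t * t = 1) (h2 : ∀ t ∈ Y, ∀ t' ∈ Y, t * t' = t' * t) :
    ∃ p, Y ≤ Q p := by
  classical
  have e : ∀ y ∈ Y, y.e = false := fun y hy => by_contra fun c => by
    have := out y (by simpa using c) (h1 y hy)
    have h3 : (Finset.univ.filter fun t => t ∈ Y).card = 16 := by rw [← h, Nat.card_eq_fintype_card, Fintype.card_subtype]
    have := Finset.card_le_card (show (Finset.univ.filter fun t => t ∈ Y) ⊆ Finset.univ.filter fun t => t * y = y * t ∧ t * t = 1 from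
      fun t ht => by simp only [Finset.mem_filter, Finset.mem_univ, true_and] at ht ⊢; exact ⟨h2 t ht y hy, h1 t ht⟩)
    omega
  have k : ∀ f : TT → D, (∀ x y : TT, x.e = false → f (x * y) = f x * f y) → f 1 = 1 →
      ∃ b : Bool, ∀ y ∈ Y, mD (if b then 2 else 3) (f y) = true := fun f hf f1 => by
    by_cases c : ∀ y ∈ Y, mD 2 (f y) = true
    · exact ⟨true, c⟩
    · push Not at c
      obtain ⟨y, hy, c⟩ := c
      refine ⟨false, fun t ht => (dd (f y) (f t) ?_ ?_ ?_).resolve_left c⟩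
      · rw [← hf _ _ (e y hy), h1 y hy, f1]
      · rw [← hf _ _ (e t ht), h1 t ht, f1]
      · rw [← hf _ _ (e y hy), ← hf _ _ (e t ht), h2 y hy t ht]
  obtain ⟨a, ha⟩ := k TT.a (fun x y h => by simp [mul_def, h]) rfl
  obtain ⟨b, hb⟩ := k TT.b (fun x y h => by simp [mul_def, h]) rfl
  exact ⟨(a, b), fun y hy => ⟨e y hy, ha y hy, hb y hy⟩⟩

theorem mp_mul {X Y W : Subgroup TT} {g h : G} (h1 : Mp ψ X Y g) (h2 : Mp ψ Y W h) : Mp ψ X W (h * g) := fun t ht => by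
  obtain ⟨a, ha, e⟩ := h1 t ht
  obtain ⟨b, hb, e'⟩ := h2 a ha
  exact ⟨b, hb, by rw [← e', ← e]; group⟩
theorem mp_mono {X Y X' Y' : Subgroup TT} {g : G} (h : Mp ψ X Y g) (h1 : X' ≤ X) (h2 : Y ≤ Y') : Mp ψ X' Y' g := fun t ht =>
  (h t (h1 ht)).imp fun _ h => ⟨h2 h.1, h.2⟩
theorem mp_psi {X : Subgroup TT} {j : TT} (h : ∀ t ∈ X, j * t * j⁻¹ ∈ X) : Mp ψ X X (ψ j) := fun t ht => ⟨_, h t ht, by simp⟩
variable (inj : Function.Injective ψ)
include inj
theorem mp_inf {X Y X' Y' : Subgroup TT} {g : G} (h : Mp ψ X Y g) (h' : Mp ψ X' Y' g) : Mp ψ (X ⊓ X') (Y ⊓ Y') g := fun t ht => by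
  obtain ⟨a, ha, e⟩ := h t ht.1
  obtain ⟨b, hb, e'⟩ := h' t ht.2
  exact ⟨a, ⟨ha, inj (e.symm.trans e') ▸ hb⟩, e⟩
theorem mp_fun {X Y : Subgroup TT} {g : G} (h : Mp ψ X Y g) :
    ∃ f : X → Y, Function.Injective f ∧ ∀ t : X, g * ψ t * g⁻¹ = ψ (f t) :=
  ⟨fun t => ⟨_, (h t t.2).choose_spec.1⟩, fun a b e => Subtype.ext (inj (by
    have := (h a a.2).choose_spec.2.trans ((congrArg (fun y : Y => ψ y) e).trans (h b b.2).choose_spec.2.symm)
    simpa using this)), fun t => (h t t.2).choose_spec.2⟩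
theorem mp_card {X Y : Subgroup TT} {g : G} (h : Mp ψ X Y g) : Nat.card X ≤ Nat.card Y := by
  obtain ⟨f, hf, -⟩ := mp_fun inj h
  exact Nat.card_le_card_of_injective f hf
theorem mp_inv {X Y : Subgroup TT} {g : G} (h : Mp ψ X Y g) (c : Nat.card Y ≤ Nat.card X) : Mp ψ Y X g⁻¹ := fun t ht => by
  obtain ⟨f, hf, e⟩ := mp_fun inj h
  obtain ⟨a, ha⟩ := (hf.bijective_of_nat_card_le c).2 ⟨t, ht⟩
  exact ⟨a, a.2, by rw [show t = f a by rw [ha], ← e]; group⟩
theorem img (p : Bool × Bool) {g : G} (h : Mp ψ (Q p) ⊤ g) : ∃ p', Mp ψ (Q p) (Q p') g := by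
  let Y := (((Q p).map ψ).map (MulAut.conj g).toMonoidHom).comap ψ
  have hY : ∀ y ∈ Y, ∃ t ∈ Q p, g * ψ t * g⁻¹ = ψ y := by
    rintro y ⟨_, ⟨t, ht, rfl⟩, e⟩; exact ⟨t, ht, e⟩
  have h1 : Mp ψ (Q p) Y g := fun t ht => (h t ht).imp fun y e => ⟨⟨_, ⟨t, ht, rfl⟩, e.2⟩, e.2⟩
  have h2 : Mp ψ Y (Q p) g⁻¹ := fun y hy => (hY y hy).imp fun t e => ⟨e.1, by rw [← e.2]; group⟩
  obtain ⟨p', hp⟩ := e16 (Y := Y) (le_antisymm (cardQ p ▸ mp_card inj h2) (cardQ p ▸ mp_card inj h1)) (fun y hy => inj (by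
    obtain ⟨t, ht, e⟩ := hY y hy
    rw [map_mul, ← e, conj_mul, ← map_mul, (Q_el p t ht).2.1]; simp)) fun y hy y' hy' => inj (by
    obtain ⟨t, ht, e⟩ := hY y hy
    obtain ⟨t', ht', e'⟩ := hY y' hy'
    rw [map_mul, map_mul, ← e, ← e', conj_mul, conj_mul, ← map_mul, ← map_mul, Q_cm p t ht t' ht'])
  exact ⟨p', mp_mono h1 le_rfl hp⟩
theorem mpQ_inv {p p' : Bool × Bool} {g : G} (h : Mp ψ (Q p) (Q p') g) : Mp ψ (Q p') (Q p) g⁻¹ :=
  mp_inv inj h (by rw [cardQ, cardQ])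
theorem inf_le {p p' r r' : Bool × Bool} {g : G} (h : Mp ψ (Q p) (Q r) g) (h' : Mp ψ (Q p') (Q r') g) :
    (if p' = p then 16 else if p' = (!p.1, !p.2) then 4 else 8) ≤ if r' = r then 16 else if r' = (!r.1, !r.2) then 4 else 8 := by
  rw [← cardI, ← cardI, ← Nat.card_eq_fintype_card, ← Nat.card_eq_fintype_card]
  exact mp_card inj (mp_inf inj h h')
/-- normalizer -/
def Nm (X : Subgroup TT) : Subgroup G where
  carrier := {g | Mp ψ X X g}
  mul_mem' ha hb := mp_mul hb ha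
  one_mem' t ht := ⟨t, ht, by simp⟩
  inv_mem' h := mp_inv inj h le_rfl
theorem pT : IsPGroup 2 ψ.range :=
  IsPGroup.of_card (n := 7) (by rw [← Nat.card_congr (MonoidHom.ofInjective inj).toEquiv, card_TT]; rfl)
omit inj

variable [Finite G] {x : G}
theorem nJ (c : Rx ψ x) (g : G) (h : Mp ψ J J g) : g ∈ ψ.range := by
  have k : ∀ g ∈ Nm c.inj J, g ^ 4 ∈ ψ.range := fun g hg => by
    choose σ hσ using fun p => img c.inj p (mp_mono hg (fun t ht => (Q_el p t ht).1) le_top)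
    have h4 := perm σ (fun p p' e => by
      have := inf_le c.inj (mpQ_inv c.inj (hσ p')) (mpQ_inv c.inj (hσ p))
      rw [if_pos e] at this
      split_ifs at this <;> first | assumption | omega) fun p => by
      have := inf_le c.inj (mpQ_inv c.inj (hσ p)) (mpQ_inv c.inj (hσ (!p.1, !p.2)))
      rw [if_neg ((by decide : ∀ p : Bool × Bool, (!p.1, !p.2) ≠ p) p), if_pos rfl] at this
      split_ifs at this <;> first | assumption | omega
    have : ∀ p, Mp ψ (Q p) (Q p) (g ^ 4) := fun p => by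
      have := mp_mul (mp_mul (mp_mul (hσ p) (hσ _)) (hσ _)) (hσ _)
      rwa [h4, show g * (g * (g * g)) = g ^ 4 by simp [pow_succ, mul_assoc]] at this
    exact c.nAB _ (this (true, true)) (this (false, false))
  have le : ψ.range ≤ Nm c.inj J := by
    rintro _ ⟨j, rfl⟩
    exact mp_psi (by revert j; decide +kernel)
  have hp : IsPGroup 2 (Nm c.inj J) := fun g => by
    obtain ⟨n, hn⟩ := pT c.inj ⟨_, k g g.2⟩
    exact ⟨2 + n, Subtype.ext (by simpa [pow_add, pow_mul] using congrArg Subtype.val hn)⟩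
  have := Fact.mk Nat.prime_two
  obtain ⟨n, hn⟩ := hp.index (ψ.range.subgroupOf (Nm c.inj J))
  have h1 : ψ.range.relIndex (Nm c.inj J) = 1 := by
    rcases n with _ | n
    · exact hn
    · exact absurd ((dvd_pow_self 2 n.succ_ne_zero).trans (hn ▸ relIndex_dvd_index_of_le le)) c.syl
  exact relIndex_eq_one.1 h1 h

theorem wk (c : Rx ψ x) (b : Bool) (g : G) (h : Mp ψ (Q (b, b)) ⊤ g) : Mp ψ (Q (b, b)) (Q (b, b)) g := by
  have := Fact.mk Nat.prime_two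
  obtain ⟨p, hp⟩ := img c.inj _ h
  let N := Nm c.inj (Q (b, b))
  have le : ψ.range ≤ N := by rintro _ ⟨j, rfl⟩; exact mp_psi fun t ht => nrm b t ht j
  let R := (J.map ψ).map (MulAut.conj g⁻¹).toMonoidHom
  have hR : IsPGroup 2 R := ((pT c.inj).to_le (map_le_range _ _)).map _
  have hN : ∀ j ∈ J, g⁻¹ * ψ j * g ∈ N := fun j hj => by
    rw [mul_assoc]
    exact mp_mul (mp_mul hp (mp_psi fun t ht => (Q_el p t ht).2.2 j hj)) (mpQ_inv c.inj hp)
  obtain ⟨P, hP⟩ := (hR.comap_subtype (K := N)).exists_le_sylow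
  obtain ⟨n, hn⟩ := MulAction.exists_smul_eq N P (((pT c.inj).comap_subtype (K := N)).toSylow fun h' =>
    c.syl (h'.trans (relIndex_dvd_index_of_le le)))
  have h1 : Mp ψ J ⊤ (n * g⁻¹) := fun j hj => by
    have : n * ⟨_, hN j hj⟩ * n⁻¹ ∈ (n • P : Sylow 2 N) :=
      ⟨_, hP (show (⟨_, hN j hj⟩ : N) ∈ R.comap N.subtype from ⟨_, ⟨j, hj, rfl⟩, by simp⟩), rfl⟩
    rw [hn] at this
    obtain ⟨t, ht⟩ := this
    exact ⟨t, trivial, by rw [ht]; simp [mul_assoc]⟩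
  have h2 : Mp ψ J J (n * g⁻¹) := fun j hj => by
    obtain ⟨a, ha, hb⟩ := gen j hj
    obtain ⟨p1, e1⟩ := img c.inj (true, true) (mp_mono h1 (fun t ht => (Q_el _ t ht).1) le_rfl)
    obtain ⟨p2, e2⟩ := img c.inj (false, false) (mp_mono h1 (fun t ht => (Q_el _ t ht).1) le_rfl)
    obtain ⟨a', h3, h4⟩ := e1 a ha
    obtain ⟨b', h5, h6⟩ := e2 _ hb
    exact ⟨a' * b', mul_mem (Q_el _ _ h3).1 (Q_el _ _ h5).1, by rw [map_mul, ← h4, ← h6, conj_mul, ← map_mul]; simp⟩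
  have := mul_mem (inv_mem (le (nJ c _ h2))) n.2
  exact (show g ∈ N by simpa using this)

theorem p1a : P1a.{u} := fun G _ _ ψ x c => by
  refine ⟨nJ c.toRx, wk c.toRx true, wk c.toRx false, fun g h => ?_⟩
  obtain ⟨p, hp⟩ := img c.inj (true, false) h
  have k : ∀ b, p ≠ (b, b) := by
    rintro b rfl
    have h1 := mpQ_inv c.inj hp
    have := inf_le c.inj h1 (wk c.toRx b _ (mp_mono h1 le_rfl le_top))
    revert this; cases b <;> decide
  rcases p with ⟨_ | _, _ | _⟩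
  exacts [absurd rfl (k _), Or.inr hp, Or.inl hp, absurd rfl (k _)]

end H12.QwA
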