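import Cfsg.Agent.H12.RelF4
import Cfsg.Agent.H17.Syl
import Cfsg.Agent.S2378

/-! Automizers in sections: with abelian Sylow subgroups a relation `b a b⁻¹ = a ^ k` in a section lifts to the group (`sec_one`, `sec_two`), and is
then realised in the Weyl group (`exists_W_of_conj`). -/

set_option autoImplicit false

namespace H12
open Cfsg.Lie H13 StSys Subgroup

section grp
variable {K Q : Type*} [Group K] [Finite K] [Group Q] (π : K →* Q) {r s : ℕ} [hr : Fact r.Prime] [hs : Fact s.Prime]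

theorem frat {M : Subgroup K} {A : Subgroup Q} (hA : IsPGroup r A) (h1 : A ≤ M.map π) (h2 : M.map π ≤ normalizer (A : Set Q)) :
    ∃ P ≤ M, IsPGroup r P ∧ P.map π = A ∧ M.map π ≤ (M ⊓ normalizer (P : Set K)).map π := by
  obtain ⟨P, hP⟩ := H17.exists_isSyl r (M ⊓ A.comap π)
  have e : (M ⊓ A.comap π).map π = A := le_antisymm (map_le_iff_le_comap.2 inf_le_right) fun a ha =>
    let ⟨x, hx, e⟩ := h1 ha; ⟨x, ⟨hx, show π x ∈ A from e ▸ ha⟩, e⟩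
  have e' := ((e ▸ hP.map π :).eq_of_le hA (e ▸ map_mono hP.le) le_rfl).symm
  refine ⟨P, hP.le.trans inf_le_left, hP.pgroup, e', ?_⟩
  rintro _ ⟨g, hg : g ∈ M, rfl⟩
  obtain ⟨n, hn, h3⟩ := hP.frattini_mem (g := g) (mem_normalizer_iff.2 fun x => and_congr ⟨fun h => M.mul_mem (M.mul_mem hg h) (M.inv_mem hg), fun h => by
    simpa [mul_assoc] using M.mul_mem (M.mul_mem (M.inv_mem hg) h) hg⟩ (by simpa using mem_normalizer_iff.1 (h2 ⟨g, hg, rfl⟩) (π x)))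
  obtain ⟨u, hu : u ∈ P, e⟩ := e' ▸ (show π n ∈ A from hn.2)
  exact ⟨u⁻¹ * (n * g), ⟨M.mul_mem (M.inv_mem (hP.le hu).1) (M.mul_mem hn.1 hg), Subgroup.mul_mem _ (Subgroup.inv_mem _ (le_normalizer hu)) h3⟩, by simp [e]⟩

theorem eig {C : Subgroup K} (hC : ∀ x ∈ C, ∀ y ∈ C, Commute x y) (hp : IsPGroup r C) {g : K} (hg : ∀ y ∈ C, g * y * g⁻¹ ∈ C) {k : ℕ}
    (h : ∀ y ∈ C, π (g * y * g⁻¹) = π y ^ k) {y : K} (h0 : y ∈ C) (h1 : π y ≠ 1) : ∃ y ∈ C, orderOf y = r ∧ g * y * g⁻¹ = y ^ k := by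
  obtain ⟨a, b, e, h2⟩ := Function.not_injective_iff.1 (mt (Finite.injective_iff_surjective (f := fun y : C =>
    (⟨g * y * g⁻¹ * (y.1 ^ k)⁻¹, mul_mem (hg _ y.2) (inv_mem (pow_mem y.2 k))⟩ : C))).1 fun hs => by
      obtain ⟨x, e⟩ := hs ⟨y, h0⟩
      exact h1 (by rw [← show _ = y from congrArg Subtype.val e, map_mul, h _ x.2]; simp))
  have h3 : g * (b⁻¹ * a : C) * g⁻¹ = (b⁻¹ * a : C).1 ^ k := by
    have e : g * a * g⁻¹ * (a.1 ^ k)⁻¹ = g * b * g⁻¹ * (b.1 ^ k)⁻¹ := congrArg Subtype.val e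
    rw [coe_mul, (hC _ a.2 _ b⁻¹.2).symm.mul_pow, ((hC _ a.2 _ b⁻¹.2).symm.pow_pow k k).eq, coe_inv, inv_pow, ((hC _ a.2 _ b.2).pow_pow k k).inv_right.eq,
      mul_inv_eq_iff_eq_mul.1 e |> (show g * (b.1⁻¹ * a) * g⁻¹ = (g * b * g⁻¹)⁻¹ * (g * a * g⁻¹) by group).trans ∘ congrArg _]
    group
  obtain ⟨n, hn⟩ := (IsPGroup.iff_orderOf.1 hp) (b⁻¹ * a)
  have h4 : r ∣ orderOf (b⁻¹ * a : C).1 := by
    rw [orderOf_coe, hn]; exact dvd_pow_self _ fun e => h2 (inv_mul_eq_one.1 (orderOf_eq_one_iff.1 (by rw [hn, e, pow_zero]))).symm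
  exact ⟨_, pow_mem (b⁻¹ * a).2 _, orderOf_pow_orderOf_div (orderOf_pos _).ne' h4, by rw [← conj_pow, h3, ← pow_mul, ← pow_mul, mul_comm]⟩

omit [Finite K] hr hs in
theorem conj_of_zpowers {a b : Q} {k : ℕ} (e : b * a * b⁻¹ = a ^ k) {x : Q} (hx : x ∈ zpowers a) : b * x * b⁻¹ = x ^ k := by
  obtain ⟨n, rfl⟩ := hx; simp only [← conj_zpow, e, ← zpow_natCast, ← zpow_mul, mul_comm]
omit [Finite K] hs in
theorem mem_norm_zpowers {a b : Q} {k : ℕ} (ha : orderOf a = r) (e : b * a * b⁻¹ = a ^ k) : b ∈ normalizer (zpowers a : Set Q) := by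
  have : Finite (zpowers a) := Nat.finite_of_card_ne_zero (by rw [Nat.card_zpowers, ha]; exact hr.out.ne_zero)
  exact mem_normalizer_fintype fun x hx => by rw [conj_of_zpowers e hx]; exact pow_mem hx k

theorem sec_one (hab : ∀ P : Subgroup K, IsPGroup r P → ∀ x ∈ P, ∀ y ∈ P, Commute x y) {a b : Q} (ha : a ∈ π.range) (hb : b ∈ π.range)
    (h : orderOf a = r) {k : ℕ} (e : b * a * b⁻¹ = a ^ k) : ∃ y g : K, orderOf y = r ∧ g * y * g⁻¹ = y ^ k := by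
  obtain ⟨a, rfl⟩ := ha
  obtain ⟨b, rfl⟩ := hb
  obtain ⟨P, -, h1, h2, h3⟩ := frat π (M := (normalizer (zpowers (π a) : Set Q)).comap π) (H17.isPGroup_zpowers_of_orderOf h)
    (zpowers_le.2 ⟨a, le_normalizer (mem_zpowers _), rfl⟩) (map_comap_le _ _)
  obtain ⟨g, hg, e'⟩ := h3 ⟨b, mem_norm_zpowers h e, rfl⟩
  obtain ⟨y, hy, e''⟩ := h2 ▸ mem_zpowers (π a)
  obtain ⟨y, -, h4⟩ := eig π (hab P h1) h1 (fun y hy => (mem_normalizer_iff.1 hg.2 y).1 hy) (k := k) (fun y hy => by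
    simpa [e'] using conj_of_zpowers e (h2 ▸ mem_map_of_mem π hy)) hy fun e => hr.out.ne_one (by rw [← h, ← e'', e, orderOf_one])
  exact ⟨y, g, h4⟩

theorem sec_two (hab : ∀ P : Subgroup K, IsPGroup r P → ∀ x ∈ P, ∀ y ∈ P, Commute x y) (hab' : ∀ P : Subgroup K, IsPGroup s P → ∀ x ∈ P, ∀ y ∈ P, Commute x y)
    (hrs : r ≠ s) {a a' b : Q} (ha : a ∈ π.range) (ha' : a' ∈ π.range) (hb : b ∈ π.range) (h : orderOf a = r) (h' : orderOf a' = s) (hc : Commute a a')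
    {k : ℕ} (e : b * a * b⁻¹ = a ^ k) (e' : b * a' * b⁻¹ = a' ^ k) : ∃ y g : K, orderOf y = r * s ∧ g * y * g⁻¹ = y ^ k := by
  obtain ⟨a, rfl⟩ := ha
  obtain ⟨a', rfl⟩ := ha'
  obtain ⟨b, rfl⟩ := hb
  let M := (normalizer (zpowers (π a) : Set Q) ⊓ normalizer (zpowers (π a') : Set Q)).comap π
  have m1 : a ∈ M := ⟨le_normalizer (mem_zpowers _), mem_norm_zpowers h' (k := 1) (by simp [hc.eq])⟩
  have m2 : a' ∈ M := ⟨mem_norm_zpowers h (k := 1) (by simp [← hc.eq]), le_normalizer (mem_zpowers _)⟩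
  obtain ⟨P, -, h1, h2, h3⟩ := frat π (M := M) (H17.isPGroup_zpowers_of_orderOf h) (zpowers_le.2 ⟨a, m1, rfl⟩) ((map_comap_le _ _).trans inf_le_left)
  obtain ⟨P', h4, h5, h6, h7⟩ := frat π (M := M ⊓ normalizer (P : Set K)) (H17.isPGroup_zpowers_of_orderOf h') (zpowers_le.2 (h3 ⟨a', m2, rfl⟩))
    ((map_mono inf_le_left).trans ((map_comap_le _ _).trans inf_le_right))
  obtain ⟨g, hg, e1⟩ := h7 (h3 ⟨b, ⟨mem_norm_zpowers h e, mem_norm_zpowers h' e'⟩, rfl⟩)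
  obtain ⟨y', hy', e2⟩ := h6 ▸ mem_zpowers (π a')
  obtain ⟨y', hy', h8⟩ := eig π (hab' P' h5) h5 (fun y hy => (mem_normalizer_iff.1 hg.2 y).1 hy) (k := k) (fun y hy => by
    simpa [e1] using conj_of_zpowers e' (h6 ▸ mem_map_of_mem π hy)) hy' fun e => hs.out.ne_one (by rw [← h', ← e2, e, orderOf_one])
  obtain ⟨y, hy, e3, h9⟩ : ∃ y ∈ P, π y = π a ∧ y ∈ centralizer (P' : Set K) := by
    let act : MulAction P' {y // y ∈ P ∧ π y = π a} := {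
      smul u y := ⟨u * y * u⁻¹, (mem_normalizer_iff.1 (h4 u.2).2 y).1 y.2.1, by
        obtain ⟨n, e⟩ := h6 ▸ mem_map_of_mem π u.2
        simp [y.2.2, ← e, ← (hc.zpow_right n).eq]⟩
      one_smul y := Subtype.ext (show (1 : K) * y * 1⁻¹ = y by simp)
      mul_smul u v y := Subtype.ext (show (u * v : K) * y * (u * v : K)⁻¹ = u * (v * y * (v : K)⁻¹) * (u : K)⁻¹ by group) }
    obtain ⟨y, hy : y ∈ P, e⟩ := h2 ▸ mem_zpowers (π a)
    obtain ⟨n, hn⟩ := IsPGroup.iff_card.1 (h1.to_inf_left (K := π.ker))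
    obtain ⟨z, hz⟩ := h5.nonempty_fixed_point_of_prime_not_dvd_card {y // y ∈ P ∧ π y = π a} (by
      rw [← Nat.card_congr (α := ↥(P ⊓ π.ker)) (β := {y // y ∈ P ∧ π y = π a}) ⟨fun z => ⟨y * z, mul_mem hy z.2.1, by simp [e, show π z = 1 from z.2.2]⟩,
        fun z => ⟨y⁻¹ * z, P.mul_mem (P.inv_mem hy) z.2.1, by simp [e, z.2.2]⟩, fun z => by simp, fun z => by simp⟩, hn]
      exact fun e => hrs ((Nat.prime_dvd_prime_iff_eq hs.out hr.out).1 (hs.out.dvd_of_dvd_pow e)).symm)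
    exact ⟨z, z.2.1, z.2.2, fun u hu => mul_inv_eq_iff_eq_mul.1 (congrArg Subtype.val (hz ⟨u, hu⟩))⟩
  obtain ⟨y, hy, h10⟩ := eig π (C := P ⊓ centralizer (P' : Set K)) (fun x hx y hy => hab P h1 x hx.1 y hy.1) h1.to_inf_left (g := g)
    (fun y hy => ⟨(mem_normalizer_iff.1 hg.1.2 y).1 hy.1, fun u hu => by
      have := hy.2 _ ((mem_normalizer_iff''.1 hg.2 u).1 hu)
      rw [show u * (g * y * g⁻¹) = g * (g⁻¹ * u * g * y) * g⁻¹ by group, this]; group⟩) (k := k) (fun y hy => by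
    simpa [e1] using conj_of_zpowers e (h2 ▸ mem_map_of_mem π hy.1)) ⟨hy, h9⟩ fun e => hr.out.ne_one (by rw [← h, ← e3, e, orderOf_one])
  have c : Commute y y' := (hy.2 _ hy').symm
  exact ⟨y * y', g, by rw [c.orderOf_mul_eq_mul_orderOf_of_coprime (by rw [h10.1, h8.1]; exact (Nat.coprime_primes hr.out hs.out).2 hrs), h10.1, h8.1],
    by rw [← conj_mul, h10.2, h8.2, c.mul_pow]⟩

theorem alt_range {N : Subgroup K} [N.Normal] {n m : ℕ} (e : K ⧸ N ≃* alternatingGroup (Fin n)) (h : m ≤ n) : ∃ (π : K →* Equiv.Perm (Fin n))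
    (ι : Equiv.Perm (Fin m) →* Equiv.Perm (Fin n)), Function.Injective ι ∧ ∀ a, Equiv.Perm.sign a = 1 → ι a ∈ π.range :=
  ⟨(alternatingGroup _).subtype.comp (e.toMonoidHom.comp (QuotientGroup.mk' N)), _, Equiv.Perm.extendDomainHom_injective (Fin.castLEquiv h), fun a ha => by
    obtain ⟨x, hx⟩ := (e.surjective.comp (QuotientGroup.mk'_surjective N)) ⟨Equiv.Perm.extendDomainHom (Fin.castLEquiv h) a, by simpa using ha⟩
    exact ⟨x, congrArg Subtype.val hx⟩⟩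
end grp

theorem zmod7 : ∀ a : ZMod 7, a ^ 3 = 1 → a ^ 12 * (a + 1) * (a ^ 2 + 1) * (a ^ 3 + 1) * (a ^ 6 + 1) ≠ 0 := by decide
theorem perm7 : ∃ a b : Equiv.Perm (Fin 7), a.sign = 1 ∧ b.sign = 1 ∧ a ^ 7 = 1 ∧ a ≠ 1 ∧ b * a * b⁻¹ = a ^ 2 :=
  ⟨⟨![1, 2, 3, 4, 5, 6, 0], ![6, 0, 1, 2, 3, 4, 5], by decide, by decide⟩,
    ⟨![0, 2, 4, 6, 1, 3, 5], ![0, 4, 1, 5, 2, 6, 3], by decide, by decide⟩, by decide +kernel⟩
theorem perm11 : ∃ a b : Equiv.Perm (Fin 11), a.sign = 1 ∧ b.sign = 1 ∧ a ^ 11 = 1 ∧ a ≠ 1 ∧ b * a * b⁻¹ = a ^ 3 :=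
  ⟨⟨![1, 2, 3, 4, 5, 6, 7, 8, 9, 10, 0], ![10, 0, 1, 2, 3, 4, 5, 6, 7, 8, 9], by decide, by decide⟩,
    ⟨![0, 3, 6, 9, 1, 4, 7, 10, 2, 5, 8], ![0, 4, 8, 1, 5, 9, 2, 6, 10, 3, 7], by decide, by decide⟩, by decide +kernel⟩
theorem perm12 : ∃ a a' b : Equiv.Perm (Fin 12), a.sign = 1 ∧ a'.sign = 1 ∧ b.sign = 1 ∧ a ^ 7 = 1 ∧ a ≠ 1 ∧ a' ^ 5 = 1 ∧ a' ≠ 1 ∧ a * a' = a' * a ∧
    b * a * b⁻¹ = a ^ 17 ∧ b * a' * b⁻¹ = a' ^ 17 :=
  ⟨⟨![1, 2, 3, 4, 5, 6, 0, 7, 8, 9, 10, 11], ![6, 0, 1, 2, 3, 4, 5, 7, 8, 9, 10, 11], by decide, by decide⟩,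
    ⟨![0, 1, 2, 3, 4, 5, 6, 8, 9, 10, 11, 7], ![0, 1, 2, 3, 4, 5, 6, 11, 7, 8, 9, 10], by decide, by decide⟩,
    ⟨![0, 3, 6, 2, 5, 1, 4, 7, 9, 11, 8, 10], ![0, 5, 3, 1, 6, 4, 2, 7, 10, 8, 11, 9], by decide, by decide⟩, by decide +kernel⟩

theorem comm_F4 {F K : Type*} [Field F] [Fintype F] [Group K] {f : K →* chevF4.group F} (hf : Function.Injective f) {p r : ℕ} [hp : Fact p.Prime] [CharP F p]
    [hr : Fact r.Prime] (h : r ≠ p) (h' : ¬ r ∣ 1152) (P : Subgroup K) (hP : IsPGroup r P) : ∀ x ∈ P, ∀ y ∈ P, Commute x y := fun x hx y hy => by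
  obtain ⟨n, -, hn⟩ := FiniteField.card F p
  obtain ⟨S, hS⟩ := (hP.map f).exists_le_sylow
  obtain ⟨j, hj⟩ := IsPGroup.iff_orderOf.1 hP ⟨x, hx⟩
  obtain rfl | h0 := eq_or_ne j 0
  · rw [show x = 1 from congrArg Subtype.val (orderOf_eq_one_iff.1 hj)]; exact .one_left y
  obtain ⟨e⟩ := Cfsg.Agent.S2378.result rfl (chevF4, [2, 6, 8, 12]) (by simp) r (fun e => h ((Nat.prime_dvd_prime_iff_eq hr.out hp.out).1
    (hr.out.dvd_of_dvd_pow (hn ▸ e)))) h' ((dvd_pow_self r h0).trans (by rw [← hj, orderOf_mk, ← orderOf_injective f hf]; exact orderOf_dvd_natCard _)) S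
  exact hf (by simpa using congrArg Subtype.val (e.injective (a₁ := ⟨_, hS ⟨x, hx, rfl⟩⟩ * ⟨_, hS ⟨y, hy, rfl⟩⟩) (a₂ := ⟨_, hS ⟨y, hy, rfl⟩⟩ * ⟨_, hS ⟨x, hx, rfl⟩⟩)
    (by rw [map_mul, map_mul, mul_comm])))

theorem exists_W_of_conj {D : ChevalleyDatum} [Good D] [SC D] {F : Type*} [Field F] [Finite F] (p : ℕ) [Fact p.Prime] [CharP F p] {P P' Q Q' : List (List ℤ)}
    {d : List ℕ} (hS : Smith (tab D) P P' Q Q' d) (hd : ∀ i < D.rank, d.getD i 0 = 1) {y g : D.group F} {k : ℕ} (hp : (orderOf y).Coprime p)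
    (e : g * y * g⁻¹ = y ^ k) : ∃ w : W D, ∀ f, sumP (wL w) f = 0 → (orderOf y : ℤ) ∣ revE k f := by
  obtain ⟨m, -, -⟩ := exists_fm D F p
  have hi := m.π_injective fun z hz _ => by simpa [hS.ker_eq_bot hd] using hz
  obtain ⟨y, rfl⟩ := m.π_surjective y
  obtain ⟨g, rfl⟩ := m.π_surjective g
  rw [orderOf_injective _ hi] at hp ⊢
  obtain ⟨a, c, h⟩ := exists_conj_H p (x := y.1) hp (by rw [← coe_pow, pow_orderOf_eq_one]; rfl)
  have e : g.1 * y * g.1⁻¹ = y.1 ^ k := congrArg Subtype.val (hi (a₁ := g * y * g⁻¹) (a₂ := y ^ k) (by simpa using e))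
  obtain ⟨w, hw⟩ := exists_wT_of_conj (g := a * g.1 * a⁻¹) (c := c) (c' := c ^ k) (by rw [r3_st.hl_pow, ← h, conj_pow, ← e]; group)
  refine ⟨w, fun f hf => orderOf_dvd_iff_zpow_eq_one.2 (Subtype.ext ?_)⟩
  have := congrArg r3_st.hprod (pow_revE (c := c) (q := k) (fun μ => by rw [← pow_tch, ← hw, tch_wT, ← wL_mul, inv_mul_cancel, wL_one]) hf)
  rw [map_zpow, map_one, show r3_st.hprod c = _ from h.symm, conj_zpow, conj_eq_one_iff] at this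
  exact this

theorem Tw.dvd_of_conj {D : ChevalleyDatum} [Good D] {F Γ : Type*} [Field F] [Group Γ] {S : StSys D F Γ} {θ : Γ →* GL D.Idx F} (hθ : S.Cov θ) (r3 : S.R3) {R : RSym D}
    {τ : Tw S R} {e : ℕ} (he : ∀ w ∈ R.W1, w ^ e = 1) {g y : Γ} (hg : g ∈ τ.Fix) (hy : y ∈ S.H) {k : ℕ} (h : g * y * g⁻¹ = y ^ k) : y ^ k ^ e = y := by
  obtain ⟨w, hw⟩ := exists_cell hg.1
  obtain ⟨u, hu, n, hn, u', hu', rfl⟩ := hw.exists_unu
  have h1 : n * y * n⁻¹ = y ^ k := by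
    have := (hθ.unu_unique hu (conj_mem_of_normalizer (H_le_normalizer _ (pow_mem hy k)) hu) (by simpa using hn.mul (rep_of_mem_H hy))
      (by simpa using (rep_of_mem_H (pow_mem hy k)).mul hn) (conj_mem_of_normalizer' (H_le_normalizer _ hy) hu') hu' (by rw [← h]; group)).2.1
    exact mul_inv_eq_iff_eq_mul.2 this
  have h2 : ∀ j, S.Rep (n ^ j) (w ^ j) ∧ n ^ j * y * (n ^ j)⁻¹ = y ^ k ^ j := fun j => by
    induction j with
    | zero => simpa using rep_of_mem_H (one_mem _)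
    | succ j ih => exact ⟨by simpa [pow_succ] using ih.1.mul hn, by rw [pow_succ k, pow_mul, ← ih.2, conj_pow, ← h1, pow_succ]; group⟩
  obtain ⟨h3, h4⟩ := h2 e
  rw [he w (Tw.mem_W1 hθ hg hw)] at h3
  conv_lhs => rw [← h4, r3.comm (hθ.mem_H_of_B_N (cell_one.1 h3.cell) h3.mem_N) hy, mul_inv_cancel_right]

end H12
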