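import Cfsg.Agent.H12.Sec9
import Cfsg.Agent.H12.E56b
import Mathlib.FieldTheory.Finite.Extension

/-! Alternating sections of `E₇(q)`: monomial automorphisms of `r ^ d` inside alternating groups (`S7.ind_mon`, `S7.irr`), and the main step `S7.core`. -/

set_option autoImplicit false

namespace H12.S7
open Cfsg.Lie StSys Subgroup E56 Multiplicative

section perm
variable {d r : ℕ}
/-- translations of the blocks -/
def tr (d r : ℕ) : Multiplicative (Fin d → ZMod r) →* Equiv.Perm (Fin d × ZMod r) :=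
  .mk' (fun v => Equiv.prodCongrRight fun i => Equiv.addLeft (v.toAdd i)) fun v w => by ext <;> simp [add_assoc]
theorem tr_inj : Function.Injective (tr d r) := fun v w h => toAdd.injective (funext fun i => by simpa [tr] using congrArg (fun e : Equiv.Perm _ => (e (i, 0)).2) h)
/-- monomial maps -/
def mon (g : ZMod r) (τ : Equiv.Perm (Fin d)) (n : Fin d → ℕ) (v : Multiplicative (Fin d → ZMod r)) : Multiplicative (Fin d → ZMod r) := ofAdd fun i => g ^ n i * v.toAdd (τ i)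
theorem cert5 : (MulAction.toPermHom (ZMod 5)ˣ (ZMod 5) ⟨3, 2, rfl, rfl⟩).sign = -1 ∧ (3 : ZMod 5) ^ 2 ≠ 1 ∧
    ∀ v : Multiplicative (Fin 3 → ZMod 5), ∃ τ ∈ [1, Equiv.swap 0 1], ∃ a < 4, ∃ b < 4, ∃ c < 4, τ.sign * (-1) ^ ∑ i, ![a, b, c] i = 1 ∧ mon 3 τ ![a, b, c] v = v ^ 2 := by decide +kernel
/-- indicator functions of the orbits -/
def ob (b : Bool) (v : Multiplicative (Fin 2 → ZMod 7)) : ℕ := if v ≠ 1 ∧ (v.toAdd 0 * v.toAdd 1 = 0 ↔ b) then 1 else 0
theorem cert7 : (MulAction.toPermHom (ZMod 7)ˣ (ZMod 7) ⟨3, 5, rfl, rfl⟩).sign = -1 ∧ (3 : ZMod 7) ^ 2 ≠ 1 ∧ ∑ v, ob true v = 12 ∧ ∑ v, ob false v = 36 ∧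
    ∀ v : Multiplicative (Fin 2 → ZMod 7), mon 3 1 ![2, 2] v = v ^ 2 ∧ mon 3 1 ![1, 1] v = v ^ 3 ∧ ∃ τ ∈ [1, Equiv.swap 0 1], ∃ a < 6, ∃ b < 6, τ.sign * (-1) ^ ∑ i, ![a, b] i = 1 ∧
      (mon 3 τ ![a, b] v = 1 ∧ ob true v = 0 ∧ ob false v = 0 ∨ mon 3 τ ![a, b] v = ofAdd ![1, 0] ∧ ob true v = 1 ∧ ob false v = 0 ∨
        mon 3 τ ![a, b] v = ofAdd ![1, 1] ∧ ob true v = 0 ∧ ob false v = 1) := by decide +kernel
variable [hr : Fact r.Prime] {R : Subgroup (Equiv.Perm (Fin d × ZMod r))} (hR : ∀ a, a.sign = 1 → a ∈ R) {g : (ZMod r)ˣ} (hg : (MulAction.toPermHom _ (ZMod r) g).sign = -1) (ho : Odd r)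
include hR hg ho
theorem ind_mon {τ : Equiv.Perm (Fin d)} {n : Fin d → ℕ} (h : τ.sign * (-1) ^ ∑ i, n i = 1) : Ind R (tr d r) (mon g τ n) := by
  refine ⟨(Equiv.prodCongrRight fun i => MulAction.toPermHom _ (ZMod r) (g ^ n i)) * Equiv.prodCongrLeft fun _ => τ⁻¹, hR _ ?_, fun v => mul_inv_eq_iff_eq_mul.2 ?_⟩
  · rw [map_mul, Equiv.Perm.sign_prodCongrRight, Equiv.Perm.sign_prodCongrLeft]
    simp only [map_pow, hg, Finset.prod_pow_eq_pow_sum, Equiv.Perm.sign_inv, Finset.prod_const, Finset.card_univ, ZMod.card]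
    rw [mul_comm]; rcases Int.units_eq_one_or τ.sign with e | e <;> simpa [e, ho.neg_one_pow] using h
  · ext <;> simp [tr, mon, Units.smul_def, mul_add]
theorem irr (h2 : (g : ZMod r) ^ 2 ≠ 1) (B : Subgroup (Multiplicative (Fin d → ZMod r))) (hB : ∀ M, Ind R (tr d r) M → ∀ v ∈ B, M v ∈ B) : B = ⊥ ∨ B = ⊤ := by
  refine or_iff_not_imp_left.2 fun h => ?_
  obtain ⟨⟨v, hv⟩, h1⟩ := ne_bot_iff_exists_ne_one.1 h
  obtain ⟨i, hi⟩ : ∃ i, v.toAdd i ≠ 0 := by by_contra! e; exact h1 (Subtype.ext (toAdd.injective (funext e)))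
  have k0 : ∀ j c, c ≠ 0 → ofAdd (Pi.single j c) ∈ B → ∀ t, ofAdd (Pi.single j t) ∈ B := fun j c hc h t => by
    convert pow_mem h (t / c).val using 1
    rw [← ofAdd_nsmul, ← Pi.single_smul, nsmul_eq_mul, ZMod.natCast_zmod_val, div_mul_cancel₀ _ hc]
  have k1 := k0 i (((g : ZMod r) ^ 2 - 1) * v.toAdd i) (mul_ne_zero (sub_ne_zero.2 h2) hi) (by
    convert div_mem (hB _ (ind_mon hR hg ho (τ := 1) (n := Pi.single i 2) (by simp)) v hv) hv using 1
    exact toAdd.injective (funext fun j => by by_cases e : j = i <;> simp [mon, e, sub_mul]))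
  have k2 : ∀ j t, ofAdd (Pi.single j t) ∈ B := fun j => by
    obtain rfl | e := eq_or_ne j i
    · exact k1
    refine k0 j g g.ne_zero ?_
    convert hB _ (ind_mon hR hg ho (τ := .swap j i) (n := Pi.single j 1) (by simp [e])) _ (k1 1) using 1
    exact toAdd.injective (funext fun l => by by_cases e' : l = j <;> simp [mon, e', Pi.single_apply, Equiv.swap_apply_eq_iff])
  refine eq_top_iff.2 fun w _ => ?_
  rw [← ofAdd_toAdd w, ← Finset.univ_sum_single w.toAdd, ofAdd_sum]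
  exact prod_mem fun j _ => k2 j _
end perm

theorem core {F : Type*} [Field F] [Fintype F] {p : ℕ} [hp : Fact p.Prime] [CharP F p] {d r : ℕ} [hr : Fact r.Prime] (h : d = 3 ∧ r = 5 ∨ d = 2 ∧ r = 7) (hp' : p ≠ r)
    {X : Subgroup (chevE7.group F)} {N : Subgroup X} [N.Normal] {n : ℕ} (e : X ⧸ N ≃* alternatingGroup (Fin n)) : n < d * r := by
  classical
  by_contra! hn
  obtain ⟨π, ι, hι, h1⟩ := alt_range e hn
  let ε := (Fintype.equivFinOfCardEq (show Fintype.card (Fin d × ZMod r) = d * r by simp)).permCongrHom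
  let Y : Subgroup (chevE7.SteinbergGroup F × Equiv.Perm (Fin d × ZMod r)) := {
    carrier := {z | ∃ x : X, x.1.1 = r3_ad.lift z.1 ∧ π x = ι (ε z.2)}
    one_mem' := ⟨1, by simp⟩
    mul_mem' := fun ⟨x, a, b⟩ ⟨y, c, d⟩ => ⟨x * y, by simp [*]⟩
    inv_mem' := fun ⟨x, a, b⟩ => ⟨x⁻¹, by simp [*]⟩ }
  have hR : ∀ a, a.sign = 1 → a ∈ ((MonoidHom.snd _ _).comp Y.subtype).range := fun a ha => by
    obtain ⟨x, hx⟩ := h1 (ε a) ((Equiv.Perm.sign_permCongr _ _).trans ha)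
    obtain ⟨g, -, hg⟩ := (cov_st.map_gen _).ge (group_eq.le x.1.2)
    exact ⟨⟨(g, a), x, hg.symm, hx⟩, rfl⟩
  have : NeZero (r ^ 2).totient := ⟨(Nat.totient_pos.2 (pow_pos hr.out.pos 2)).ne'⟩
  let F' := FiniteField.Extension F p (r ^ 2).totient
  let k := AlgebraicClosure F'
  have : CharP k p := charP_of_injective_algebraMap (algebraMap F k).injective p
  let j₁ := (stMap chevE7 (algebraMap F F')).comp ((MonoidHom.fst _ _).comp Y.subtype)
  have i1 : Function.Injective j₁ := (injective_iff_map_eq_one _).2 (by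
    rintro ⟨⟨g, a⟩, x, h2, h3⟩ h4
    obtain rfl : g = 1 := stMap_injective _ (h4.trans (map_one _).symm)
    obtain rfl : x = 1 := Subtype.ext (Subtype.ext (by simpa using h2))
    obtain rfl : a = 1 := ε.injective (hι (by simpa using h3.symm))
    rfl)
  let j := (stMap chevE7 (algebraMap F' k)).comp j₁
  have i2 : Function.Injective j := (stMap_injective _).comp i1
  have hi : ¬ r ^ 2 ∣ (stS chevE7 F').H.index := by
    have c1 := cov_st.card_T' (D := chevE7) (F := F')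
    rw [stS_T, card_top, ← (stS chevE7 F').H.card_mul_index, mul_right_comm, mul_comm, Nat.mul_left_inj Nat.card_pos.ne'] at c1
    have c2 : (Nat.card F' : ZMod (r ^ 2)) = 1 := by
      obtain ⟨m, -, hm⟩ := FiniteField.card F p
      rw [FiniteField.natCard_extension, Nat.card_eq_fintype_card, hm, ← Nat.cast_one, ZMod.natCast_eq_natCast_iff]
      exact Nat.ModEq.pow_totient (((Nat.coprime_primes hp.out hr.out).2 hp').pow _ _)
    rw [c1, poinE7', ← ZMod.natCast_eq_zero_iff]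
    simp only [hornerL]
    push_cast
    rw [c2]
    rcases h with ⟨-, rfl⟩ | ⟨-, rfl⟩ <;> decide
  have ho : Odd r := by rcases h with ⟨-, rfl⟩ | ⟨-, rfl⟩ <;> decide
  have hr' : r ∈ [5, 7] := by rcases h with ⟨-, rfl⟩ | ⟨-, rfl⟩ <;> decide
  obtain ⟨g, g1, g2, g3⟩ : ∃ g : (ZMod r)ˣ, (MulAction.toPermHom _ (ZMod r) g).sign = -1 ∧ (g : ZMod r) ^ 2 ≠ 1 ∧ (g : ZMod r) = 3 := by
    rcases h with ⟨-, rfl⟩ | ⟨-, rfl⟩
    exacts [⟨_, cert5.1, cert5.2.1, rfl⟩, ⟨_, cert7.1, cert7.2.1, rfl⟩]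
  have hv : ∀ v : Multiplicative (Fin d → ZMod r), v ^ r = 1 := fun v => by rw [← ofAdd_toAdd v, ← ofAdd_nsmul]; exact congrArg ofAdd (funext fun t => by simp)
  rcases lift_el _ tr_inj (fun v => hR _ (by
      have := congrArg Equiv.Perm.sign (show tr d r v ^ r = 1 by rw [← map_pow, hv, map_one])
      rcases Int.units_eq_one_or (tr d r v).sign with e | e <;> simp_all [ho.neg_one_pow])) (by omega)
    (by rw [Nat.card_perm, Nat.card_prod, Nat.card_zmod, Nat.card_eq_fintype_card, Fintype.card_fin]; rcases h with ⟨rfl, rfl⟩ | ⟨rfl, rfl⟩ <;> decide)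
    (fun P hP => exists_ab (fun x hx y hy => r3_st.comm hx hy) hi i1 hP) (irr hR g1 ho g2) with ⟨σ, s1, s2⟩ | ⟨rfl, x, y, z, z1, z2, z3, z4, z5, z6⟩
  · have k1 : ∀ {τ n}, τ.sign * (-1) ^ ∑ i, n i = 1 → ∀ v, ∃ a, a * j (σ v) * a⁻¹ = j (σ (mon 3 τ n v)) := fun h v =>
      let ⟨a, _, ha⟩ := s2 _ (g3 ▸ ind_mon hR g1 ho h); ⟨j a, by rw [← ha, map_mul, map_mul, map_inv]⟩
    have k2 : ∀ v ≠ 1, orderOf (j (σ v)) = r := fun v h => (orderOf_injective (j.comp σ) (i2.comp s1) v).trans (orderOf_eq_prime (hv v) h)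
    obtain ⟨m, m1, m2⟩ := sum_rank hr.out (fun e => hp' ((Nat.prime_dvd_prime_iff_eq hp.out hr.out).1 ((CharP.cast_eq_zero_iff k p r).1 e))) hv ((ρ k).comp (j.comp σ))
    change r * ∑ v, mu (j (σ v)) 1 = _ at m2
    have k0 : mu (j (σ 1)) 1 = 0 := by simp [mu]
    rcases h with ⟨rfl, rfl⟩ | ⟨rfl, rfl⟩
    · have k3 := cert5.2.2
      rw [Finset.sum_congr rfl (g := fun v => if v = 1 then 0 else 40) fun v _ => by
        split_ifs with e
        · rw [e, k0]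
        obtain ⟨τ, -, a, -, b, -, c, -, h2, h3⟩ := k3 v
        obtain ⟨u, hu⟩ := k1 h2 v
        simpa using (rat hr' hp' (k2 v e) (by rw [hu, h3, map_pow, map_pow])).choose_spec.2] at m2
      simp [Finset.sum_ite, Finset.filter_ne'] at m2
      omega
    have k3 := cert7.2.2.2.2
    have k4 : ∀ v ≠ 1, mu (j (σ v)) 1 = 36 ∨ mu (j (σ v)) 1 = 48 ∨ mu (j (σ v)) 1 = 54 := fun v e => by
      obtain ⟨u, hu⟩ := k1 (τ := 1) (n := ![2, 2]) (by decide) v
      have := (rat hr' hp' (k2 v e) (by rw [hu, (k3 v).1, map_pow, map_pow])).choose_spec.2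
      rw [if_neg (by decide)] at this; omega
    rw [Finset.sum_congr rfl (g := fun v => ob true v * mu (j (σ (ofAdd ![1, 0]))) 1 + ob false v * mu (j (σ (ofAdd ![1, 1]))) 1) fun v _ => by
      obtain ⟨τ, -, a, -, b, -, h2, h3⟩ := (k3 v).2.2
      obtain ⟨u, hu⟩ := k1 h2 v
      rw [← mu_conj u, hu]; rcases h3 with h3 | h3 | h3 <;> simp only [h3, k0] <;> simp, Finset.sum_add_distrib, ← Finset.sum_mul, ← Finset.sum_mul, cert7.2.2.1, cert7.2.2.2.1] at m2
    have := k4 (ofAdd ![1, 0]) fun e => by simpa using congrFun (congrArg toAdd e) 0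
    have := k4 (ofAdd ![1, 1]) fun e => by simpa using congrFun (congrArg toAdd e) 0
    simp at m1 m2
    omega
  obtain rfl : r = 7 := by omega
  obtain ⟨a, ha⟩ := z6 3 (funext (fun v => (cert7.2.2.2.2 v).2.1) ▸ g3 ▸ ind_mon hR g1 ho (τ := 1) (n := ![1, 1]) (by decide))
  obtain ⟨ζ, h2, h3⟩ := rat hr' hp' ((orderOf_injective j i2 z).trans (orderOf_eq_prime z2 z1)) (g := j a) (by
    rw [← map_inv, ← map_mul, ← map_mul, ha, ← map_pow, show 3 * 3 = 7 + 2 from rfl, pow_add, z2, one_mul])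
  have := dvd_rank (X := (r3 (k := k)).lift (j x)) (Y := (r3 (k := k)).lift (j y)) (Z := ρ k (j z)) (by simpa [ρ] using congrArg (ρ k ∘ j) z3) (z4.map ((ρ k).comp j)) (z5.map ((ρ k).comp j)) ζ
  rw [h2, Fintype.card_fin] at this
  rw [if_neg (by decide)] at h3
  change 7 ∣ 56 - mu (j z) ζ at this
  omega

end H12.S7
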