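import Cfsg.Agent.H12.Sec
import Cfsg.Agent.H11.Syl

/-! More on alternating sections: `no_A8` (a group with an abelian subgroup of `2`-rank at most `2` and index not divisible by `8` has no section
`A₈`), abelian Sylow subgroups (`comm_of_mem`), automizers in finite models (`FM.exists_tor_conj`) and in `³D₄` (`no_54`). -/

set_option autoImplicit false

namespace H12
open Cfsg.Lie H13 StSys Subgroup

def aff8 (t : Fin 6 → ZMod 2) : Equiv.Perm (ZMod 2 × ZMod 2 × ZMod 2) where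
  toFun v := (v.1 + t 0 * v.2.1 + t 1 * v.2.2 + t 3, v.2.1 + t 2 * v.2.2 + t 4, v.2.2 + t 5)
  invFun v := (v.1 - t 0 * (v.2.1 - t 2 * (v.2.2 - t 5) - t 4) - t 1 * (v.2.2 - t 5) - t 3, v.2.1 - t 2 * (v.2.2 - t 5) - t 4, v.2.2 - t 5)
  left_inv v := by ext <;> simp <;> ring
  right_inv v := by ext <;> simp <;> ring
theorem ex64 : ∃ R : Subgroup (Equiv.Perm (Fin 8)), Nat.card R = 64 ∧ ∀ x ∈ R, x.sign = 1 ∧ ∀ y ∈ R, x * y = y * x → x ^ 2 = 1 ∨ y ^ 2 = 1 ∨ x ^ 2 = y ^ 2 := by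
  let R : Subgroup (Equiv.Perm (ZMod 2 × ZMod 2 × ZMod 2)) :=
    { carrier := Set.range aff8
      one_mem' := ⟨0, by decide +kernel⟩
      mul_mem' := by
        rintro _ _ ⟨s, rfl⟩ ⟨t, rfl⟩
        exact ⟨![s 0 + t 0, s 1 + t 1 + s 0 * t 2, s 2 + t 2, s 3 + t 3 + s 0 * t 4 + s 1 * t 5, s 4 + t 4 + s 2 * t 5, s 5 + t 5], by ext <;> simp [aff8] <;> ring⟩
      inv_mem' := by rintro _ ⟨s, rfl⟩; exact (show ∀ s, ∃ t, aff8 t = (aff8 s)⁻¹ by decide +kernel) s }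
  let e := (Fintype.equivFinOfCardEq (show Fintype.card (ZMod 2 × ZMod 2 × ZMod 2) = 8 from rfl)).permCongrHom
  refine ⟨R.map e.toMonoidHom, ?_, ?_⟩
  · rw [card_map_of_injective e.injective]
    exact (Nat.card_range_of_injective (f := aff8) (by decide +kernel)).trans (by simp)
  rintro _ ⟨_, ⟨s, rfl⟩, rfl⟩
  refine ⟨(Equiv.Perm.sign_permCongr _ _).trans (by revert s; decide +kernel), ?_⟩
  rintro _ ⟨_, ⟨t, rfl⟩, rfl⟩
  simp only [MulEquiv.toMonoidHom_eq_coe, MonoidHom.coe_coe, ← map_mul, ← map_pow, map_eq_one_iff e e.injective, e.injective.eq_iff]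
  revert s t; decide +kernel

theorem no_A8 {G K A F : Type*} [Group G] [Finite G] [Group K] [CommGroup A] [Field F] {τ : A →* G} (hτ : Function.Injective τ) (a b : A →* Fˣ)
    (h2 : ∀ x, x ^ 2 = 1 → a x = 1 → b x = 1 → x = 1) (hv : ¬ 8 ∣ τ.range.index) {f : K →* G} (hf : Function.Injective f) {n : ℕ}
    (π : K →* Equiv.Perm (Fin n)) {ι : Equiv.Perm (Fin 8) →* Equiv.Perm (Fin n)} (hι : Function.Injective ι) (h : ∀ a, a.sign = 1 → ι a ∈ π.range) : False := by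
  have := Finite.of_injective _ hf
  have := Finite.of_injective _ hτ
  obtain ⟨R, h1, hR⟩ := ex64
  have e : ((R.map ι).comap π).map π = R.map ι := map_comap_eq_self (by rintro _ ⟨x, hx, rfl⟩; exact h x (hR x hx).1)
  have c0 : Nat.card (R.map ι) = 2 ^ 6 := (card_map_of_injective hι).trans h1
  obtain ⟨P, -, hP, h3, -⟩ := frat π (IsPGroup.of_card c0) e.ge (e.trans_le le_normalizer)
  obtain ⟨S₀⟩ : Nonempty (Sylow 2 A) := inferInstance
  obtain ⟨S, hS⟩ := (S₀.2.map τ).exists_le_sylow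
  obtain ⟨S', hS'⟩ := (hP.map f).exists_le_sylow
  obtain ⟨g, rfl⟩ := MulAction.exists_smul_eq G S S'
  let φ : P →* G := ((MulAut.conj g⁻¹).toMonoidHom.comp f).comp P.subtype
  have hφ : Function.Injective φ := ((MulAut.conj g⁻¹).injective.comp hf).comp P.subtype_injective
  have k1 : φ.range ≤ S := by rintro _ ⟨x, rfl⟩; simpa [φ] using mem_pointwise_smul_iff_inv_smul_mem.1 (hS' ⟨x, x.2, rfl⟩)
  let B := φ.range.comap τ
  have c1 : τ.range.relIndex S ≤ 4 := by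
    have a1 := relIndex_mul_relIndex ⊥ _ _ bot_le (inf_le_right : τ.range ⊓ S ≤ S)
    have a2 := card_le_of_le (le_inf (map_le_range τ _) hS)
    have a3 := congrArg (padicValNat 2) τ.range.card_mul_index
    have a4 := mt (padicValNat_dvd_iff_le (p := 2) (n := 3) (index_ne_zero_of_finite (H := τ.range))).2 hv
    rw [padicValNat.mul Nat.card_pos.ne' index_ne_zero_of_finite, ← Nat.card_congr (MonoidHom.ofInjective hτ).toEquiv] at a3
    rw [relIndex_bot_left, relIndex_bot_left, inf_relIndex_right, H11.card_syl, ← a3, pow_add] at a1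
    rw [card_map_of_injective hτ, H11.card_syl] at a2
    exact (Nat.le_of_mul_le_mul_left ((Nat.mul_le_mul_right _ a2).trans a1.le) (by positivity)).trans (Nat.pow_le_pow_right (n := 2) (j := 2) (by simp) (by omega))
  have c2 : Nat.card P ≤ Nat.card B * 4 := by
    have a1 := relIndex_mul_relIndex ⊥ _ _ bot_le (inf_le_right : τ.range ⊓ φ.range ≤ φ.range)
    rw [relIndex_bot_left, relIndex_bot_left, inf_relIndex_right, ← map_comap_eq, card_map_of_injective hτ,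
      ← Nat.card_congr (MonoidHom.ofInjective hφ).toEquiv] at a1
    exact a1 ▸ Nat.mul_le_mul_left _ ((relIndex_le_of_le_right k1 (index_ne_zero_of_finite)).trans c1)
  let s : B →* A := (powMonoidHom 2).comp B.subtype
  have c3 : Nat.card B ≤ 2 * 2 * Nat.card s.range := by
    rw [← s.ker.card_mul_index, index_ker]
    refine Nat.mul_le_mul_right _ ((Nat.card_le_card_of_injective (fun x : s.ker => ((⟨a x.1.1, by simpa [s] using congrArg a x.2⟩, ⟨b x.1.1, by simpa [s] using congrArg b x.2⟩) :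
      rootsOfUnity 2 F × rootsOfUnity 2 F)) fun x y e => ?_).trans (by rw [Nat.card_prod]; exact Nat.mul_le_mul (card_rootsOfUnity _ _) (card_rootsOfUnity _ _)))
    simp only [Prod.mk.injEq, Subtype.mk.injEq] at e
    exact Subtype.ext (Subtype.ext (div_eq_one.1 (h2 _ (by rw [div_pow, show x.1.1 ^ 2 = 1 from x.2, show y.1.1 ^ 2 = 1 from y.2, div_one]) (by simp [e]) (by simp [e]))))
  let C := (s.range.map τ).comap φ
  have c4 : Nat.card C = Nat.card s.range := by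
    rw [← card_map_of_injective (K := C) hφ, map_comap_eq_self, card_map_of_injective hτ]
    rintro _ ⟨_, ⟨x, rfl⟩, rfl⟩; exact pow_mem x.2 2
  let ψ := (π.comp P.subtype).rangeRestrict
  have c5 : Nat.card (C.map ψ) ≤ 2 := by
    have k : ∀ u ∈ C.map ψ, ∀ v ∈ C.map ψ, u = 1 ∨ v = 1 ∨ u = v := by
      rintro _ ⟨_, ⟨_, ⟨⟨x, x', e1⟩, rfl⟩, e2⟩, rfl⟩ _ ⟨_, ⟨_, ⟨⟨y, y', e3⟩, rfl⟩, e4⟩, rfl⟩
      obtain rfl := hφ (e2.symm.trans ((map_pow τ x 2).trans (by rw [← e1, map_pow φ x' 2])))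
      obtain rfl := hφ (e4.symm.trans ((map_pow τ y 2).trans (by rw [← e3, map_pow φ y' 2])))
      obtain ⟨u, hu, e5⟩ := h3.le ⟨x', x'.2, rfl⟩
      obtain ⟨v, hv, e6⟩ := h3.le ⟨y', y'.2, rfl⟩
      have := (hR u hu).2 v hv (hι (by
        rw [map_mul, map_mul, e5, e6, ← map_mul, ← map_mul, ← coe_mul, ← coe_mul, hφ (a₁ := x' * y') (a₂ := y' * x') (by rw [map_mul, map_mul, e1, e3, ← map_mul, ← map_mul, mul_comm])]))
      have k : ∀ {x : P} {u}, ι u = π x → (ψ (x ^ 2)).1 = ι (u ^ 2) := fun e => by rw [map_pow, map_pow, e]; rfl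
      simpa only [Subtype.ext_iff, k e5, k e6, coe_one, hι.eq_iff, map_eq_one_iff ι hι] using this
    by_contra! h
    have := Fintype.ofFinite (C.map ψ)
    obtain ⟨u, v, w, h1, h2, h3⟩ := Fintype.two_lt_card_iff.1 (h.trans_eq Nat.card_eq_fintype_card)
    have := k _ u.2 _ v.2; have := k _ u.2 _ w.2; have := k _ v.2 _ w.2
    simp only [ne_eq, Subtype.ext_iff] at h1 h2 h3; grind
  have c6 := (C.map ψ).card_mul_index
  have c7 := Nat.le_of_dvd (Nat.pos_of_ne_zero index_ne_zero_of_finite) (C.index_map_dvd (π.comp P.subtype).rangeRestrict_surjective)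
  have c8 := C.card_mul_index
  replace c6 := c6.trans (show _ = 2 ^ 6 by rw [MonoidHom.range_comp, range_subtype, h3, c0])
  have := Nat.card_pos (α := C)
  have : C.index ≤ 16 := Nat.le_of_mul_le_mul_left (c := Nat.card C) (by omega) this
  exact absurd (c6.ge.trans (Nat.mul_le_mul c5 (c7.trans this))) (by decide)

theorem comm_of_mem {F K : Type*} [Field F] [Fintype F] [Group K] (c : ChevalleyDatum × List ℕ)
    (hc : c ∈ [(chevG2, [2, 6]), (chevB2, [2, 4]), (chevD4, [2, 4, 4, 6]), (chevF4, [2, 6, 8, 12]),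
      (chevE6, [2, 5, 6, 8, 9, 12]), (chevE7, [2, 6, 8, 10, 12, 14, 18]), (chevE8, [2, 8, 12, 14, 18, 20, 24, 30])])
    {f : K →* c.1.group F} (hf : Function.Injective f) {p r : ℕ} [hp : Fact p.Prime] [CharP F p]
    [hr : Fact r.Prime] (h : r ≠ p) (h' : ¬ r ∣ c.2.prod) (P : Subgroup K) (hP : IsPGroup r P) : ∀ x ∈ P, ∀ y ∈ P, Commute x y := fun x hx y hy => by
  obtain ⟨n, -, hn⟩ := FiniteField.card F p
  obtain ⟨S, hS⟩ := (hP.map f).exists_le_sylow
  obtain ⟨j, hj⟩ := IsPGroup.iff_orderOf.1 hP ⟨x, hx⟩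
  obtain rfl | h0 := eq_or_ne j 0
  · rw [show x = 1 from congrArg Subtype.val (orderOf_eq_one_iff.1 hj)]; exact .one_left y
  obtain ⟨e⟩ := Cfsg.Agent.S2378.result rfl c hc r (fun e => h ((Nat.prime_dvd_prime_iff_eq hr.out hp.out).1
    (hr.out.dvd_of_dvd_pow (hn ▸ e)))) h' ((dvd_pow_self r h0).trans (by rw [← hj, orderOf_mk, ← orderOf_injective f hf]; exact orderOf_dvd_natCard _)) S
  exact hf (by simpa using congrArg Subtype.val (e.injective (a₁ := ⟨_, hS ⟨x, hx, rfl⟩⟩ * ⟨_, hS ⟨y, hy, rfl⟩⟩) (a₂ := ⟨_, hS ⟨y, hy, rfl⟩⟩ * ⟨_, hS ⟨x, hx, rfl⟩⟩)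
    (by rw [map_mul, map_mul, mul_comm])))
theorem perm54 : ∃ a b : Equiv.Perm (Fin 7), a.sign = 1 ∧ b.sign = 1 ∧ a ^ 5 = 1 ∧ a ≠ 1 ∧ b * a * b⁻¹ = a ^ 2 :=
  ⟨⟨![1, 2, 3, 4, 0, 5, 6], ![4, 0, 1, 2, 3, 5, 6], by decide, by decide⟩,
    ⟨![0, 2, 4, 1, 3, 6, 5], ![0, 3, 1, 4, 2, 6, 5], by decide, by decide⟩, by decide +kernel⟩

theorem FM.exists_tor_conj {D : ChevalleyDatum} [Good D] [SC D] {k : Type*} [Field k] [IsAlgClosed k] {p : ℕ} [Fact p.Prime] [CharP k p] {G₀ : Type*} [Group G₀]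
    (m : FM D k p G₀) {e : ℕ} (he : ∀ z ∈ (actM (M := kˣ) (CA D)).ker, z ^ e = 1) {y g : G₀} {n j : ℕ} (hy : orderOf y = n) (hp : n.Coprime p) (hn : n.Coprime e)
    (h : g * y * g⁻¹ = y ^ j) : ∃ c : I D → kˣ, orderOf c = n ∧ (∃ w, wT w c = c ^ j) ∧ ∃ v, c ∈ m.TF v := by
  obtain ⟨y, rfl⟩ := m.π_surjective y
  obtain ⟨g, rfl⟩ := m.π_surjective g
  have key : ∀ a b : m.Fix, m.π a = m.π b → a.1 ^ e = b.1 ^ e := fun a b h => by
    obtain ⟨c, hc, h1⟩ := m.π_eq_one.1 (show m.π (b⁻¹ * a) = 1 by simp [h])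
    have h2 : (stS D k).hl c ∈ center _ := center_st_eq.ge ⟨c, hc, rfl⟩
    rw [show a.1 = b * (stS D k).hl c by simp [← h1], Commute.mul_pow (mem_center_iff.1 h2 _), ← r3_st.hl_pow, he c hc, r3_st.hl_one, mul_one]
  have h1 : (y.1 ^ e) ^ n = 1 := by simpa [← pow_mul, mul_comm] using key (y ^ n) 1 (by simp [← hy])
  obtain ⟨a, c, h2⟩ := exists_conj_H p hp h1
  have h3 : orderOf c = orderOf (y ^ e) := by
    rw [← orderOf_injective _ (hi_st k) c, show r3_st.hprod c = _ from h2.symm, ← orderOf_coe]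
    exact orderOf_injective (MulAut.conj a).toMonoidHom (MulAut.conj a).injective _
  refine ⟨c, h3.trans (Nat.dvd_antisymm (orderOf_dvd_of_pow_eq_one (Subtype.ext h1)) ?_), exists_wT_of_conj (g := a * g.1 * a⁻¹) ?_,
    m.exists_mem_TF (x := y.1 ^ e) (y ^ e).2 h2⟩
  · rw [← hy, ← Nat.Coprime.orderOf_pow (hy.symm ▸ hn : (orderOf (m.π y)).Coprime e), ← map_pow]; exact orderOf_map_dvd _ _
  · have := key (g * y * g⁻¹) (y ^ j) (by simpa using h)
    rw [r3_st.hl_pow, ← h2, conj_pow, ← pow_mul, mul_comm e, pow_mul, ← coe_pow _ y j, ← this]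
    rw [coe_mul, coe_mul, coe_inv, conj_pow]; group

def inv4 (c : I chevD4 → Multiplicative (ZMod 5)) : List (ZMod 5) :=
  let a := (c (n4 0)).toAdd; let b := (c (n4 1)).toAdd - a; let d := (c (n4 3)).toAdd - (c (n4 2)).toAdd; let e := (c (n4 3)).toAdd + (c (n4 2)).toAdd - (c (n4 1)).toAdd
  [a ^ 2 + b ^ 2 + d ^ 2 + e ^ 2, a ^ 4 + b ^ 4 + d ^ 4 + e ^ 4, (a * b * d) ^ 2 + (a * b * e) ^ 2 + (a * d * e) ^ 2 + (b * d * e) ^ 2, a * b * d * e]
theorem inv4_wT (w : W chevD4) (c : I chevD4 → Multiplicative (ZMod 5)) : inv4 (wT w c) = inv4 c := by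
  induction w using W_induction with
  | h1 => rw [wT_one]
  | h2 i w ih => rw [wT_mul, ← ih, sW, wT_rW]; generalize wT w c = c; revert i c; decide +kernel
theorem inv4_eq : (∀ x : Multiplicative (ZMod 5), x ^ 5 = 1) ∧ ∀ c : I chevD4 → Multiplicative (ZMod 5), inv4 (c ^ 2) = inv4 c → ∀ q < 5,
    inv4 (fun j => tch c (twP sim_gD4a (Pi.single j 1)) ^ q) = inv4 c → c = 1 := by decide +kernel
theorem no_54 {K : Type*} [Field K] [Fintype K] {p n : ℕ} [hp : Fact p.Prime] [CharP K p] (hK : Fintype.card K = (p ^ n) ^ 3) (h5 : p ≠ 5)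
    {y g : twistedD4 K (p ^ n)} (hy : orderOf y = 5) : g * y * g⁻¹ ≠ y ^ 2 := fun h => by
  have f5 : Fact (Nat.Prime 5) := ⟨by norm_num⟩
  have hc := (Nat.coprime_primes f5.out hp.out).2 h5.symm
  obtain ⟨m, e1, e2, -⟩ := exists_fm4 (locFin_of_algebraic (F := K) (k := AlgebraicClosure K) p) (algebraMap _ _) hK
  obtain ⟨c, h1, ⟨w, h2⟩, v, h3⟩ := m.exists_tor_conj (e := 2) (fun z hz => smithD4.pow_eq_one (by decide) hz) hy hc (by decide) h
  obtain ⟨i, hi⟩ := Function.ne_iff.1 (show c ≠ 1 by rintro rfl; simp at h1)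
  have h4 : ∀ j, c j ^ 5 = 1 := congrFun (h1 ▸ pow_orderOf_eq_one c)
  have hζ := orderOf_eq_prime (h4 i) hi
  let ι := (zpowers (c i)).subtype.comp (mulEquivOfPrimeCardEq (G := Multiplicative (ZMod 5)) (p := 5) (by simp) ((Nat.card_zpowers _).trans hζ)).toMonoidHom
  have hι : Function.Injective ι := (subtype_injective _).comp (MulEquiv.injective _)
  have h8 : ∀ j, ∃ x, ι x = c j := fun j => by
    change c j ∈ ι.range
    rw [MonoidHom.range_comp, MonoidHom.range_eq_top.2 (MulEquiv.surjective _), ← MonoidHom.range_eq_map, range_subtype,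
      (show IsPrimitiveRoot (c i) 5 from hζ ▸ IsPrimitiveRoot.orderOf (c i)).zpowers_eq]
    exact h4 j
  choose c' hc' using h8
  clear_value ι
  obtain rfl : c = ι ∘ c' := funext fun j => (hc' j).symm
  have h6 : wT w c' = c' ^ 2 := funext fun j => hι ((congrFun (map_wT ι w c') j).trans ((congrFun h2 j).trans (map_pow ι _ 2).symm))
  have h7 : wT v (fun j => tch c' (twP sim_gD4a (Pi.single j 1)) ^ (p ^ n % 5)) = c' := funext fun j => hι ((congrFun (map_wT ι v _) j).trans (by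
    refine Eq.trans (congrFun (congrArg _ (funext fun j => ?_)) j) (congrFun (m.mem_TF.1 h3) j)
    rw [Function.comp, ← pow_eq_pow_mod _ (inv4_eq.1 _), map_pow, map_tch, ← e2]; exact congrArg _ e1.symm))
  have := inv4_eq.2 c' (h6 ▸ inv4_wT w c') _ (Nat.mod_lt _ (by simp)) (h7 ▸ (inv4_wT v _).symm)
  simp [this] at hi

end H12
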