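import Cfsg.Agent.H12.Sec2
import Cfsg.Agent.H9.Dihedral
import Mathlib.GroupTheory.SpecificGroups.Alternating.Simple

/-! Elementary abelian `2`-groups of matrices (`S6.moments`), minimal covers of `A₁₂` (`S6.Min`): a central involution (`Min.central`). -/

set_option autoImplicit false

namespace H12.S6
open Subgroup

theorem moments {k E m : Type*} [Field k] [IsAlgClosed k] [Group E] [Fintype E] [Fintype m] [DecidableEq m] (h2 : (2 : k) ≠ 0) (hE : ∀ e : E, e * e = 1) (ρ : E →* Matrix m m k) :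
    (∃ f : ℕ, ∑ e, ((Fintype.card m : ℤ) - 2 * (ρ e - (1 : k) • 1).rank) = Fintype.card E * f) ∧
      (Fintype.card m * Fintype.card E : ℤ) ≤ ∑ e, ((Fintype.card m : ℤ) - 2 * (ρ e - (1 : k) • 1).rank) ^ 2 := by
  classical
  have hc : ∀ a b : E, Commute a b := fun a b => by
    rw [Commute, SemiconjBy, ← inv_inj, inv_eq_of_mul_eq_one_right (hE _), mul_inv_rev, inv_eq_of_mul_eq_one_right (hE _), inv_eq_of_mul_eq_one_right (hE _)]
  let L : E →* Module.End k (m → k) := (Matrix.toLinAlgEquiv' : Matrix m m k ≃ₐ[k] _).toMonoidHom.comp ρ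
  have hs : ∀ e, (L e).IsFinitelySemisimple := fun e => Module.End.isFinitelySemisimple_iff_isSemisimple.2 (Module.End.isSemisimple_of_squarefree_aeval_eq_zero
    (Polynomial.separable_X_pow_sub_C (n := 2) (1 : k) (by simpa using h2) one_ne_zero).squarefree (by rw [map_sub, map_pow, Polynomial.aeval_X, sq, ← map_mul, hE]; simp))
  have ht := Module.End.iSup_iInf_maxGenEigenspace_eq_top_of_iSup_maxGenEigenspace_eq_top_of_commute L (fun a b _ => (hc a b).map L) fun e => (L e).iSup_maxGenEigenspace_eq_top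
  have hsp : ⊤ ≤ Submodule.span k {v | ∃ χ : E → k, ∀ e, L e v = χ e • v} := ht ▸ iSup_le fun χ v hv => Submodule.subset_span ⟨χ, fun e => by
    simpa [(hs e).maxGenEigenspace_eq_eigenspace] using (Submodule.mem_iInf _).1 hv e⟩
  let b := Module.Basis.ofSpan hsp
  choose χ hχ using fun i => Module.Basis.ofSpan_subset hsp ⟨i, rfl⟩
  replace hχ : ∀ i e, L e (b i) = χ i e • b i := hχ
  generalize b = b at hχ
  generalize ((_ : Set _) : Type _) = ι at b χ hχ
  have := FiniteDimensional.fintypeBasisIndex b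
  have c0 : Fintype.card m = Fintype.card ι := by rw [← Module.finrank_eq_card_basis b, Module.finrank_fintype_fun_eq_card]
  have c1 : ∀ i e e', χ i (e * e') = χ i e * χ i e' := fun i e e' => smul_left_injective k (b.ne_zero i) (by
    beta_reduce; rw [← hχ, map_mul, Module.End.mul_apply, hχ i e', map_smul, hχ i e, smul_smul, mul_comm])
  have c2 : ∀ i, χ i 1 = 1 := fun i => smul_left_injective k (b.ne_zero i) (by simp [← hχ])
  have c3 : ∀ i e, χ i e = 1 ∨ χ i e = -1 := fun i e => mul_self_eq_one_iff.1 (by rw [← c1, hE, c2])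
  have c4 : (-1 : k) ≠ 1 := fun e => h2 (by linear_combination -e)
  let s : ι → E →* ℤ := fun i => ⟨⟨fun e => if χ i e = 1 then 1 else -1, by simp [c2]⟩, fun e e' => by
    rcases c3 i e with a | a <;> rcases c3 i e' with a' | a' <;> simp [c1, a, a', c4]⟩
  have c5 : ∀ e, ((Fintype.card m : ℤ) - 2 * (ρ e - (1 : k) • 1).rank) = ∑ i, s i e := fun e => by
    have : (ρ e - (1 : k) • 1).rank = (Matrix.diagonal fun i => χ i e - 1).rank := by
      rw [Matrix.rank_eq_finrank_range_toLin _ b b, Matrix.rank, show Matrix.toLin b b (Matrix.diagonal fun i => χ i e - 1) = (ρ e - (1 : k) • 1).mulVecLin from b.ext fun i => by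
        rw [Matrix.toLin_self, Finset.sum_eq_single i (fun j _ h => by simp [h]) (by simp), Matrix.diagonal_apply_eq, sub_smul, ← hχ]; simp [L, Matrix.sub_mulVec]]
    rw [this, Matrix.rank_diagonal, Fintype.card_subtype, Finset.card_filter, c0, Fintype.card, Finset.card_eq_sum_ones]
    push_cast
    rw [Finset.mul_sum, ← Finset.sum_sub_distrib]
    exact Finset.sum_congr rfl fun i _ => by by_cases h : χ i e = 1 <;> simp [s, h, sub_eq_zero]
  simp only [c5]
  refine ⟨⟨∑ i, if s i = 1 then 1 else 0, ?_⟩, ?_⟩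
  · rw [Finset.sum_comm]; simp [sum_hom_units, Finset.sum_ite, mul_comm]
  simp only [sq, Finset.sum_mul_sum]
  rw [Finset.sum_comm, c0, Fintype.card, Finset.card_eq_sum_ones, Nat.cast_sum, Finset.sum_mul]
  refine Finset.sum_le_sum fun i _ => ?_
  rw [Finset.sum_comm]
  refine le_trans (le_of_eq ?_) (Finset.single_le_sum (f := fun j => ∑ e, s i e * s j e) (fun j _ => ?_) (Finset.mem_univ i))
  · simp [← map_mul, hE]
  · have := sum_hom_units (s i * s j)
    simp only [MonoidHom.mul_apply] at this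
    rw [this]; split_ifs <;> simp

variable {M : Type*} [Group M] [Finite M] {π : M →* alternatingGroup (Fin 12)}
/-- a minimal cover of `A₁₂` -/
def Min (π : M →* alternatingGroup (Fin 12)) : Prop := Function.Surjective π ∧ ∀ K : Subgroup M, K.map π = ⊤ → K = ⊤
theorem exists_min (hs : Function.Surjective π) : ∃ K : Subgroup M, Min (π.comp K.subtype) := by
  obtain ⟨K, hK⟩ := exists_minimal_of_wellFoundedLT (fun K : Subgroup M => K.map π = ⊤) ⟨⊤, map_top_of_surjective _ hs⟩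
  refine ⟨K, MonoidHom.range_eq_top.1 (by rw [MonoidHom.range_comp, range_subtype, hK.1]), fun L hL => ?_⟩
  rw [← map_map] at hL
  exact map_injective K.subtype_injective (by rw [← MonoidHom.range_eq_map, range_subtype]; exact hK.eq_of_le hL (map_subtype_le _))
abbrev E16 : Type := Multiplicative (ZMod 2 × ZMod 2 × ZMod 2 × ZMod 2)
def gn (b : Bool) : Fin 4 → Equiv.Perm (Fin 12) := if b then ![⟨![1, 0, 3, 2, 4, 5, 6, 7, 8, 9, 10, 11], ![1, 0, 3, 2, 4, 5, 6, 7, 8, 9, 10, 11], by decide, by decide⟩,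
  ⟨![2, 3, 0, 1, 4, 5, 6, 7, 8, 9, 10, 11], ![2, 3, 0, 1, 4, 5, 6, 7, 8, 9, 10, 11], by decide, by decide⟩,
  ⟨![0, 1, 2, 3, 5, 4, 7, 6, 8, 9, 10, 11], ![0, 1, 2, 3, 5, 4, 7, 6, 8, 9, 10, 11], by decide, by decide⟩,
  ⟨![0, 1, 2, 3, 6, 7, 4, 5, 8, 9, 10, 11], ![0, 1, 2, 3, 6, 7, 4, 5, 8, 9, 10, 11], by decide, by decide⟩]
  else ![⟨![1, 0, 3, 2, 5, 4, 7, 6, 8, 9, 10, 11], ![1, 0, 3, 2, 5, 4, 7, 6, 8, 9, 10, 11], by decide, by decide⟩,
  ⟨![2, 3, 0, 1, 6, 7, 4, 5, 8, 9, 10, 11], ![2, 3, 0, 1, 6, 7, 4, 5, 8, 9, 10, 11], by decide, by decide⟩,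
  ⟨![4, 5, 6, 7, 0, 1, 2, 3, 8, 9, 10, 11], ![4, 5, 6, 7, 0, 1, 2, 3, 8, 9, 10, 11], by decide, by decide⟩,
  ⟨![0, 1, 2, 3, 4, 5, 6, 7, 8, 9, 10, 11], ![0, 1, 2, 3, 4, 5, 6, 7, 8, 9, 10, 11], by decide, by decide⟩]
def uf (b : Bool) (e : E16) : Equiv.Perm (Fin 12) := gn b 0 ^ e.toAdd.1.val * gn b 1 ^ e.toAdd.2.1.val * gn b 2 ^ e.toAdd.2.2.1.val * gn b 3 ^ e.toAdd.2.2.2.val
set_option synthInstance.maxSize 2000 in
theorem uf_spec : (∀ b e, (uf b e).sign = 1 ∧ e * e = 1 ∧ ∀ e', uf b (e * e') = uf b e * uf b e') ∧ ∀ b, Finset.univ.val.map (fun e => (uf b e).support.card) =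
    if b then {0, 4, 4, 4, 4, 4, 4, 8, 8, 8, 8, 8, 8, 8, 8, 8} else {0, 0, 8, 8, 8, 8, 8, 8, 8, 8, 8, 8, 8, 8, 8, 8} := by decide +kernel
theorem isConj_inv {s t : alternatingGroup (Fin 12)} (hs : s * s = 1) (ht : t * t = 1) (e : s.1.support.card = t.1.support.card) (h : s.1.support.card ≤ 10) : IsConj s t := by
  have k : ∀ s : alternatingGroup (Fin 12), s * s = 1 → s.1.cycleType = Multiset.replicate (s.1.support.card / 2) 2 := fun s hs => by
    have := Equiv.Perm.cycleType_of_pow_prime_eq_one (p := 2) (σ := s.1) (by rw [sq]; exact congrArg Subtype.val hs)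
    rw [← Equiv.Perm.sum_cycleType, this]; simp
  exact alternatingGroup.isConj_of (Equiv.Perm.isConj_of_cycleType_eq (by rw [k s hs, k t ht, e])) (by simpa using h)
namespace Min
variable (h : Min π)
include h
omit [Finite M] in
theorem dich (K : Subgroup M) [K.Normal] : K ≤ π.ker ∨ K = ⊤ :=
  ((alternatingGroup.isSimpleGroup (by simp)).eq_bot_or_eq_top_of_normal _ (Normal.map inferInstance π h.1)).imp (map_eq_bot_iff K).1 (h.2 K)
theorem dvd {X : Type*} [Group X] (ψ : M →* X) (hψ : ψ.ker ≤ π.ker) : 77 ∣ Nat.card ψ.range := by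
  rw [← index_ker]
  refine .trans ?_ (index_dvd_of_le hψ)
  rw [index_ker, MonoidHom.range_eq_top.2 h.1, card_top, nat_card_alternatingGroup]
  simp [Nat.factorial]
theorem central (h64 : ∀ E : Subgroup M, (∀ e : E, e * e = 1) → Nat.card E ≤ 64) (he : 2 ∣ Nat.card π.ker) : ∃ t : M, t ≠ 1 ∧ t * t = 1 ∧ ∀ x, Commute x t := by
  obtain ⟨P⟩ : Nonempty (Sylow 2 π.ker) := inferInstance
  have n1 : (P.1.map π.ker.subtype).Normal := normalizer_eq_top_iff.1 (h.2 _ (by
    have := congrArg (Subgroup.map π) P.normalizer_sup_eq_top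
    rwa [Subgroup.map_sup, (map_eq_bot_iff π.ker).2 le_rfl, sup_bot_eq, map_top_of_surjective _ h.1] at this))
  have q1 := P.2.map π.ker.subtype
  have q2 : P.1.map π.ker.subtype ≠ ⊥ := fun e => P.ne_bot_of_dvd_card he ((map_eq_bot_iff_of_injective _ (subtype_injective _)).1 e)
  generalize P.1.map π.ker.subtype = Q at n1 q1 q2
  let E : Subgroup M := {
    carrier := {z | z ∈ Q ∧ z ∈ centralizer (Q : Set M) ∧ z * z = 1}
    one_mem' := ⟨one_mem _, one_mem _, mul_one _⟩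
    mul_mem' := fun {a b} ha hb => ⟨mul_mem ha.1 hb.1, mul_mem ha.2.1 hb.2.1, by rw [mul_assoc, ← mul_assoc b, ha.2.1 b hb.1, mul_assoc, hb.2.2, mul_one, ha.2.2]⟩
    inv_mem' := fun {a} ha => by rwa [inv_eq_of_mul_eq_one_right ha.2.2] }
  have n2 : E.Normal := ⟨fun a ha g => ⟨n1.conj_mem _ ha.1 g, (normal_centralizer (H := Q)).conj_mem _ ha.2.1 g, by rw [conj_mul, ha.2.2, mul_one, mul_inv_cancel]⟩⟩
  have := (nontrivial_iff_ne_bot Q).2 q2
  obtain ⟨n, n0, hn⟩ := (q1.to_subgroup (center Q)).nontrivial_iff_card.1 q1.center_nontrivial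
  obtain ⟨t, ht⟩ := exists_prime_orderOf_dvd_card' 2 (hn ▸ dvd_pow_self 2 n0.ne')
  have m1 : t.1.1 ∈ E := ⟨t.1.2, fun y hy => congrArg Subtype.val (mem_center_iff.1 t.2 ⟨y, hy⟩), by
    rw [← sq, ← ht, ← orderOf_coe, ← orderOf_coe, pow_orderOf_eq_one]⟩
  refine ⟨t.1.1, fun e => by simp [show t = 1 from Subtype.ext (Subtype.ext e)] at ht, m1.2.2, fun x => ?_⟩
  rcases h.dich (MulAut.conjNormal (H := E)).ker with e | e
  · have : Fact (Nat.Prime 11) := ⟨by norm_num⟩
    obtain ⟨a, ha⟩ := exists_prime_orderOf_dvd_card' 11 (((by decide : 11 ∣ 77).trans (h.dvd _ e)).trans (card_subgroup_dvd_card _))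
    have c1 := (H17.isPGroup_zpowers_of_orderOf ha).card_modEq_card_fixedPoints E
    obtain ⟨d, hd⟩ := IsPGroup.iff_card.1 (q1.to_le (show E ≤ Q from fun _ h => h.1))
    have c2 := h64 E fun e => Subtype.ext e.2.2.2
    obtain ⟨c, c3, c4⟩ := (Nat.dvd_prime_pow Nat.prime_two).1 (hd ▸ card_subgroup_dvd_card (FixedPoints.subgroup (zpowers a) E))
    have c5 : d < 7 := (Nat.pow_lt_pow_iff_right one_lt_two).1 (by omega)
    have c6 : FixedPoints.subgroup (zpowers a) E = ⊤ := eq_top_of_card_eq _ (by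
      rw [c4, hd, (show ∀ d < 7, ∀ c ≤ d, 2 ^ d ≡ 2 ^ c [MOD 11] → c = d by decide) d c5 c c3 (hd ▸ c4 ▸ c1)])
    rw [show a = 1 from MulEquiv.ext fun y => c6.ge (mem_top y) ⟨a, mem_zpowers a⟩, orderOf_one] at ha
    omega
  · exact mul_inv_eq_iff_eq_mul.1 (congrArg Subtype.val (DFunLike.congr_fun (MonoidHom.mem_ker.1 (e.ge (mem_top x))) ⟨_, m1⟩) :)
theorem exists_sec (ho : ¬ 2 ∣ Nat.card π.ker) {E : Type*} [Group E] [Finite E] (hE : IsPGroup 2 E) (u : E →* alternatingGroup (Fin 12)) : ∃ σ : E →* M, ∀ e, π (σ e) = u e := by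
  obtain ⟨P, -, h1, h2, -⟩ := frat π (M := u.range.comap π) (A := u.range) (hE.of_surjective _ u.rangeRestrict_surjective) (map_comap_eq_self_of_surjective h.1 _).ge
    ((map_comap_le _ _).trans le_normalizer)
  have hi : Function.Injective (π.comp P.subtype) := (injective_iff_map_eq_one _).2 fun x hx => by
    obtain ⟨n, hn⟩ := IsPGroup.iff_orderOf.1 h1 x
    rcases n with _ | n
    · simpa using hn
    · exact (ho ((dvd_pow_self 2 n.succ_ne_zero).trans (by rw [← hn, ← orderOf_coe]; exact orderOf_dvd_natCard _ hx))).elim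
  have hr : ∀ e, u e ∈ (π.comp P.subtype).range := fun e => by rw [MonoidHom.range_comp, range_subtype, h2]; exact ⟨e, rfl⟩
  exact ⟨P.subtype.comp ((MonoidHom.ofInjective hi).symm.toMonoidHom.comp (u.codRestrict _ hr)), fun e => MonoidHom.apply_ofInjective_symm hi ⟨_, hr e⟩⟩
theorem isConj (ho : ¬ 2 ∣ Nat.card π.ker) {s t : M} (hs : s * s = 1) (ht : t * t = 1) (e : IsConj (π s) (π t)) : IsConj s t := by
  obtain ⟨g, e⟩ := isConj_iff.1 e
  obtain ⟨g, rfl⟩ := h.1 g
  refine (isConj_iff.2 ⟨g, rfl⟩).trans (H9.isConj_of_odd (by rw [conj_mul, hs, mul_one, mul_inv_cancel]) ht (Nat.not_even_iff_odd.1 fun e' => ho (e'.two_dvd.trans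
    (orderOf_dvd_natCard _ (show π _ = 1 by rw [map_mul, map_mul, map_mul, map_inv, e, ← map_mul, ht, map_one])))))
theorem even {χ : M → ℤ} (h1 : χ 1 = 27) (h2 : ∀ t, t * t = 1 → t ≠ 1 → χ t = 3 ∨ χ t = -5) (h3 : ∀ s t, IsConj s t → χ s = χ t)
    (h4 : ∀ σ : E16 →* M, ∃ f : ℕ, ∑ e, χ (σ e) = 16 * f) : 2 ∣ Nat.card π.ker := by
  classical
  by_contra ho
  let F (n : ℕ) : ℤ := if h : ∃ t, t * t = 1 ∧ (π t).1.support.card = n then χ h.choose else 0
  have f1 : ∀ t, t * t = 1 → (π t).1.support.card ≤ 10 → χ t = F (π t).1.support.card := fun t ht h5 => by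
    have : ∃ s, s * s = 1 ∧ (π s).1.support.card = (π t).1.support.card := ⟨t, ht, rfl⟩
    exact (h3 _ _ (h.isConj ho ht this.choose_spec.1 (isConj_inv (by rw [← map_mul, ht, map_one]) (by rw [← map_mul, this.choose_spec.1, map_one])
      this.choose_spec.2.symm h5))).trans (by simp only [F, dif_pos this])
  have f2 : ∀ b : Bool, ∃ f : ℕ, (Multiset.map F (Finset.univ.val.map fun e => (uf b e).support.card)).sum = 16 * f ∧
      ∀ n ∈ Finset.univ.val.map fun e => (uf b e).support.card, n ≠ 0 → F n = 3 ∨ F n = -5 := fun b => by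
    obtain ⟨σ, hσ⟩ := h.exists_sec ho (E := E16) (fun e => ⟨1, by simpa [sq] using (uf_spec.1 b e).2.1⟩)
      ((MonoidHom.mk' (uf b) fun e => (uf_spec.1 b e).2.2).codRestrict _ fun e => (uf_spec.1 b e).1)
    have a1 : ∀ e, σ e * σ e = 1 := fun e => by rw [← map_mul, (uf_spec.1 b e).2.1, map_one]
    have a2 : ∀ e, χ (σ e) = F (uf b e).support.card := fun e => by
      have := Multiset.mem_map_of_mem (fun e => (uf b e).support.card) (Finset.mem_univ_val e)
      rw [uf_spec.2] at this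
      rw [f1 _ (a1 e) (by rw [hσ]; change (uf b e).support.card ≤ 10; generalize (uf b e).support.card = n at this; cases b <;> simp at this <;> omega), hσ]; rfl
    obtain ⟨f, hf⟩ := h4 σ
    refine ⟨f, by rw [← hf, Multiset.map_map, funext a2]; rfl, fun n hn n0 => ?_⟩
    obtain ⟨e, -, rfl⟩ := Multiset.mem_map.1 hn
    exact a2 e ▸ h2 _ (a1 e) fun e' => n0 (by simp [show uf b e = 1 from (congrArg Subtype.val (hσ e)).symm.trans (by rw [e', map_one]; rfl)])
  have f3 := f1 1 (mul_one _) (by simp)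
  obtain ⟨f, a1, a2⟩ := f2 true
  obtain ⟨g, b1, -⟩ := f2 false
  rw [uf_spec.2] at a1 a2 b1
  have := a2 4 (by simp) (by simp)
  have := a2 8 (by simp) (by simp)
  simp at a1 b1 f3
  omega
end Min

end H12.S6
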