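import Cfsg.Agent.H12.Loc2
import Cfsg.Agent.H12.E27
import Cfsg.Agent.H24.MSRep

/-! The torus in the `27`-dimensional representation `S6.ρ` of `E₆`, eigenvalue multiplicities `S6.mu`, elements of order `11` (`S6.no_11`) and the two classes
of involutions (`S6.std`) with the submodules of their centralisers. -/

set_option autoImplicit false

namespace H12.S6
open Cfsg.Lie StSys Loc E27 O5
open Matrix hiding zpow_add one_zpow zpow_neg mul_inv_rev zpow_mul

variable {k : Type*} [Field k]
/-- the weights -/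
def ω (a : I27) : Λ chevE6 := fun i => om a i
theorem map_mm (L L' : Sp I27) : spM k L * spM k L' = (spM ℤ L * spM ℤ L').map (Int.castRingHom k) := by rw [Matrix.map_mul, map_spM, map_spM]
theorem ef (r : Φ chevE6) : spM k (mat r) * spM k (mat r) = 0 ∧ spM k (mat r) * spM k (mat (ng r : Φ _)) * spM k (mat r) = spM k (mat r) ∧
    (spM k (mat r) * spM k (mat (ng r : Φ _)) = diagonal fun x => if pairL r (ω x) = 1 then 1 else 0) ∧
    (spM k (mat (ng r : Φ _)) * spM k (mat r) = diagonal fun x => if pairL r (ω x) = -1 then 1 else 0) ∧ ∀ x, pairL r (ω x) = 0 ∨ pairL r (ω x) = 1 ∨ pairL r (ω x) = -1 := by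
  have h0 : ∀ (r : Φ chevE6) x y, spM ℤ (mat r) x y ≠ 0 → ω x = ω y + wt r := fun r x y h => funext (rep.wt_e r (by simpa [spM_apply] using h))
  obtain ⟨a, -, c, d, e⟩ := H24.ef_diag (e := spM ℤ (mat r)) (f := spM ℤ (mat (ng r : Φ _))) (μ := fun x => pairL r (ω x)) (by simpa using rep.sq_e ℤ r) (by simpa using rep.sq_e ℤ (ng r)) (by
      have := rep.lie (K := ℚ) r (ee ℚ (ng r))
      rw [adL_ee, E_ee_ng, hv_eq_sum, map_sum, repρ_ee, repρ_ee, map_mm, map_mm] at this
      ext x y
      refine Int.cast_injective (α := ℚ) (.trans (.trans (by simp) (congrFun (congrFun this x) y).symm) ?_)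
      simp only [map_smul, repρ_hh, Matrix.sum_apply, Matrix.smul_apply, diagonal_apply]
      split_ifs <;> simp [pairL, dotProduct, ω])
    (fun x y h => by rw [h0 r x y h, map_add]; exact congrArg _ (pr_self r)) fun x y h => by
      rw [h0 _ x y h, map_add, wt_ng, map_neg, sub_eq_add_neg]; exact congrArg (fun t => _ + -t) (pr_self r)
  refine ⟨by simpa using rep.sq_e k r, ?_, ?_, ?_, e⟩
  · rw [map_mm, ← map_spM ℤ (Int.castRingHom k), ← Matrix.map_mul, a]
  all_goals rw [map_mm]; simp only [c, d]; ext x y; by_cases h : x = y <;> simp [h]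
theorem coe_h (r : Φ chevE6) (t : kˣ) : ((rep.sys k).h r t : Matrix _ _ k) = diagonal fun a => ((t ^ pairL r (ω a) : kˣ) : k) := by
  obtain ⟨h1, h2, h3, h4, h5⟩ := ef (k := k) r
  simp only [h_def, n_def, Units.val_mul, RepChk.coe_sys_x, repX, spM_nil, smul_zero, add_zero]
  rw [H24.h_of_sq_zero h1 (ef _).1 h2 (by simpa using (ef (k := k) (ng r)).2.1), h3, h4]
  ext a b
  by_cases e : a = b
  · subst e; rcases h5 a with h | h | h <;> simp [h]
  · simp [e]
theorem r3 : (rep.sys k).R3 := fun r t u => Units.ext (by simp [coe_h, mul_zpow])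
/-- the representation -/
noncomputable def ρ (k : Type*) [Field k] : chevE6.SteinbergGroup k →* Matrix I27 I27 k := (Units.coeHom _).comp (r3 (k := k)).lift
theorem ρ_hl (c : I chevE6 → kˣ) : ρ k ((stS chevE6 k).hl c) = diagonal fun a => (tch c (ω a) : kˣ).1 := by
  have key : ∀ L : List (I chevE6), ((L.map fun i => (rep.sys k).h (sim i) (c i)).prod : GL _ k).1 = diagonal fun a => ((L.map fun i => c i ^ ω a i).prod : kˣ).1 :=
    fun L => by induction L <;> simp_all [coe_h, pairL_sim]
  rw [ρ, MonoidHom.comp_apply, H24.lift_hl]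
  simpa [Fin.prod_univ_def, hl, tch] using key (List.finRange _)
theorem ρ_x (r : Φ chevE6) (t : k) : ρ k ((stS chevE6 k).x r t) = 1 + t • spM k (mat r) := by simp [ρ, repX]
/-- the codimension of an eigenspace -/
noncomputable def mu (g : chevE6.SteinbergGroup k) (η : k) : ℕ := (ρ k g - η • 1).rank
theorem mu_conj (a g : chevE6.SteinbergGroup k) (η : k) : mu (a * g * a⁻¹) η = mu g η := by
  have u : ∀ a, IsUnit (ρ k a).det := fun a => (isUnit_iff_isUnit_det _).1 (Group.isUnit a |>.map _)
  rw [mu, mu, ← rank_mul_eq_left_of_isUnit_det _ _ (u a), ← rank_mul_eq_right_of_isUnit_det _ (ρ k g - _) (u a), sub_mul, mul_sub, ← map_mul, ← map_mul]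
  simp
open Classical in
theorem mu_hl (c : I chevE6 → kˣ) (η : kˣ) : mu ((stS chevE6 k).hl c) η = ∑ a, if tch c (ω a) = η then 0 else 1 := by
  rw [mu, ρ_hl, smul_one_eq_diagonal, diagonal_sub, rank_diagonal, Fintype.card_subtype, Finset.card_filter]
  exact Finset.sum_congr rfl fun a _ => by simp [sub_eq_zero, Units.ext_iff]
theorem mu_wT (u : W chevE6) (c : I chevE6 → kˣ) (η : k) : mu ((stS chevE6 k).hl (wT u c)) η = mu ((stS chevE6 k).hl c) η := by
  rw [← r3_st.rep_conj_hl (rep_nr u), mu_conj]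

end H12.S6
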