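import Cfsg.Agent.H12.Sec3
import Cfsg.Agent.H12.Sec5

/-! Elements of order `11` (`S6.no_11`), involutions (`S6.std`) and minimal covers of `A₁₂` (`S6.no_12`) in the universal group `E₆`. -/

set_option autoImplicit false

namespace H12.S6
open Cfsg.Lie StSys Loc E27 O5 Subgroup
open Matrix hiding zpow_add one_zpow zpow_neg mul_inv_rev zpow_mul

variable {k : Type*} [Field k]
theorem pow4 {d : I chevE6 → kˣ} (h : ∀ a ∈ S10, tch d (ω a) = 1) : d ^ 4 = 1 := funext fun j => by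
  have : ∀ s : Finset (Fin 6), tch d (∑ t ∈ s, M6 j t • ω (A6 t)) = 1 := fun s => by
    induction s using Finset.induction_on with
    | empty => simp
    | insert t s ht ih => rw [Finset.sum_insert ht, tch_add, ih, tch_smul, h _ (inv_spec.2.2.1 t).1, one_zpow, one_mul]
  rw [Pi.pow_apply, ← tch_single d j, ← zpow_natCast, ← tch_smul, Pi.one_apply, ← this Finset.univ]
  exact congrArg _ (funext fun i => by rw [Finset.sum_apply]; exact .trans (by simp [Pi.single_apply]; rfl) ((inv_spec.2.2.1 j).2 i).symm)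
theorem no_11 [IsAlgClosed k] {p : ℕ} [Fact p.Prime] [CharP k p] (hp : p ≠ 11) {c : I chevE6 → kˣ} (h : orderOf c = 11) (w : W chevE6) : wT w c ≠ c ^ 2 := fun hw => by
  classical
  obtain ⟨ζ, hζ, hζ'⟩ := exists_prim (k := k) p (N := 11) fun e => hp ((Nat.prime_dvd_prime_iff_eq Fact.out (by norm_num)).1 e)
  have h1 : c ^ 11 = 1 := h ▸ pow_orderOf_eq_one c
  choose s hs using fun i => hζ' (c i) (congrFun h1 i)
  obtain ⟨u, x, e, h4⟩ := exists_alcove (D := chevE6) (K := 11) (by decide) (hζ ▸ pow_orderOf_eq_one ζ) (Fintype.linearCombination ℤ fun i => (s i : ℤ))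
  rw [show (fun i => ζ ^ Fintype.linearCombination ℤ (fun i => (s i : ℤ)) (Pi.single i 1)) = c from funext fun i => by simp [hs]] at e
  let t (j : Fin 6) : ℕ := (x (wt (sim (D := chevE6) j))).toNat
  have t1 : ∀ j : Fin 6, ([(t 0 : ℤ), t 1, t 2, t 3, t 4, t 5] : List ℤ).getD j 0 = x (wt (sim (D := chevE6) j)) := fun j =>
    .trans (by fin_cases j <;> rfl) (Int.toNat_of_nonneg (h4 _ (isPos_sim (D := chevE6) j)).1)
  have t2 : ∀ r : Φ chevE6, val [(t 0 : ℤ), t 1, t 2, t 3, t 4, t 5] r = x (wt r) := fun r => by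
    rw [val, sumLt_eq, wt_eq_sum, map_sum]; exact Finset.sum_congr rfl fun j _ => by rw [t1 j, map_smul]; rfl
  have t4 := (val_top _ _ _ _ _ _).symm.trans_le ((t2 ⟨71, by decide⟩).trans_le (h4 _ (by decide)).2)
  have t5 := a11 (t 3) (by omega) (t 1) (by omega) (t 2) (by omega) (t 4) (by omega) (by omega) (t 0) (by omega) (t 5) (by omega) (by omega)
  clear t2
  generalize ([(t 0 : ℤ), t 1, t 2, t 3, t 4, t 5] : List ℤ) = β at t1 t5
  have t6 : ∀ i, cn (rwL.map fun v => dotL v β % 11) i = ∑ a, if 3 * x (ω a) % 11 = i then 0 else 1 := fun i => by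
    rw [cn, List.map_map, ← Multiset.sum_coe, ← Multiset.map_coe, ← rω_spec.2, Multiset.map_map]
    refine Finset.sum_congr rfl fun a _ => if_congr (Eq.congr_left (congrArg (· % 11) ?_)) rfl rfl
    rw [← smul_eq_mul, ← map_smul, show (3 : ℤ) • ω a = ∑ j : I chevE6, (rω a).getD j 0 • wt (sim j) from funext fun i => by
      rw [Finset.sum_apply]; exact (rω_spec.1 a i i.2).trans (sumLt_eq _ _), map_sum, dotL, sumLt_eq]
    exact Finset.sum_congr rfl fun j _ => by rw [t1 j, map_smul]; rfl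
  generalize (rwL.map fun v => dotL v β % 11) = L at t5 t6
  have t3 : ∀ i j : ℤ, i % 11 = i → j = i * 2 % 11 → cn L j = cn L i := fun i j hi hij => by
    have : ∀ n : ℕ, ∀ i : ℤ, mu ((stS chevE6 k).hl (c ^ n)) (ζ ^ (4 * i) : kˣ) = ∑ a, if x (ω a) * n % 11 = 4 * i % 11 then 0 else 1 := fun n i => by
      rw [← mu_wT u, map_pow, e, mu_hl]
      exact Finset.sum_congr rfl fun a _ => if_congr (by rw [pow_tch, tch_zpow_lin, ← zpow_natCast, ← zpow_mul, Loc.zpow_iff hζ]; rfl) rfl rfl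
    have k1 := (this 1 j).symm.trans ((by rw [← hw, mu_wT, pow_one] : _ = _).trans (this 2 j))
    rw [t6, t6]
    exact ((Finset.sum_congr rfl fun a _ => if_congr (by omega) rfl rfl).trans k1).trans (Finset.sum_congr rfl fun a _ => if_congr (by omega) rfl rfl)
  have t7 := (t6 0).symm.trans (t5 (t3 _ _ rfl rfl) (t3 _ _ rfl rfl) (t3 _ _ rfl rfl) (t3 _ _ rfl rfl))
  have : wT u c ^ 4 = 1 := pow4 fun a _ => by
    have := Finset.sum_eq_zero_iff.1 t7 a (Finset.mem_univ a)
    rw [e, tch_zpow_lin, ← zpow_zero ζ, Loc.zpow_iff hζ]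
    split_ifs at this
    omega
  have := orderOf_dvd_of_pow_eq_one (show c ^ 4 = 1 by rw [← wT_one c, ← inv_mul_cancel u, wT_mul, ← map_pow, this, map_one])
  rw [h] at this; omega

theorem tch_ω (ζ : kˣ) (n : List ℤ) (a : I27) : tch (cz ζ n) (ω a) = ζ ^ lo n a := (tch_zpow_lin _ _ _).trans (by rw [lo, sumLt_eq, lfun, Fintype.linearCombination_apply]; rfl)
variable (h2 : orderOf (-1 : kˣ) = 2)
include h2 in
theorem std {c : I chevE6 → kˣ} (hc : c ^ 2 = 1) (h1 : c ≠ 1) : ∃ u, wT u c = cz (-1) n1 ∨ wT u c = cz (-1) n2 := by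
  classical
  let s (j : Fin 6) : ℕ := if c j = 1 then 0 else 1
  have s1 : ∀ j, s j < 2 := fun j => by unfold s; split_ifs <;> decide
  have s2 : c = cz (-1) [s 0, s 1, s 2, s 3, s 4, s 5] := funext fun j => by
    rw [cz, show lfun chevE6 [s 0, s 1, s 2, s 3, s 4, s 5] (Pi.single j 1) = s j by rw [lfun, Fintype.linearCombination_apply_single, one_smul]; fin_cases j <;> rfl]
    rcases sq_eq_one_iff.1 (show (c j : k) ^ 2 = 1 by simpa using congrArg Units.val (congrFun hc j)) with e | e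
    · simp [s, show c j = 1 from Units.ext e]
    · by_cases e' : c j = 1 <;> simp [s, e']; exact Units.ext e
  obtain e | ⟨u, -, hu, n, hn, e⟩ := std_spec _ (s1 0) _ (s1 1) _ (s1 2) _ (s1 3) _ (s1 4) _ (s1 5)
  · refine (h1 (funext fun j => by_contra fun e' => ?_)).elim
    have k1 : s j ≤ ∑ i, s i := Finset.single_le_sum (fun _ _ => Nat.zero_le _) (Finset.mem_univ j)
    rw [Fin.sum_univ_six, show s j = 1 from if_neg e'] at k1; omega
  obtain ⟨u, rfl⟩ := exists_map_val (n := chevE6.rank) hu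
  have : wT (wp u) c = cz (-1) n := eq_of_θ (n := 2) (by decide) (by rw [← map_pow, hc, map_one]) (cz_pow h2 _) fun j => by
    rw [tch_wT, wL_wt, s2, tch_cz, tch_cz, ← runW_eq, Loc.zpow_iff h2]; exact e j j.2
  exact ⟨wp u, by simpa [this] using (by simpa using hn : n = n1 ∨ n = n2).imp (congrArg _) (congrArg _)⟩
include h2 in
theorem mu_inv [IsAlgClosed k] {p : ℕ} [Fact p.Prime] [CharP k p] (hp : Nat.Coprime 2 p) {g : chevE6.SteinbergGroup k} (hg : g * g = 1) (h1 : g ≠ 1) : mu g 1 = 16 ∨ mu g 1 = 12 := by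
  classical
  obtain ⟨a, c, e⟩ := exists_conj_H p hp ((sq g).trans hg)
  obtain ⟨u, hu⟩ := std h2 (c := c) (hi_st k (by rw [map_pow, map_one, r3_st.hprod_apply, ← e, conj_pow, sq, hg]; simp)) (by rintro rfl; simp [r3_st.hl_one, h1] at e)
  have k1 : ∀ n, mu ((stS chevE6 k).hl (cz (-1) n)) 1 = ∑ a, if lo n a % (2 : ℕ) = 0 then 0 else 1 := fun n =>
    (mu_hl _ 1).trans (Finset.sum_congr rfl fun a _ => if_congr (by rw [tch_ω]; simpa using Loc.zpow_iff h2 (a := lo n a) (b := 0)) rfl rfl)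
  rw [← mu_conj a, e, ← mu_wT u]
  exact hu.imp (fun e => by rw [e, k1]; exact inv_spec.2.2.2.2.2.2.2.2.1) fun e => by rw [e, k1]; exact inv_spec.2.2.2.2.2.2.2.2.2

/-- no non-trivial representations of degree at most ten -/
def Sm (k M : Type*) [Field k] [Group M] : Prop := ∀ n ≤ 10, ∀ φ : M →* Matrix (Fin n) (Fin n) k, ∀ x, φ x = 1
variable {M : Type*} [Group M]
theorem Sm.fix (h : Sm k M) {V : Type*} [AddCommGroup V] [Module k V] [FiniteDimensional k V] (σ : M →* Module.End k V) {U : Submodule k V} (hU : Module.finrank k U ≤ 10)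
    (hi : ∀ x, ∀ v ∈ U, σ x v ∈ U) (x : M) {v : V} (hv : v ∈ U) : σ x v = v := by
  have := h _ hU ((LinearMap.toMatrixAlgEquiv (Module.finBasis k U)).toMonoidHom.comp (Representation.subrepresentation σ U hi)) x
  exact congrArg Subtype.val (DFunLike.congr_fun ((map_eq_one_iff _ (LinearMap.toMatrixAlgEquiv (Module.finBasis k U)).injective).1 this) ⟨v, hv⟩)
theorem Sm.triv (h : Sm k M) (φ : M →* Matrix I27 I27 k) {A : Matrix I27 I27 k} (hA : ∀ x, Commute (φ x) A) {S : Finset I27} (hS : S.card ≤ 10) (h0 : ∀ a ∉ S, ∀ b, A a b = 0)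
    (x : M) : φ x * A = A := by
  refine Matrix.ext_iff_mulVec.2 fun v => ?_
  rw [← mulVec_mulVec]
  refine h.fix ((Matrix.toLinAlgEquiv' : Matrix I27 I27 k ≃ₐ[k] _).toMonoidHom.comp φ) (U := LinearMap.range A.mulVecLin) ?_ ?_ x ⟨v, rfl⟩
  · rw [← Matrix.rank, show A = Matrix.of (fun (a : I27) (s : S) => if a = s then (1 : k) else 0) * Matrix.of fun (s : S) b => A s b from Matrix.ext fun a b => by
      by_cases e : a ∈ S
      · rw [mul_apply, Finset.sum_eq_single ⟨a, e⟩ (fun s _ hs => by simp [show a ≠ s from fun e => hs (Subtype.ext e.symm)]) (by simp)]; simp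
      · rw [h0 a e, mul_apply, Finset.sum_eq_zero fun s _ => by simp [show a ≠ s from fun e' => e (e' ▸ s.2)]]]
    exact ((rank_mul_le_left _ _).trans (rank_le_card_width _)).trans (by simpa using hS)
  · rintro y _ ⟨v, rfl⟩; exact ⟨φ y *ᵥ v, by simp [(hA y).eq]⟩

/-- the centraliser of a matrix -/
def cA (A : Matrix I27 I27 k) : Subgroup (chevE6.SteinbergGroup k) where
  carrier := {g | Commute (ρ k g) A}
  one_mem' := by simp
  mul_mem' := fun ha hb => by simpa using ha.mul_left hb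
  inv_mem' := fun {g} hg => by simpa [ρ] using Commute.units_inv_left (u := (r3 (k := k)).lift g) hg
/-- the conjugation action on matrices -/
noncomputable def cj (k : Type*) [Field k] : chevE6.SteinbergGroup k →* Module.End k (Matrix I27 I27 k) where
  toFun g := LinearMap.mulLeftRight k (ρ k g, ρ k g⁻¹)
  map_one' := by ext1; simp
  map_mul' a b := by ext1; simp [mul_assoc]
theorem cj_apply (g : chevE6.SteinbergGroup k) (A : Matrix I27 I27 k) : cj k g A = ρ k g * A * ρ k g⁻¹ := rfl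
theorem cj_mul (g : chevE6.SteinbergGroup k) (A B : Matrix I27 I27 k) : cj k g (A * B) = cj k g A * cj k g B := by
  simp only [cj_apply, mul_assoc]; rw [← mul_assoc (ρ k g⁻¹), ← map_mul, inv_mul_cancel, map_one, one_mul]
theorem cj_eq {g : chevE6.SteinbergGroup k} {A : Matrix I27 I27 k} : cj k g A = A ↔ Commute (ρ k g) A :=
  ⟨fun h => by simpa [cj_apply, mul_assoc, ← map_mul, commute_iff_eq] using congrArg (· * ρ k g) h,
    fun h => by rw [cj_apply, h.eq, mul_assoc, ← map_mul, mul_inv_cancel, map_one, mul_one]⟩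
theorem cj_hl (b : I chevE6 → kˣ) (r : Φ chevE6) : cj k ((stS chevE6 k).hl b) (spM k (mat r)) = (tch b (wt r)).1 • spM k (mat r) := by
  have := congrArg (ρ k) (hl_conj_x' (S := stS chevE6 k) b r 1)
  rwa [map_mul, map_mul, ρ_x, ρ_x, mul_add, add_mul, mul_one, ← map_mul, mul_inv_cancel, map_one, add_right_inj, one_smul, mul_one] at this
/-- the stabiliser of a space of matrices -/
def stab (U : Submodule k (Matrix I27 I27 k)) : Subgroup (chevE6.SteinbergGroup k) where
  carrier := {g | (∀ A ∈ U, cj k g A ∈ U) ∧ ∀ A ∈ U, cj k g⁻¹ A ∈ U}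
  one_mem' := by simp
  mul_mem' := fun ha hb => ⟨fun A h => by simpa using ha.1 _ (hb.1 A h), fun A h => by simpa using hb.2 _ (ha.2 A h)⟩
  inv_mem' := fun {g} hg => ⟨hg.2, by simpa using hg.1⟩

variable [IsAlgClosed k] (hS : Sm k M) (j : M →* chevE6.SteinbergGroup k) {t : M} (ht : ∀ x, Commute x t)
include h2 hS ht
theorem case1 (e : j t = (stS chevE6 k).hl (cz (-1) n1)) {y : M} {d : I chevE6 → kˣ} (e' : j y = (stS chevE6 k).hl d) : j y ^ 4 = 1 := by
  have k1 : (stS chevE6 k).CA {cz (-1) n1} ≤ cA (diagonal fun a => if a ∈ S10 then (1 : k) else 0) := (CA_le (isOfFinOrder_iff_pow_eq_one.2 ⟨2, two_pos, cz_pow h2 _⟩)).trans (sup_le ((stS _ k).gen_le.2 fun r hr t => by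
      change Commute (ρ k _) _
      rw [ρ_x]
      refine (Commute.one_left _).add_left (Commute.smul_left (Matrix.ext fun a b => ?_) _)
      rw [mul_diagonal, diagonal_mul, spM_apply]
      by_cases h : (a ∈ S10 ↔ b ∈ S10)
      · simp [h]
      · simp [spC_eq_zero (a := a) (b := b) fun c hc e => h (e.1 ▸ e.2 ▸ (inv_spec.1 r r.2).1 ((mem_cz h2).1 hr) c hc)]) fun g hg => by
    obtain ⟨b, rfl⟩ := r3_st.exists_hl hg
    change Commute (ρ k _) _
    rw [ρ_hl]; exact commute_diagonal _ _)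
  have k2 := hS.triv ((ρ k).comp j) (fun x => k1 (mem_CA_one.2 (e ▸ (ht x).map j))) inv_spec.2.2.2.1.le (fun a ha b => by simp [diagonal_apply, ha]) y
  rw [MonoidHom.comp_apply, e', ρ_hl, diagonal_mul_diagonal] at k2
  rw [e', ← r3_st.hl_pow, pow4 fun a ha => Units.ext (by simpa [ha] using congrFun (diagonal_injective k2) a), r3_st.hl_one]
theorem case2 (e : j t = (stS chevE6 k).hl (cz (-1) n2)) : False := by
  classical
  obtain ⟨r, hr⟩ : ∃ r : Φ chevE6, r.1 = 36 := ⟨⟨36, by decide⟩, rfl⟩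
  have hr' : (ng r).1 = 35 := by rw [← inv_spec.2.1, ← hr]; rfl
  obtain ⟨a1, a2, -⟩ := ef (k := k) r
  obtain ⟨a3, a4, -⟩ := ef (k := k) (ng r)
  rw [ng_ng] at a4
  have c1 := cj_hl (k := k) (r := r)
  have c2 := cj_hl (k := k) (r := ng r)
  rw [hr'] at a2 a3 a4 c2
  rw [hr] at a1 a2 a4 c1
  set E := spM k (mat 36) with hE
  set F := spM k (mat 35) with hF
  let U := Submodule.span k (↑({E, F, E * F, F * E} : Finset _) : Set (Matrix I27 I27 k))
  have m1 : E ∈ U := Submodule.subset_span (by simp)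
  have m2 : F ∈ U := Submodule.subset_span (by simp)
  have m3 : E * F ∈ U := Submodule.subset_span (by simp)
  have m4 : F * E ∈ U := Submodule.subset_span (by simp)
  have u1 : U * U ≤ U := by
    have b1 : ∀ X, E * (E * X) = 0 := fun X => by rw [← mul_assoc, a1, zero_mul]
    have b2 : ∀ X, F * (F * X) = 0 := fun X => by rw [← mul_assoc, a3, zero_mul]
    have b3 : ∀ X, E * (F * (E * X)) = E * X := fun X => by rw [← mul_assoc, ← mul_assoc, a2]
    have b4 : ∀ X, F * (E * (F * X)) = F * X := fun X => by rw [← mul_assoc, ← mul_assoc, a4]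
    rw [mul_assoc] at a2 a4
    rw [Submodule.span_mul_span, Submodule.span_le]
    rintro _ ⟨a, ha, b, hb, rfl⟩
    simp only [Finset.coe_insert, Finset.coe_singleton, Set.mem_insert_iff, Set.mem_singleton_iff] at ha hb
    rcases ha with rfl | rfl | rfl | rfl <;> rcases hb with rfl | rfl | rfl | rfl <;> simp [mul_assoc, a1, a2, a3, a4, b1, b2, b3, b4, m1, m2, m3, m4]
  have u2 : ∀ A ∈ U, ∀ B ∈ U, A * B ∈ U := fun A hA B hB => u1 (Submodule.mul_mem_mul hA hB)
  have u3 : ∀ g, cj k g E ∈ U → cj k g F ∈ U → ∀ A ∈ U, cj k g A ∈ U := fun g h1 h2 => (Submodule.span_le (p := U.comap (cj k g))).2 (by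
    simp [Set.insert_subset_iff, cj_mul, h1, h2, u2])
  have u4 : ∀ s ∈ Psi {cz (-1 : kˣ) n2}, ∀ t, ∀ A ∈ U, cj k ((stS chevE6 k).x s t) A ∈ U := fun s hs t => by
    have b1 : spM k (mat s) ∈ U → ∀ A ∈ U, cj k ((stS chevE6 k).x s t) A ∈ U := fun h A hA => by
      have := U.add_mem hA (u2 _ (U.smul_mem t h) _ hA)
      rw [cj_apply, ← x_neg, ρ_x, ρ_x, add_mul, one_mul, mul_add, mul_one]; exact U.add_mem this (u2 _ this _ (U.smul_mem _ h))
    have b2 : ∀ n, SpZ (spBr (mat s) (mat n)) → cj k ((stS chevE6 k).x s t) (spM k (mat n)) = spM k (mat n) := fun n h => cj_eq.2 (by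
      rw [ρ_x]; exact (Commute.one_left _).add_left (Commute.smul_left (by simpa [sub_eq_zero, commute_iff_eq] using h.eq k) _))
    rcases (inv_spec.1 s s.2).2 ((mem_cz h2).1 hs) with h | h | h
    exacts [b1 (h ▸ m1), b1 (h ▸ m2), u3 _ ((b2 _ h.1).symm ▸ m1) ((b2 _ h.2).symm ▸ m2)]
  have k1 : (stS chevE6 k).CA {cz (-1) n2} ≤ stab U := (CA_le (isOfFinOrder_iff_pow_eq_one.2 ⟨2, two_pos, cz_pow h2 _⟩)).trans (sup_le ((stS _ k).gen_le.2 fun s hs t =>
    ⟨u4 s hs t, x_neg (stS chevE6 k) s t ▸ u4 s hs (-t)⟩) fun g hg => by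
      obtain ⟨b, rfl⟩ := r3_st.exists_hl hg
      exact ⟨u3 _ (c1 b ▸ U.smul_mem _ m1) (c2 b ▸ U.smul_mem _ m2), r3_st.hl_inv b ▸ u3 _ (c1 _ ▸ U.smul_mem _ m1) (c2 _ ▸ U.smul_mem _ m2)⟩)
  have k2 := hS.triv ((ρ k).comp j) (A := E) (fun x => cj_eq.1 (hS.fix ((cj k).comp j) (U := U) ((finrank_span_finset_le_card _).trans (Finset.card_le_four.trans (by decide)))
    (fun x => (k1 (mem_CA_one.2 (e ▸ (ht x).map j))).1) x m1)) (inv_spec.2.2.2.2.1.le.trans (by decide))
    (fun a ha b => by rw [hE, spM_apply, spC_eq_zero (a := a) fun c hc e => ha (e.1 ▸ inv_spec.2.2.2.2.2.1 c hc), Int.cast_zero]) t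
  have k3 := congrFun (congrFun k2 (1, 0, 1)) (1, 0, 0)
  rw [MonoidHom.comp_apply, e, ρ_hl, diagonal_mul, hE, spM_apply, inv_spec.2.2.2.2.2.2.1, Int.cast_one, mul_one, tch_ω, Units.val_eq_one] at k3
  exact absurd (inv_spec.2.2.2.2.2.2.2.1.symm.trans ((Loc.zpow_iff h2 (b := 0)).1 (k3.trans (zpow_zero _).symm))) (by decide)

omit h2 ht in
theorem no_12 [Finite M] {p : ℕ} [hp : Fact p.Prime] [CharP k p] (h7 : 7 ≤ p) (hj : Function.Injective j) {π : M →* alternatingGroup (Fin 12)} (h : Min π) : False := by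
  classical
  have c2 : Nat.Coprime 2 p := (Nat.coprime_primes Nat.prime_two hp.out).2 (by omega)
  have c0 : (2 : k) ≠ 0 := fun e => by have := Nat.le_of_dvd two_pos ((CharP.cast_eq_zero_iff k p 2).1 e); omega
  have h2 : orderOf (-1 : kˣ) = 2 := orderOf_eq_prime (by simp) fun e => c0 (by have : (-1 : k) = 1 := congrArg Units.val e; linear_combination -this)
  have x1 : (27 : ℤ) - 2 * mu (j 1) 1 = 27 := by simp [mu]
  have x2 : ∀ t, t * t = 1 → t ≠ 1 → (27 : ℤ) - 2 * mu (j t) 1 = 3 ∨ (27 : ℤ) - 2 * mu (j t) 1 = -5 := fun t a b => by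
    have := mu_inv h2 c2 (g := j t) (by rw [← map_mul, a, map_one]) (by simpa [map_eq_one_iff j hj] using b); omega
  obtain ⟨t, t1, t2, t3⟩ := h.central (fun E hE => by
    have := Fintype.ofFinite E
    obtain ⟨⟨f, a⟩, b⟩ := moments c0 hE ((ρ k).comp (j.comp E.subtype))
    have c : ∑ e : E, (((27 : ℤ) - 2 * mu (j e) 1) ^ 2 + 2 * (27 - 2 * mu (j e) 1) - 15) = 768 := (Finset.sum_eq_single 1 (fun e _ he => by
      rcases x2 e (congrArg Subtype.val (hE e)) (by simpa using he) with h | h <;> rw [h] <;> rfl) (by simp)).trans (by rw [coe_one, x1]; rfl)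
    rw [Finset.sum_sub_distrib, Finset.sum_add_distrib, ← Finset.mul_sum, show ∑ e : E, ((27 : ℤ) - 2 * mu (j e) 1) = _ from a, Finset.sum_const, Finset.card_univ, nsmul_eq_mul] at c
    have b : 27 * (Fintype.card E : ℤ) ≤ ∑ e : E, ((27 : ℤ) - 2 * mu (j e) 1) ^ 2 := b
    rw [Nat.card_eq_fintype_card]
    have : (0 : ℤ) ≤ Fintype.card E * f := by positivity
    omega) (h.even x1 x2 (fun s t e => by obtain ⟨g, rfl⟩ := isConj_iff.1 e; rw [map_mul, map_mul, map_inv, mu_conj]) fun σ =>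
      (moments c0 (fun e => (uf_spec.1 true e).2.1) ((ρ k).comp (j.comp σ))).1)
  obtain ⟨s, s1, s2, s3⟩ : ∃ s : ℕ, s.Prime ∧ (s = 7 ∨ s = 11) ∧ s ≠ p := if e : p = 7 then ⟨11, by norm_num, by simp, by omega⟩ else ⟨7, by norm_num, by simp, Ne.symm e⟩
  have := Fact.mk s1
  obtain ⟨y, hy⟩ := exists_prime_orderOf_dvd_card' s (((by rcases s2 with rfl | rfl <;> decide : s ∣ 77).trans (h.dvd (.id M) (by simp))).trans (card_subgroup_dvd_card _))
  have e1 : (y * t) ^ s = t := by rw [(t3 y).mul_pow, ← hy, pow_orderOf_eq_one, one_mul, hy]; rcases s2 with rfl | rfl <;> simp [pow_succ, mul_assoc, t2]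
  obtain ⟨a, c, e⟩ := exists_conj_H p (x := j (y * t)) (m := s * 2) (.mul_left ((Nat.coprime_primes s1 hp.out).2 s3) c2) (by rw [← map_pow, pow_mul, e1, sq, t2, map_one])
  have e2 : a * j t * a⁻¹ = (stS chevE6 k).hl (c ^ s) := by rw [r3_st.hl_pow, ← e, conj_pow, ← map_pow, e1]
  obtain ⟨u, hu⟩ := std h2 (c := c ^ s) (hi_st k (by rw [map_pow, map_one, r3_st.hprod_apply, ← e2, conj_pow, sq, ← map_mul, t2]; simp))
    fun e => by simp [e, r3_st.hl_one, map_eq_one_iff j hj, t1] at e2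
  let j' := (MulAut.conj ((stS chevE6 k).nr u * a)).toMonoidHom.comp j
  have e3 : ∀ {x b}, a * j x * a⁻¹ = (stS chevE6 k).hl b → j' x = (stS chevE6 k).hl (wT u b) := fun e => by rw [← r3_st.rep_conj_hl (rep_nr u), ← e]; simp [j', mul_assoc]
  rcases hu with hu | hu
  · have := case1 h2 hS j' t3 (hu ▸ e3 e2) (y := y) (e3 (b := c * c ^ s) (by rw [r3_st.hl_mul, ← e, ← e2, conj_mul, ← map_mul, mul_assoc y, t2, mul_one]))
    rw [← map_pow, map_eq_one_iff j' ((MulAut.conj _).injective.comp hj), ← orderOf_dvd_iff_pow_eq_one, hy] at this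
    rcases s2 with rfl | rfl <;> omega
  · exact case2 h2 hS j' t3 (hu ▸ e3 e2)

end H12.S6
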