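import Cfsg.Agent.H12.Sec6

/-! Alternating sections of `E₆(q)` (`S6.core`), given the bound for linear groups. -/

set_option autoImplicit false

namespace H12.S6
open Cfsg.Lie StSys Subgroup H13

/-- `A₁₂` is not a section of a linear group of degree at most ten over a finite field of characteristic `p` -/
def Lin.{u} (p : ℕ) : Prop := ∀ (K : Type u) [Field K] [Fintype K] [CharP K p] (n : ℕ) (H : Subgroup (GL (Fin n) K)) (N : Subgroup H) [N.Normal],
  Nonempty (H ⧸ N ≃* alternatingGroup (Fin 12)) → 11 ≤ n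
theorem Min.sm.{u} {F k : Type u} [Field F] [Finite F] [Field k] [Algebra F k] [Algebra.IsAlgebraic F k] {p : ℕ} [CharP k p] (hL : Lin.{u} p) {M : Type*} [Group M] [Finite M]
    {π : M →* alternatingGroup (Fin 12)} (h : Min π) : Sm k M := fun n hn φ x => by
  refine (h.dich φ.ker).elim (fun e => ?_) fun e => e.ge (mem_top x)
  let K := IntermediateField.adjoin F (Set.range fun c : M × Fin n × Fin n => φ c.1 c.2.1 c.2.2)
  have : FiniteDimensional F K := IntermediateField.finiteDimensional_adjoin fun x _ => Algebra.IsIntegral.isIntegral x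
  have : Finite K := Module.finite_of_finite F
  have := Fintype.ofFinite K
  let f (x : M) : Matrix (Fin n) (Fin n) K := .of fun a b => ⟨φ x a b, IntermediateField.subset_adjoin _ _ ⟨(x, a, b), rfl⟩⟩
  have hf : ∀ x, (algebraMap K k).mapMatrix (f x) = φ x := fun x => rfl
  have hi : Function.Injective ((algebraMap K k).mapMatrix (m := Fin n)) := Matrix.map_injective (algebraMap K k).injective
  let ψ : M →* GL (Fin n) K := MonoidHom.toHomUnits ⟨⟨f, hi (by rw [hf, map_one, map_one])⟩, fun a b => hi (by simp only [map_mul, hf])⟩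
  have e' : ψ.rangeRestrict.ker ≤ π.ker := fun y hy => e (show φ y = 1 by rw [← hf, show f y = 1 from congrArg (·.1.1) hy, map_one])
  let τ := ψ.rangeRestrict.liftOfSurjective ψ.rangeRestrict_surjective ⟨π, e'⟩
  have := hL K n ψ.range τ.ker ⟨QuotientGroup.quotientKerEquivOfSurjective τ fun a => let ⟨x, hx⟩ := h.1 a; ⟨ψ.rangeRestrict x, by simp [τ, hx]⟩⟩
  omega
theorem perm11' : ∃ a b : Equiv.Perm (Fin 13), a.sign = 1 ∧ b.sign = 1 ∧ a ^ 11 = 1 ∧ a ≠ 1 ∧ b * a * b⁻¹ = a ^ 2 :=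
  ⟨⟨![1, 2, 3, 4, 5, 6, 7, 8, 9, 10, 0, 11, 12], ![10, 0, 1, 2, 3, 4, 5, 6, 7, 8, 9, 11, 12], by decide, by decide⟩,
    ⟨![0, 2, 4, 6, 8, 10, 1, 3, 5, 7, 9, 12, 11], ![0, 6, 1, 7, 2, 8, 3, 9, 4, 10, 5, 12, 11], by decide, by decide⟩, by decide +kernel⟩
theorem core.{u} {F : Type u} [Field F] [Fintype F] {p : ℕ} [hp : Fact p.Prime] [CharP F p] (hL : 7 ≤ p → Lin.{u} p) {X : Type*} [Group X] {f : X →* chevE6.group F}
    (hf : Function.Injective f) {N : Subgroup X} [N.Normal] {r : ℕ} (e : X ⧸ N ≃* alternatingGroup (Fin r)) : r ≤ 11 + (if p = 2 ∨ p = 3 ∨ p = 5 then 1 else 0) := by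
  by_contra! hr
  obtain ⟨m, -, -⟩ := exists_fm chevE6 F p
  have := Finite.of_surjective _ m.π_surjective
  have := Finite.of_injective _ hf
  split_ifs at hr with h
  · have : Fact (Nat.Prime 11) := ⟨by norm_num⟩
    obtain ⟨π, ι, hι, h1⟩ := alt_range e (show 13 ≤ r by omega)
    obtain ⟨a, b, s1, s2, h2, h3, h4⟩ := perm11'
    obtain ⟨y, g, h5, h6⟩ := sec_one π (r := 11) (comm_of_mem (chevE6, [2, 5, 6, 8, 9, 12]) (by simp) hf (p := p) (by omega) (by decide)) (h1 a s1) (h1 b s2)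
      ((orderOf_injective ι hι a).trans (orderOf_eq_prime h2 h3)) (k := 2) (by simpa using congrArg ι h4)
    obtain ⟨c, h7, ⟨w, h8⟩, -⟩ := m.exists_tor_conj (e := 3) (fun _ => Loc.ker3) (y := f y) (g := f g) (j := 2) ((orderOf_injective f hf y).trans h5)
      ((Nat.coprime_primes this.out hp.out).2 (by omega)) (by decide) (by simpa using congrArg f h6)
    exact no_11 (p := p) (by omega) h7 w h8
  have h7 : 7 ≤ p := by
    by_contra! h7
    have := hp.out
    interval_cases p <;> simp_all (decide := true)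
  obtain ⟨π, ι, hι, h1⟩ := alt_range e (show 12 ≤ r by omega)
  let Y : Subgroup (m.Fix × alternatingGroup (Fin 12)) := {
    carrier := {z | ∃ x, f x = m.π z.1 ∧ π x = ι z.2}
    one_mem' := ⟨1, by simp⟩
    mul_mem' := fun ⟨x, a, b⟩ ⟨y, c, d⟩ => ⟨x * y, by simp [*]⟩
    inv_mem' := fun ⟨x, a, b⟩ => ⟨x⁻¹, by simp [*]⟩ }
  obtain ⟨K, hK⟩ := exists_min (π := (MonoidHom.snd _ _).comp Y.subtype) fun a => by
    obtain ⟨x, hx⟩ := h1 a a.2
    obtain ⟨g, hg⟩ := m.π_surjective (f x)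
    exact ⟨⟨(g, a), x, hg.symm, hx⟩, rfl⟩
  refine no_12 (hK.sm (F := F) (hL h7)) (((m.Fix.subtype.comp (MonoidHom.fst _ _)).comp Y.subtype).comp K.subtype) h7 ((injective_iff_map_eq_one _).2 ?_) hK
  rintro ⟨⟨⟨g, a⟩, x, h2, h3⟩, _⟩ h4
  obtain rfl : g = 1 := Subtype.ext h4
  obtain rfl : x = 1 := hf (by simpa using h2)
  obtain rfl : a = 1 := Subtype.ext (hι (by simpa using h3.symm))
  rfl

end H12.S6
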