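import Cfsg.Agent.H12.Sec7
import Cfsg.Agent.S2653

/-! `A₁₂` is not a section of a linear group of degree at most ten in characteristic `p ≥ 7` (`S6.lin`). -/

set_option autoImplicit false

namespace H12.S6

theorem lin.{u} {p : ℕ} [hp : Fact p.Prime] (h7 : 7 ≤ p) : Lin.{u} p := fun K _ _ _ n H N _ h => by
  have := Cfsg.Agent.S2653.result p n 12 H N h (by decide)
  have h1 : ¬ p ∣ 12 := fun e => by
    have := Nat.le_of_dvd (by decide) e
    have := hp.out
    interval_cases p <;> simp_all (decide := true)
  rw [if_neg h1] at this
  omega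

end H12.S6
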