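import Cfsg.Agent.H12.Sec2

/-! Lifting elementary abelian sections with their automizers (`S7.lift_el`), abelian subgroups of small index in `r`-groups (`S7.exists_ab`),
fixed spaces of elementary abelian groups of matrices (`S7.sum_rank`) and of Heisenberg groups (`S7.dvd_rank`). -/

set_option autoImplicit false

namespace H12.S7
open Subgroup

theorem sum_rank {k E m : Type*} [Field k] [IsAlgClosed k] [CommGroup E] [Fintype E] [Fintype m] [DecidableEq m] {r : ℕ} (hr : r.Prime) (h2 : (r : k) ≠ 0) (hE : ∀ e : E, e ^ r = 1)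
    (ρ : E →* Matrix m m k) : ∃ n ≤ Fintype.card m, r * ∑ e, (ρ e - (1 : k) • 1).rank = n * ((r - 1) * Fintype.card E) := by
  classical
  let L : E →* Module.End k (m → k) := (Matrix.toLinAlgEquiv' : Matrix m m k ≃ₐ[k] _).toMonoidHom.comp ρ
  have hs : ∀ e, (L e).IsFinitelySemisimple := fun e => Module.End.isFinitelySemisimple_iff_isSemisimple.2 (Module.End.isSemisimple_of_squarefree_aeval_eq_zero
    (Polynomial.separable_X_pow_sub_C (n := r) (1 : k) h2 one_ne_zero).squarefree (by rw [map_sub, map_pow, Polynomial.aeval_X, ← map_pow, hE]; simp))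
  have ht := Module.End.iSup_iInf_maxGenEigenspace_eq_top_of_iSup_maxGenEigenspace_eq_top_of_commute L (fun a b _ => (Commute.all a b).map L) fun e => (L e).iSup_maxGenEigenspace_eq_top
  have hsp : ⊤ ≤ Submodule.span k {v | ∃ χ : E → k, ∀ e, L e v = χ e • v} := ht ▸ iSup_le fun χ v hv => Submodule.subset_span ⟨χ, fun e => by
    simpa [(hs e).maxGenEigenspace_eq_eigenspace] using (Submodule.mem_iInf _).1 hv e⟩
  let b := Module.Basis.ofSpan hsp
  choose χ hχ using fun i => Module.Basis.ofSpan_subset hsp ⟨i, rfl⟩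
  replace hχ : ∀ i e, L e (b i) = χ i e • b i := hχ
  generalize b = b at hχ
  generalize ((_ : Set _) : Type _) = ι at b χ hχ
  have := FiniteDimensional.fintypeBasisIndex b
  have c0 : Fintype.card m = Fintype.card ι := by rw [← Module.finrank_eq_card_basis b, Module.finrank_fintype_fun_eq_card]
  let s (i : ι) : E →* k := ⟨⟨χ i, smul_left_injective k (b.ne_zero i) (by simp [← hχ])⟩, fun e e' => smul_left_injective k (b.ne_zero i) (by
    beta_reduce; rw [← hχ, map_mul, Module.End.mul_apply, hχ i e', map_smul, hχ i e, smul_smul, mul_comm])⟩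
  have c5 : ∀ e, (ρ e - (1 : k) • 1).rank = ∑ i, if s i e = 1 then 0 else 1 := fun e => by
    have : (ρ e - (1 : k) • 1).rank = (Matrix.diagonal fun i => χ i e - 1).rank := by
      rw [Matrix.rank_eq_finrank_range_toLin _ b b, Matrix.rank, show Matrix.toLin b b (Matrix.diagonal fun i => χ i e - 1) = (ρ e - (1 : k) • 1).mulVecLin from b.ext fun i => by
        rw [Matrix.toLin_self, Finset.sum_eq_single i (fun j _ h => by simp [h]) (by simp), Matrix.diagonal_apply_eq, sub_smul, ← hχ]; simp [L, Matrix.sub_mulVec]]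
    rw [this, Matrix.rank_diagonal, Fintype.card_subtype, Finset.card_filter]
    exact Finset.sum_congr rfl fun i _ => by by_cases h : χ i e = 1 <;> simp [s, h, sub_eq_zero]
  refine ⟨∑ i, if s i = 1 then 0 else 1, c0 ▸ (Finset.sum_le_card_nsmul _ _ 1 fun i _ => by split_ifs <;> simp).trans (by simp), ?_⟩
  simp only [c5]
  rw [Finset.sum_comm, Finset.mul_sum, Finset.sum_mul]
  refine Finset.sum_congr rfl fun i _ => ?_
  split_ifs with h
  · simp [h]
  have := Fact.mk hr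
  have : NeZero r := ⟨hr.ne_zero⟩
  let u := (s i).toHomUnits
  have c1 : u.ker.index = r := by
    obtain ⟨e, he⟩ := DFunLike.ne_iff.1 h
    rw [index_ker]
    refine le_antisymm ((card_le_of_le (K := rootsOfUnity r k) (by rintro _ ⟨e, rfl⟩; rw [mem_rootsOfUnity, ← map_pow, hE, map_one])).trans (card_rootsOfUnity _ _)) (Nat.le_of_dvd Nat.card_pos ?_)
    rw [← orderOf_eq_prime (p := r) (x := u e) (by rw [← map_pow, hE, map_one]) fun h => he (congrArg Units.val h)]
    exact orderOf_dvd_natCard _ ⟨e, rfl⟩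
  have c2 := u.ker.card_mul_index
  have c3 : Nat.card u.ker + ∑ e, (if s i e = 1 then 0 else 1) = Nat.card E := by
    rw [Nat.card_eq_fintype_card, Nat.card_eq_fintype_card, Fintype.card_subtype, Finset.card_filter, ← Finset.sum_add_distrib, Fintype.card, Finset.card_eq_sum_ones]
    exact Finset.sum_congr rfl fun e _ => by by_cases h : s i e = 1 <;> simp [h, u, Units.ext_iff]
  rw [← Nat.card_eq_fintype_card, c1] at *
  obtain ⟨t, rfl⟩ := Nat.exists_eq_add_of_le' hr.pos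
  rw [Nat.add_sub_cancel]; nlinarith

theorem dvd_rank {k m : Type*} [Field k] [Fintype m] [DecidableEq m] {X Y : GL m k} {Z : Matrix m m k} (h : X * Y = Z * (Y * X)) (hX : Commute Z X) (hY : Commute Z Y) (ζ : kˣ) :
    orderOf ζ ∣ Fintype.card m - (Z - (ζ : k) • 1).rank := by
  let U := LinearMap.ker (Z - (ζ : k) • 1).mulVecLin
  have key : ∀ X : GL m k, Commute Z X → ∀ v ∈ U, (X : Matrix m m k).mulVecLin v ∈ U := fun X hX v hv => by
    have : (Z - (ζ : k) • 1) * X = X * (Z - (ζ : k) • 1) := (hX.sub_left ((Commute.one_left _).smul_left _)).eq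
    simp only [U, LinearMap.mem_ker, Matrix.mulVecLin_apply] at hv ⊢
    rw [Matrix.mulVec_mulVec, this, ← Matrix.mulVec_mulVec, hv, Matrix.mulVec_zero]
  have d : ∀ X : GL m k, ∀ hX : Commute Z X, LinearMap.det ((X : Matrix m m k).mulVecLin.restrict (key X hX)) ≠ 0 := fun X hX =>
    left_ne_zero_of_mul_eq_one (b := LinearMap.det ((X⁻¹ : GL m k).1.mulVecLin.restrict (key X⁻¹ hX.units_inv_right))) (by
      rw [← map_mul, ← map_one (LinearMap.det (A := k) (M := U))]; congr 1; ext1 v; exact Subtype.ext (by simp))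
  have e : (X : Matrix m m k).mulVecLin.restrict (key X hX) * (Y : Matrix m m k).mulVecLin.restrict (key Y hY) =
      (ζ : k) • ((Y : Matrix m m k).mulVecLin.restrict (key Y hY) * (X : Matrix m m k).mulVecLin.restrict (key X hX)) := LinearMap.ext fun v => Subtype.ext (by
    have := key Y hY _ (key X hX _ v.2)
    simp only [U, LinearMap.mem_ker, Matrix.mulVecLin_apply] at this
    rw [Matrix.sub_mulVec, sub_eq_zero] at this
    simpa [h, Matrix.smul_mulVec] using this)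
  have := congrArg LinearMap.det e
  rw [LinearMap.det_smul, map_mul, map_mul, mul_comm, eq_comm, mul_left_eq_self₀, or_iff_left (mul_ne_zero (d Y hY) (d X hX))] at this
  have c := (Z - (ζ : k) • 1).mulVecLin.finrank_range_add_finrank_ker
  rw [Module.finrank_fintype_fun_eq_card] at c
  rw [← c, Matrix.rank, Nat.add_sub_cancel_left]
  exact orderOf_dvd_of_pow_eq_one (Units.ext (by simpa using this))

variable {K : Type*} [Group K] {r : ℕ} [hr : Fact r.Prime]
theorem exists_ab {G : Type*} [Group G] [Finite G] {H : Subgroup G} (hH : ∀ x ∈ H, ∀ y ∈ H, Commute x y) (hi : ¬ r ^ 2 ∣ H.index) {j : K →* G} (hj : Function.Injective j)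
    {P : Subgroup K} (hP : IsPGroup r P) : ∃ A ≤ P, (∀ x ∈ A, ∀ y ∈ A, Commute x y) ∧ A.relIndex P ∣ r := by
  classical
  have := Finite.of_injective _ hj
  let _ : MulAction P (G ⧸ H) := .compHom _ (j.comp P.subtype)
  obtain ⟨x, hx⟩ : ∃ x : G ⧸ H, ¬ r ^ 2 ∣ (MulAction.stabilizer P x).index := by
    by_contra! h
    have := Fintype.ofFinite (MulAction.orbitRel.Quotient P (G ⧸ H))
    refine hi ?_
    rw [index, Nat.card_congr (MulAction.selfEquivSigmaOrbits P _), Nat.card_sigma]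
    exact Finset.dvd_sum fun w _ => by simpa [MulAction.index_stabilizer] using h w.out
  obtain ⟨g, rfl⟩ := QuotientGroup.mk_surjective x
  obtain ⟨n, hn⟩ := hP.index (MulAction.stabilizer P (g : G ⧸ H))
  refine ⟨(MulAction.stabilizer P (g : G ⧸ H)).map P.subtype, map_subtype_le _, ?_, ?_⟩
  · rintro _ ⟨a, ha, rfl⟩ _ ⟨b, hb, rfl⟩
    have := hH _ (QuotientGroup.eq.1 (ha.symm : (g : G ⧸ H) = (j a * g : G))) _ (QuotientGroup.eq.1 (hb.symm : (g : G ⧸ H) = (j b * g : G)))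
    exact hj (by have := congrArg (g * · * g⁻¹) this; simpa [mul_assoc] using this)
  · rw [relIndex, ← comap_subtype, comap_map_eq_self_of_injective P.subtype_injective, hn]
    exact (pow_dvd_pow r (by by_contra! h; exact hx (hn ▸ pow_dvd_pow r h))).trans (pow_one r).dvd

omit hr in
theorem heis {x y z : K} (h : x * y = z * (y * x)) (hx : Commute z x) (hy : Commute z y) (a b : ℕ) : x ^ a * y ^ b = z ^ (a * b) * (y ^ b * x ^ a) := by
  have k1 : ∀ {x y z : K}, x * y = z * (y * x) → Commute z x → ∀ a : ℕ, x ^ a * y = z ^ a * (y * x ^ a) := fun {x y z} h hx a => by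
    induction a with
    | zero => simp
    | succ a ih => rw [pow_succ', mul_assoc, ih, ← mul_assoc, ← (hx.pow_left a).eq, mul_assoc, ← mul_assoc x, h, pow_succ]; simp only [mul_assoc]
  have k2 := k1 (x := y) (y := x ^ a) (z := (z ^ a)⁻¹) (by rw [k1 h hx, inv_mul_cancel_left]) (hy.pow_left a).inv_left b
  rw [k2, inv_pow, ← pow_mul, mul_inv_cancel_left]

theorem avg {C L : Type*} [CommGroup C] [Finite C] [Group L] [Finite L] {d : ℕ} (hC : IsPGroup r C) (hL : ¬ r ∣ Nat.card L) (φ : L →* MulAut C)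
    (α : L →* MulAut (Multiplicative (Fin d → ZMod r))) (f : C →* Multiplicative (Fin d → ZMod r)) (hf : ∀ l x, f (φ l x) = α l (f x)) (h1 : ∃ x, f x ≠ 1)
    (irr : ∀ B : Subgroup (Multiplicative (Fin d → ZMod r)), (∀ l, ∀ v ∈ B, α l v ∈ B) → B = ⊥ ∨ B = ⊤) :
    ∃ σ : Multiplicative (Fin d → ZMod r) →* C, Function.Injective σ ∧ ∀ l v, σ (α l v) = φ l (σ v) := by
  classical
  have := Fintype.ofFinite L
  have h2 : ∃ j, ∃ x, x ^ r ^ j = 1 ∧ f x ≠ 1 := let ⟨x, hx⟩ := h1; let ⟨j, hj⟩ := hC x; ⟨j, x, hj, hx⟩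
  obtain ⟨i, hi⟩ : ∃ i, Nat.find h2 = i + 1 := Nat.exists_eq_add_one_of_ne_zero fun e => by have := Nat.find_spec h2; rw [e] at this; simpa using this
  have h3 : ∀ x, x ^ r ^ i = 1 → f x = 1 := by simpa using Nat.find_min h2 (m := i) (by omega)
  have h4 : ((powMonoidHom (r ^ (i + 1)) : C →* C).ker.map f) = ⊤ := (irr _ (by
    rintro l _ ⟨x, hx, rfl⟩; exact ⟨φ l x, show φ l x ^ _ = 1 by rw [← map_pow, show x ^ _ = 1 from hx, map_one], hf l x⟩)).resolve_left fun e => by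
      obtain ⟨x, h5, h6⟩ := hi ▸ Nat.find_spec h2
      exact h6 (e.le ⟨x, h5, rfl⟩)
  choose x hx hx' using fun t : Fin d => h4.ge (mem_top (Multiplicative.ofAdd (Pi.single t 1)))
  replace hx : ∀ t, (x t ^ r ^ i) ^ r = 1 := fun t => by rw [← pow_mul, ← pow_succ]; exact hx t
  let X (v : Multiplicative (Fin d → ZMod r)) : C := ∏ t, x t ^ (v.toAdd t).val
  have x1 : ∀ v, f (X v) = v := fun v => by
    simp only [X, map_prod, map_pow, hx', ← ofAdd_nsmul, ← ofAdd_sum]
    exact congrArg Multiplicative.ofAdd (funext fun t => by simp [-ZMod.natCast_val, Finset.sum_apply, Pi.single_apply]; exact ZMod.natCast_zmod_val _)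
  have x2 : ∀ v w, X (v * w) ^ r ^ i = X v ^ r ^ i * X w ^ r ^ i := fun v w => by
    simp only [X, ← Finset.prod_pow, ← Finset.prod_mul_distrib]
    refine Finset.prod_congr rfl fun t _ => ?_
    rw [pow_right_comm, pow_right_comm _ _ (r ^ i), pow_right_comm _ _ (r ^ i), ← pow_add, toAdd_mul, Pi.add_apply, ZMod.val_add, ← pow_eq_pow_mod _ (hx t)]
  let σ : Multiplicative (Fin d → ZMod r) →* C := .mk' (fun v => (∏ l, φ l (X (α l⁻¹ v))) ^ r ^ i) fun v w => by
    simp only [← Finset.prod_pow, ← map_pow, map_mul, x2, Finset.prod_mul_distrib]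
  refine ⟨σ, (injective_iff_map_eq_one _).2 fun v hv => ?_, fun l v => ?_⟩
  · have := h3 _ hv
    simp only [map_prod, hf, x1, map_inv, MulAut.apply_inv_self, Finset.prod_const, Finset.card_univ] at this
    refine (pow_eq_one_iff_of_coprime ((Nat.Prime.coprime_iff_not_dvd hr.out).2 (Nat.card_eq_fintype_card (α := L) ▸ hL))).1 ⟨?_, this⟩
    rw [← ofAdd_toAdd v, ← ofAdd_nsmul]; exact congrArg Multiplicative.ofAdd (funext fun t => by simp)
  · simp only [σ, MonoidHom.mk'_apply, map_pow, map_prod]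
    exact congrArg (· ^ _) (Fintype.prod_equiv (Equiv.mulLeft l) _ _ fun m => by simp).symm

theorem dich [Finite K] {Q : Type*} [Group Q] (π : K →* Q) {P A : Subgroup K} [hP : P.Normal] (h1 : A ≤ P) (h2 : ∀ x ∈ A, ∀ y ∈ A, Commute x y) (h3 : A.relIndex P ∣ r)
    (h4 : r ^ 2 ≤ Nat.card (P.map π)) : (∃ C ≤ P, C.Normal ∧ (∀ x ∈ C, ∀ y ∈ C, Commute x y) ∧ ∃ x ∈ C, π x ≠ 1) ∨
      (Nat.card (P.map π) = r ^ 2 ∧ (∀ x ∈ P, π x = 1 → ∀ y ∈ P, Commute x y) ∧ ∃ x ∈ P, ∃ y ∈ P, ¬ Commute x y) := by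
  refine or_iff_not_imp_left.2 fun h => ?_
  push Not at h
  have r1 := hr.out.one_lt
  have a0 : ∀ B : Subgroup K, B.relIndex P ≠ 0 := fun B => index_ne_zero_of_finite
  rw [← relIndex_ker] at h4 ⊢
  have hZ : P ⊓ centralizer P ≤ π.ker := h _ inf_le_left inferInstance fun x hx y hy => (hy.2 x hx.1 :)
  obtain ⟨g, x, hx, hg⟩ : ∃ g, ∃ x ∈ A, g * x * g⁻¹ ∉ A := by
    by_contra! e
    have := h4.trans ((relIndex_le_of_le_left (h A h1 ⟨fun x hx g => e g x hx⟩ h2) (a0 _)).trans (Nat.le_of_dvd hr.out.pos h3))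
    nlinarith
  let A' := A.map (MulAut.conj g).toMonoidHom
  have b1 : A'.relIndex P = A.relIndex P := by
    rw [← relIndex_map_map_of_injective A P (f := (MulAut.conj g).toMonoidHom) (MulAut.conj g).injective]; exact congrArg _ (Normal.map_conj_eq P g).symm
  have b2 : A ⊓ A' ≤ P ⊓ centralizer P := fun z hz => ⟨h1 hz.1, by
    have c1 : A ≤ P ⊓ centralizer {z} := le_inf h1 fun y hy => mem_centralizer_singleton_iff.2 (h2 y hy z hz.1)
    rcases (Nat.dvd_prime hr.out).1 ((relIndex_mul_relIndex _ _ _ c1 inf_le_left ▸ dvd_mul_left _ _ :).trans h3) with e | e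
    · exact fun y hy => mem_centralizer_singleton_iff.1 (relIndex_eq_one.1 e hy).2
    refine (hg (relIndex_eq_one.1 (?_ : A.relIndex (P ⊓ centralizer {z}) = 1) ⟨hP.conj_mem _ (h1 hx) g, ?_⟩)).elim
    · rw [← relIndex_mul_relIndex _ _ _ c1 inf_le_left, e] at h3
      exact Nat.eq_one_of_dvd_one (Nat.dvd_of_mul_dvd_mul_right hr.out.pos (by rwa [one_mul]))
    · obtain ⟨y, hy, rfl⟩ := hz.2
      exact mem_centralizer_singleton_iff.2 ((h2 x hx y hy).map (MulAut.conj g))⟩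
  have b3 : (A ⊓ A').relIndex P ≤ r ^ 2 := relIndex_inf_le.trans (by rw [b1, sq]; exact Nat.mul_le_mul (Nat.le_of_dvd hr.out.pos h3) (Nat.le_of_dvd hr.out.pos h3))
  have b4 := relIndex_mul_relIndex (A ⊓ A') (π.ker ⊓ P) P (le_inf (b2.trans hZ) (inf_le_left.trans h1)) inf_le_right
  rw [inf_relIndex_right] at b4
  have b5 : (A ⊓ A').relIndex (π.ker ⊓ P) = 1 := by
    have : (A ⊓ A').relIndex (π.ker ⊓ P) ≠ 0 := index_ne_zero_of_finite
    by_contra
    have : 2 ≤ (A ⊓ A').relIndex (π.ker ⊓ P) := by omega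
    nlinarith [pow_pos hr.out.pos 2]
  refine ⟨by rw [b5] at b4; omega, fun x hx e y hy => ((b2 (relIndex_eq_one.1 b5 ⟨e, hx⟩)).2 y hy).symm, ?_⟩
  by_contra! e
  rw [relIndex_eq_one.2 (h P le_rfl hP e)] at h4
  nlinarith

/-- `M` is induced on the image of `σ` by an element of `R` -/
def Ind {V Q : Type*} [Group V] [Group Q] (R : Subgroup Q) (σ : V →* Q) (M : V → V) : Prop := ∃ b ∈ R, ∀ v, b * σ v * b⁻¹ = σ (M v)
theorem lift_el [Finite K] {Q : Type*} [Group Q] [Finite Q] (π : K →* Q) {d : ℕ} {σ₀ : Multiplicative (Fin d → ZMod r) →* Q} (h0 : Function.Injective σ₀) (h1 : ∀ v, σ₀ v ∈ π.range)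
    (hd : 2 ≤ d) (hQ : ¬ r ^ (d + 1) ∣ Nat.card Q) (hab : ∀ P : Subgroup K, IsPGroup r P → ∃ A ≤ P, (∀ x ∈ A, ∀ y ∈ A, Commute x y) ∧ A.relIndex P ∣ r)
    (irr : ∀ B : Subgroup (Multiplicative (Fin d → ZMod r)), (∀ M, Ind π.range σ₀ M → ∀ v ∈ B, M v ∈ B) → B = ⊥ ∨ B = ⊤) :
    (∃ σ : Multiplicative (Fin d → ZMod r) →* K, Function.Injective σ ∧ ∀ M, Ind π.range σ₀ M → Ind ⊤ σ M) ∨
      (d = 2 ∧ ∃ x y z : K, z ≠ 1 ∧ z ^ r = 1 ∧ x * y = z * (y * x) ∧ Commute z x ∧ Commute z y ∧ ∀ t : ℕ, Ind π.range σ₀ (· ^ t) → ∃ g, g * z * g⁻¹ = z ^ (t * t)) := by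
  let e := MonoidHom.ofInjective h0
  have c0 : Nat.card σ₀.range = r ^ d := by rw [← Nat.card_congr e.toEquiv]; simp
  have c1 : ∀ a ∈ σ₀.range, ∀ b ∈ σ₀.range, Commute a b := by rintro _ ⟨a, rfl⟩ _ ⟨b, rfl⟩; exact (Commute.all a b).map σ₀
  have hE : IsPGroup r σ₀.range := .of_card c0
  obtain ⟨P, hP⟩ := H17.exists_isSyl r (σ₀.range.comap π)
  have e0 : (σ₀.range.comap π).map π = σ₀.range := map_comap_eq_self (by rintro _ ⟨v, rfl⟩; exact h1 v)
  have e1 : P.map π = σ₀.range := ((e0 ▸ hP.map π :).eq_of_le hE (e0 ▸ map_mono hP.le) le_rfl).symm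
  have hP' : H17.IsSyl r P ⊤ := H17.isSyl_of_max le_top hP.pgroup fun S hS h2 _ => (hP.eq_of_le hS h2 (map_le_iff_le_comap.1 (by
    obtain ⟨n, hn⟩ := IsPGroup.iff_card.1 (hS.map π)
    refine (eq_of_le_of_card_ge (e1 ▸ map_mono h2) ?_).ge
    rw [hn, c0]
    exact Nat.pow_le_pow_right hr.out.pos (by by_contra! h; exact hQ ((pow_dvd_pow r h).trans (hn ▸ card_subgroup_dvd_card _)))))).le
  let N := normalizer (P : Set K)
  have n1 := (hP'.mono (K := N) le_normalizer le_top).not_dvd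
  obtain ⟨L, hL⟩ := exists_right_complement'_of_coprime (N := P.subgroupOf N) (by
    obtain ⟨n, hn⟩ := IsPGroup.iff_card.1 (hP.pgroup.comap_subtype (K := N))
    exact hn ▸ ((Nat.Prime.coprime_iff_not_dvd hr.out).2 n1).pow_left n)
  let π' := π.comp N.subtype
  have e2 : (P.subgroupOf N).map π' = σ₀.range := by rw [← map_map, map_subgroupOf_eq_of_le le_normalizer, e1]
  have m1 : ∀ x ∈ P.subgroupOf N, π' x ∈ σ₀.range := fun x hx => e2.le ⟨x, hx, rfl⟩
  let α : N →* MulAut (Multiplicative (Fin d → ZMod r)) := (MulAut.congr e.symm).toMonoidHom.comp (σ₀.range.normalizerMonoidHom.comp (π'.codRestrict _ fun g => by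
    rw [← e1]; exact le_normalizer_map π ⟨g, g.2, rfl⟩))
  have a1 : ∀ g v, σ₀ (α g v) = π' g * σ₀ v * (π' g)⁻¹ := fun g v => MonoidHom.apply_ofInjective_symm h0 _
  have a2 : ∀ M, Ind π.range σ₀ M → ∃ l : L, ∀ v, α l v = M v := by
    rintro M ⟨_, ⟨g, rfl⟩, hg⟩
    obtain ⟨n, hn, h2⟩ := hP.frattini_mem (g := g) (le_normalizer_comap π (mem_normalizer_fintype (by rintro _ ⟨v, rfl⟩; exact ⟨_, (hg v).symm⟩)))
    obtain ⟨⟨s, l⟩, h3⟩ := hL.2 ⟨_, h2⟩
    refine ⟨l, fun v => h0 ?_⟩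
    have h4 : π' l = (π' s)⁻¹ * π n * π g := by rw [mul_assoc, ← map_mul, eq_inv_mul_iff_mul_eq, ← map_mul]; exact congrArg π' h3
    rw [a1, h4, mul_inv_rev, mul_assoc, mul_assoc, ← mul_assoc (σ₀ v), ← mul_assoc (π g), ← mul_assoc (π g), hg, ← mul_assoc,
      (c1 _ (mul_mem (inv_mem (m1 s s.2)) hn) _ ⟨_, rfl⟩).eq, mul_inv_cancel_right]
  obtain ⟨A, b1, b2, b3⟩ := hab P hP.pgroup
  rcases dich (r := r) π' (P := P.subgroupOf N) (A := A.subgroupOf N) (comap_mono b1) (fun x hx y hy => Subtype.ext (b2 x hx y hy)) (by rwa [relIndex_subgroupOf le_normalizer])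
    (by rw [e2, c0]; exact Nat.pow_le_pow_right hr.out.pos hd) with ⟨C, d1, d2, d3, x, hx, d4⟩ | ⟨d1, d2, x, hx, y, hy, d3⟩
  · let _ : CommGroup C := { (inferInstance : Group C) with mul_comm := fun a b => Subtype.ext (d3 a a.2 b b.2) }
    let f : C →* Multiplicative (Fin d → ZMod r) := e.symm.toMonoidHom.comp ((π'.comp C.subtype).codRestrict _ fun x => m1 x (d1 x.2))
    have f1 : ∀ x, σ₀ (f x) = π' x := fun x => MonoidHom.apply_ofInjective_symm h0 _
    obtain ⟨σ, s1, s2⟩ := avg ((hP.pgroup.comap_subtype (K := N)).to_le d1) (hL.symm.index_eq_card ▸ n1) ((MulAut.conjNormal (H := C)).comp L.subtype) (α.comp L.subtype) f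
      (fun l x => h0 (by rw [f1, MonoidHom.comp_apply α, a1, f1, ← map_inv, ← map_mul, ← map_mul]; rfl)) ⟨⟨x, hx⟩, fun e => d4 (by rw [← f1 ⟨x, hx⟩, e, map_one])⟩
      fun B hB => irr B fun M hM v hv => let ⟨l, hl⟩ := a2 M hM; hl v ▸ hB l v hv
    refine .inl ⟨N.subtype.comp (C.subtype.comp σ), N.subtype_injective.comp (C.subtype_injective.comp s1), fun M hM => ?_⟩
    obtain ⟨l, hl⟩ := a2 M hM
    exact ⟨l.1, trivial, fun v => (congrArg (·.1.1) (hl v ▸ s2 l v)).symm⟩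
  obtain ⟨z, z0, z1⟩ : ∃ z, x * y = z * (y * x) ∧ z ∈ P.subgroupOf N := ⟨x * y * x⁻¹ * y⁻¹, by group, mul_mem (mul_mem (mul_mem hx hy) (inv_mem hx)) (inv_mem hy)⟩
  have z2 := d2 _ z1 (by have := congrArg π' z0; rwa [map_mul, map_mul, map_mul, (c1 _ (m1 x hx) _ (m1 y hy)).eq, right_eq_mul] at this)
  refine .inr ⟨Nat.pow_right_injective hr.out.two_le (c0.symm.trans (e2 ▸ d1)), x, y, z, fun e => d3 (by simpa [show z = 1 from Subtype.ext e, commute_iff_eq] using z0), ?_,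
    congrArg Subtype.val z0, (z2 x hx).map N.subtype, (z2 y hy).map N.subtype, fun t ht => ?_⟩
  · have := heis z0 (z2 x hx) (z2 y hy) r 1
    obtain ⟨v, hv⟩ := m1 x hx
    rw [pow_one, mul_one, (d2 _ (pow_mem hx r) (by
      rw [map_pow, ← hv, ← map_pow, show v ^ r = 1 by rw [← ofAdd_toAdd v, ← ofAdd_nsmul]; exact congrArg Multiplicative.ofAdd (funext fun t => by simp), map_one]) y hy).eq] at this
    exact congrArg Subtype.val (right_eq_mul.1 this)
  obtain ⟨l, hl⟩ := a2 _ ht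
  have k : ∀ x ∈ P.subgroupOf N, ∃ u ∈ P.subgroupOf N, l * x * l.1⁻¹ = x ^ t * u ∧ ∀ y ∈ P.subgroupOf N, Commute u y := fun x hx => by
    have k1 : (x ^ t)⁻¹ * (l * x * l.1⁻¹) ∈ P.subgroupOf N := mul_mem (inv_mem (pow_mem hx t)) (Normal.conj_mem inferInstance x hx l)
    obtain ⟨v, hv⟩ := m1 x hx
    exact ⟨_, k1, by simp, d2 _ k1 (by rw [map_mul, map_mul, map_mul, map_inv, map_pow, ← hv, map_inv, ← a1, hl, map_pow, inv_mul_cancel])⟩
  obtain ⟨u, u0, u1, u2⟩ := k x hx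
  obtain ⟨w, w0, w1, w2⟩ := k y hy
  refine ⟨l.1, congrArg Subtype.val (show l * z * l.1⁻¹ = z ^ (t * t) from mul_right_cancel (b := l * y * l.1⁻¹ * (l * x * l.1⁻¹)) ?_)⟩
  rw [conj_mul, conj_mul, ← z0, ← conj_mul, ← conj_mul, u1, w1, mul_assoc, ← mul_assoc u, (u2 _ (pow_mem hy t)).eq, mul_assoc, ← mul_assoc, heis z0 (z2 x hx) (z2 y hy),
    mul_assoc _ w, ← mul_assoc w, (w2 _ (pow_mem hx t)).eq, (u2 _ w0).eq]
  simp only [mul_assoc]

end H12.S7
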