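import Cfsg.Agent.H12.St
import Cfsg.Agent.H12.BT
import Cfsg.Agent.H1.SchurZassenhaus
/-! The Steinberg character at semisimple elements: `Cov.St_LJ` (an element of `L_K` in no smaller parabolic), `Cov.St_ss`
(`St g = ± |C(g)|_p` for `p'`-elements `g`). -/

set_option autoImplicit false

namespace H12
open Cfsg Cfsg.Lie H13 H5 Finset
open scoped Classical Pointwise

variable {D : ChevalleyDatum} [G : Good D] {F : Type*} [Field F] {Γ : Type*} [Group Γ]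

omit G in
theorem alt_Icc {ι : Type*} [Fintype ι] [DecidableEq ι] {A B : Finset ι} (h : A ⊆ B) :
    ∑ M : Finset ι, (if A ⊆ M ∧ M ⊆ B then (-1 : ℂ) ^ #M else 0) = if A = B then (-1) ^ #A else 0 := by
  split_ifs with e
  · subst e
    rw [sum_eq_single A (fun M _ hM => if_neg fun a => hM (a.2.antisymm a.1)) (by simp), if_pos ⟨h, h⟩]
  obtain ⟨j, hj, hj'⟩ := exists_of_ssubset (h.ssubset_of_ne e)
  refine sum_involution (fun M _ => if j ∈ M then M.erase j else insert j M) (fun M _ => ?_) (fun M _ _ => ?_) (by simp) fun M _ => ?_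
  · by_cases a : j ∈ M
    · simp only [a, if_true, subset_erase, hj', not_false_eq_true, and_true, ← subset_insert_iff, insert_eq_of_mem hj]
      split_ifs
      · rw [← card_erase_add_one a, pow_succ]; ring
      · simp
    · simp only [a, if_false, subset_insert_iff_of_notMem hj', insert_subset_iff, hj, true_and, card_insert_of_notMem a]
      split_ifs
      · ring
      · simp
  · split_ifs with a
    · exact fun e => by rw [← e] at a; simp at a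
    · exact fun e => a (e ▸ mem_insert_self _ _)
  · by_cases a : j ∈ M <;> simp [a]

theorem inJ_of_sign {M : Set (I D)} {u : W D} {r : Φ D} (hr : IsPos r)
    (h : (∀ j, rc r j ≠ 0 → IsPos (u • sim j)) ∨ ∀ j, rc r j ≠ 0 → ¬ IsPos (u • sim j)) (hM : InJ M (u • r)) :
    InJ {j | InJ M (u • sim j)} r := fun j hj => by_contra fun h0 => hj fun m hm => by
  have e := hM m hm
  rw [rc_smul, Finset.sum_apply] at e
  simp only [Pi.smul_apply, smul_eq_mul] at e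
  rcases h with h | h
  · exact (mul_eq_zero.1 ((sum_eq_zero_iff_of_nonneg fun k _ => (eq_or_ne (rc r k) 0).elim (fun a => by simp [a])
      fun a => mul_nonneg (hr.rc_nonneg k) ((h k a).rc_nonneg m)).1 e j (mem_univ _))).resolve_left h0
  · exact (mul_eq_zero.1 ((sum_eq_zero_iff_of_nonpos fun k _ => (eq_or_ne (rc r k) 0).elim (fun a => by simp [a])
      fun a => mul_nonpos_of_nonneg_of_nonpos (hr.rc_nonneg k) (rc_nonpos (h k a) m)).1 e j (mem_univ _))).resolve_left h0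
theorem InJ.smul_of {K M : Set (I D)} {u : W D} (h : ∀ k ∈ K, InJ M (u • sim k)) {r : Φ D} (hr : InJ K r) : InJ M (u • r) := fun m hm => by
  rw [rc_smul, Finset.sum_apply]
  refine sum_eq_zero fun k _ => ?_
  by_cases a : k ∈ K
  · simp [h k a m hm]
  · simp [hr k a]
theorem conj_mem_WJ {K M : Set (I D)} {u : W D} (h : ∀ k ∈ K, InJ M (u • sim k)) {c : W D} (hc : c ∈ WJ K) : u * c * u⁻¹ ∈ WJ M :=
  WJ_induction (P := fun c => u * c * u⁻¹ ∈ WJ M) (by simpa using one_mem _) (fun k hk c _ ih => by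
    simpa [← conj_rW, sW, mul_assoc] using mul_mem (h k hk).rW_mem ih) hc
theorem kilmoyer {K M : Set (I D)} {w c c' : W D} (h : MinK K w⁻¹) (hc : c ∈ WJ K) (hc' : c' ∈ WJ M) (e : c * w = w * c') :
    c ∈ WJ (K ∩ {k | InJ M (w⁻¹ • sim k)}) := mem_WJ_iff.2 fun r hr => by
  have h1 := mem_WJ_iff.1 hc r hr
  obtain ⟨h2, h3⟩ := mem_inv.1 hr
  have h4 : InJ M (w⁻¹ • r) := mem_WJ_iff.1 hc' _ (mem_inv.2 ⟨h.isPos h2 h1, by
    rw [← mul_smul, show c' * w⁻¹ = w⁻¹ * c by rw [eq_inv_mul_iff_mul_eq, ← mul_assoc, ← e]; simp, mul_smul, ← isPos_ng, ← smul_ng]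
    exact h.isPos (isPos_ng.2 h3) (inJ_ng.2 ((inJ_smul hc).2 h1))⟩)
  have h5 := inJ_of_sign h2 (Or.inl fun j hj => h j (by_contra fun a => hj (h1 j a))) h4
  exact fun j hj => (not_and_or.1 hj).elim (h1 j) (h5 j)

namespace StSys
variable {S : StSys D F Γ} {θ : Γ →* GL D.Idx F}

theorem Cov.cell_rel (hθ : S.Cov θ) {K M : Set (I D)} {w : W D} (h1 : MinK K w⁻¹) (h2 : MinK M w) {n z : Γ} (hn : S.Rep n w)
    (hz : z ∈ S.P K) (hz' : n⁻¹ * z * n ∈ S.P M) : ∃ c ∈ WJ K, ∃ c' ∈ WJ M, c * w = w * c' ∧ S.Cell c z ∧ S.Cell c' (n⁻¹ * z * n) := by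
  obtain ⟨c, hc, h3⟩ := mem_P.1 hz
  obtain ⟨c', hc', h4⟩ := mem_P.1 hz'
  refine ⟨c, hc, c', hc', hθ.cell_unique (g := z * n) ?_ ?_, h3, h4⟩
  · simpa using (hn.cell.inv.mul_minK h3.inv h1 (inv_mem hc)).inv
  · simpa [mul_assoc] using hn.cell.mul_minK h4 h2 hc'
theorem Rep.mem_P {J : Set (I D)} {n : Γ} {w : W D} (hn : S.Rep n w) (hw : w ∈ WJ J) : n ∈ S.P J := StSys.mem_P.2 ⟨w, hw, hn.cell⟩

theorem UJ_anti {J K : Set (I D)} (h : J ⊆ K) : S.UJ K ≤ S.UJ J :=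
  S.gen_mono fun _ hr => And.intro hr.1 fun a => hr.2 fun i hi => a i fun a' => hi (h a')

theorem Cov.key_min (hθ : S.Cov θ) {K M : Set (I D)} {g y : Γ} (hg : g ∈ S.P K)
    (hm : ∀ a ∈ S.P K, ∀ J ⊆ K, a⁻¹ * g * a ∈ S.P J → K ⊆ J) {u : W D} (h1 : MinK M u) (h2 : S.Cell u y) (h3 : y⁻¹ * g * y ∈ S.P M) :
    {j | InJ K (u • sim j)} ⊆ M ∧ y⁻¹ * g * y ∈ S.P {j | InJ K (u • sim j)} := by
  obtain ⟨v, hv, v', hv', a1, a2⟩ := exists_dmin K M u
  obtain ⟨b, hb, n, hn, b', hb', rfl⟩ := h2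
  obtain ⟨m, hm1⟩ := exists_rep (S := S) v
  obtain ⟨m', hm2⟩ := exists_rep (S := S) v'
  have p1 : b * m⁻¹ ∈ S.P K := mul_mem (B_le_P _ hb) (inv_mem (hm1.mem_P hv))
  have p2 : n⁻¹ * (b⁻¹ * g * b) * n ∈ S.P M := by simpa [mul_assoc] using mul_mem (mul_mem (B_le_P _ hb') h3) (inv_mem (B_le_P _ hb'))
  obtain ⟨c, hc, c', hc', e, a3, -⟩ := hθ.cell_rel a1 a2 ((hm1.mul hn).mul hm2) (mul_mem (mul_mem (inv_mem p1) hg) p1)
    (by simpa [mul_assoc] using mul_mem (mul_mem (inv_mem (hm2.mem_P hv')) p2) (hm2.mem_P hv'))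
  have a4 : ∀ k ∈ K, InJ M ((v * u * v')⁻¹ • sim k) := fun k hk =>
    (hm _ p1 _ Set.inter_subset_left (mem_P.2 ⟨c, kilmoyer a1 hc hc' e, a3⟩) hk).2
  have a5 : v * u * v' = u := a2.eq_of_mul h1 (mul_mem (conj_mem_WJ a4 (inv_mem hv)) (inv_mem hv')) (by simp [mul_assoc])
  rw [a5] at a1 a4
  have a6 : ∀ k ∈ K, InJ {j | InJ K (u • sim j)} (u⁻¹ • sim k) := fun k hk =>
    inJ_of_sign (a1 k hk) (Or.inl fun j hj => h1 j (by_contra fun a => hj (a4 k hk j a))) (by simpa using inJ_sim.2 hk)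
  refine ⟨fun j hj => inJ_sim.1 (by simpa using InJ.smul_of a4 hj), ?_⟩
  obtain ⟨d, hd, d', -, e', -, a7⟩ := hθ.cell_rel a1 h1 hn (mul_mem (mul_mem (inv_mem (B_le_P _ hb)) hg) (B_le_P _ hb)) p2
  have a8 : d' ∈ WJ {j | InJ K (u • sim j)} := by simpa [mul_assoc, e'] using conj_mem_WJ a6 hd
  simpa [mul_assoc] using mul_mem (mul_mem (inv_mem (B_le_P _ hb')) (mem_P.2 ⟨_, a8, a7⟩)) (B_le_P _ hb')

variable [Fintype Γ]
theorem Cov.cnt_all (hθ : S.Cov θ) (hT : S.T = ⊤) (M : Set (I D)) (g : Γ) :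
    #{x | x⁻¹ * g * x ∈ S.P M} * Nat.card S.B = #{y | y⁻¹ * g * y ∈ S.P M ∧ ∃ u, MinK M u ∧ S.Cell u y} * Nat.card (S.P M) := by
  refine card_mul_eq_card_mul (fun x y => x⁻¹ * y ∈ S.P M) (fun x hx => ?_) fun y hy => ?_
  · have h2 := (mem_filter.1 hx).2
    obtain ⟨u, y, h3, h4, h5⟩ := exists_cell_minK (S := S) M (x := x) (by simp [hT])
    rw [← card_coset S.B y]; congr 1; ext z
    simp only [mem_bipartiteAbove, mem_filter, mem_univ, true_and]
    refine ⟨fun ⟨⟨_, u', a1, a2⟩, a3⟩ => hθ.mem_B_of_minK h4 a2 h3 a1 (by simpa [mul_assoc] using mul_mem (inv_mem h5) a3), fun a => ?_⟩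
    have a2 : x⁻¹ * z ∈ S.P M := by simpa [mul_assoc] using mul_mem h5 (B_le_P _ a)
    exact ⟨⟨by simpa [mul_assoc] using mul_mem (mul_mem (inv_mem a2) h2) a2, u, h3, by simpa using h4.mul_right a⟩, a2⟩
  · have h2 := (mem_filter.1 hy).2.1
    rw [← card_coset (S.P M) y]; congr 1; ext z
    simp only [mem_bipartiteBelow, mem_filter, mem_univ, true_and]
    exact ⟨fun a => by simpa using inv_mem a.2, fun a => ⟨by simpa [mul_assoc] using mul_mem (mul_mem (inv_mem a) h2) a, by simpa using inv_mem a⟩⟩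

theorem Cov.St_LJ (hθ : S.Cov θ) (hT : S.T = ⊤) {K : Set (I D)} {g : Γ} (hg : g ∈ S.LJ K)
    (hm : ∀ a ∈ S.P K, ∀ J ⊆ K, a⁻¹ * g * a ∈ S.P J → K ⊆ J) :
    ∃ k : ℕ, S.St g = (-1) ^ k * Nat.card (S.UJ K ⊓ Subgroup.centralizer {g} :) := by
  have hg' : g ∈ S.P K := UJ_sup_LJ (S := S) K ▸ Subgroup.mem_sup_right hg
  let κ : W D → Finset (I D) := fun u => univ.filter fun j => InJ K (u • sim j)
  have hκ : ∀ u, (κ u : Set (I D)) = {j | InJ K (u • sim j)} := fun u => by ext; simp [κ]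
  let A : W D → Finset (I D) := fun u => univ.filter fun j => IsPos (u • sim j)
  set w := w0J K * w0 D with hw
  have e1 : ∀ u, κ u = A u ↔ u = w := fun u => by
    refine ⟨fun e => ?_, ?_⟩
    · have : w0 D * w0J K * u = 1 := eq_one_of_pos fun j => by
        have e' : InJ K (u • sim j) ↔ IsPos (u • sim j) := by simpa [κ, A] using Finset.ext_iff.1 e j
        rw [mul_smul, mul_smul, isPos_w0]
        by_cases a : InJ K (u • sim j)
        · rw [isPos_w0J a, not_not]; exact e'.1 a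
        · rw [← isPos_ng, ← smul_ng]; exact isPos_smul_of_not_inJ (w0J_mem K) (mt inJ_ng.1 a) (isPos_ng.2 (mt e'.2 a))
      rw [eq_inv_of_mul_eq_one_right this, hw, mul_inv_rev, w0J_inv, w0_inv]
    · rintro rfl
      have a0 : ∀ j, ¬ IsPos (w0 D • sim j) := fun j a => isPos_w0.1 a (isPos_sim j)
      refine filter_congr fun j _ => ?_
      rw [hw, mul_smul, inJ_smul (w0J_mem K)]
      refine ⟨fun a => (isPos_w0J a).2 (a0 j), fun a => by_contra fun a' => ?_⟩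
      have := isPos_smul_of_not_inJ (w0J_mem K) (mt inJ_ng.1 a') (isPos_ng.2 (a0 j))
      rw [smul_ng, isPos_ng] at this; exact this a
  have m1 : MinK (κ w) w := fun j hj => (mem_filter.1 ((e1 w).2 rfl ▸ hj : j ∈ A w)).2
  obtain ⟨n, hn⟩ := exists_rep (S := S) w
  have e2 : n⁻¹ * g * n ∈ S.P (κ w) := by
    have a : ∀ k ∈ K, InJ (κ w) (w⁻¹ • sim k) := fun k hk => by
      have a1 := inJ_of_sign (M := K) (u := w0 D) (r := w⁻¹ • sim k) (by
        simp [hw, mul_smul, isPos_w0, isPos_w0J (inJ_sim.2 hk), isPos_sim]) (Or.inr fun j _ => by simp [isPos_w0, isPos_sim])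
        (by simpa [hw, ← mul_smul, ← mul_assoc] using (inJ_smul (w0J_mem K)).2 (inJ_sim.2 hk))
      simpa only [hκ, hw, mul_smul, inJ_smul (w0J_mem K)] using a1
    have : S.LJ K ≤ (S.P (κ w)).comap (MulAut.conj n⁻¹).toMonoidHom := sup_le (S.gen_le.2 fun r hr t => by
      obtain ⟨c, hc⟩ := hn.inv.act.conj_x r
      exact (hc t ▸ x_mem_P (Or.inr (InJ.smul_of a hr)) _ : n⁻¹ * S.x r t * n⁻¹⁻¹ ∈ S.P (κ w))) (fun h hh => by
      simpa using B_le_P _ (S.H_le_B (hn.act.conj_mem_H' hh)))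
    simpa using this hg
  have e3 : S.Um w⁻¹ = S.UJ K := congrArg S.gen (Set.ext fun r => by
    simp only [mem_coe, mem_inv, hw, mul_inv_rev, w0_inv, w0J_inv, mul_smul, isPos_w0, not_not, Set.mem_setOf_eq]
    exact and_congr_right fun hr => ⟨fun a a' => (isPos_w0J a').1 a hr, fun a => isPos_smul_of_not_inJ (w0J_mem K) a hr⟩)
  have e4 : #{y | S.Cell w y ∧ y⁻¹ * g * y ∈ S.P (κ w)} = Nat.card S.B * Nat.card (S.UJ K ⊓ Subgroup.centralizer {g} :) := by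
    rw [← Nat.card_prod, ← Fintype.card_subtype, ← Nat.card_eq_fintype_card]
    refine (Nat.card_eq_of_bijective (fun p => ⟨p.2 * n * p.1, (hn.cell.mul_left (S.U_le_B (S.Um_le_U _ (e3.ge p.2.2.1)))).mul_right p.1.2, by
      have : ∀ z, g * (p.2 * z) = p.2 * (g * z) := fun z => by rw [← mul_assoc, ← Subgroup.mem_centralizer_singleton_iff.1 p.2.2.2, mul_assoc]
      simpa [mul_assoc, this] using mul_mem (mul_mem (inv_mem (B_le_P _ p.1.2)) e2) (B_le_P _ p.1.2)⟩)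
      ⟨fun p p' e => ?_, fun y => ?_⟩).symm
    · obtain ⟨h1, h2⟩ := hθ.bnu_unique hn.inv (inv_mem p.1.2) (inv_mem p'.1.2) (inv_mem (e3.ge p.2.2.1)) (inv_mem (e3.ge p'.2.2.1))
        (by simpa [mul_assoc] using congrArg (·.1⁻¹) e)
      exact Prod.ext (Subtype.ext (inv_injective h1)) (Subtype.ext (inv_injective h2))
    · obtain ⟨y, h1, h2⟩ := y
      obtain ⟨b, hb, a, ha, e⟩ := h1.inv.exists_bnu hn.inv
      obtain rfl : y = a⁻¹ * n * b⁻¹ := by rw [← inv_inv y, e]; simp [mul_assoc]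
      have a1 : a * (g * a⁻¹ * g⁻¹) ∈ S.Um w⁻¹ := mul_mem ha (e3 ▸ conj_mem_of_normalizer (P_le_normalizer _ hg') (e3 ▸ inv_mem ha))
      have a2 : n⁻¹ * (a * (g * a⁻¹ * g⁻¹)) * n ∈ S.P (κ w) := by
        simpa [mul_assoc] using mul_mem (mul_mem (mul_mem (inv_mem (B_le_P _ hb)) h2) (B_le_P _ hb)) (inv_mem e2)
      obtain ⟨c, hc, a3⟩ := mem_P.1 a2
      have a4 := hθ.cell_unique (hn.cell.mul_left (S.U_le_B (S.Um_le_U _ a1))) (by simpa [mul_assoc] using hn.cell.mul_minK a3 m1 hc)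
      rw [left_eq_mul] at a4
      have a5 := hθ.eq_one_of_V_B (by simpa using hn.inv.conj_Um a1) (cell_one.1 (a4 ▸ a3))
      refine ⟨(⟨b⁻¹, inv_mem hb⟩, ⟨a⁻¹, e3.le (inv_mem ha), Subgroup.mem_centralizer_singleton_iff.2 ?_⟩), rfl⟩
      rw [mul_eq_one_iff_eq_inv, inv_mul_eq_iff_eq_mul, mul_inv_cancel, mul_eq_one_iff_inv_eq] at a5
      exact eq_mul_inv_iff_mul_eq.1 a5
  refine ⟨#(κ w), ?_⟩
  have h : ∀ M : Finset (I D), (-1) ^ #M * fixedPointCharacter (S.P M) g =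
      (∑ y, if y⁻¹ * g * y ∈ S.P M ∧ ∃ u, MinK M u ∧ S.Cell u y then (-1) ^ #M else 0) / Nat.card S.B := fun M => by
    rw [← sum_filter, sum_const, nsmul_eq_mul, mul_comm _ ((-1 : ℂ) ^ _), mul_div_assoc, fpc_apply]
    congr 1
    rw [div_eq_div_iff card_ne_zero_complex card_ne_zero_complex]
    exact_mod_cast hθ.cnt_all hT M g
  rw [St, sum_congr rfl fun M _ => h M, ← sum_div, sum_comm, div_eq_iff card_ne_zero_complex, mul_assoc, mul_comm _ (Nat.card S.B : ℂ),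
    ← Nat.cast_mul, ← e4, card_filter (fun y => S.Cell w y ∧ _), Nat.cast_sum, mul_sum]
  refine sum_congr rfl fun y _ => ?_
  obtain ⟨u, hu⟩ := exists_cell (S := S) (g := y) (by simp [hT])
  have h3 : ∀ M : Finset (I D), (∃ u, MinK M u ∧ S.Cell u y) ↔ M ⊆ A u := fun M =>
    ⟨fun ⟨_, a1, a2⟩ k hk => mem_filter.2 ⟨mem_univ _, hθ.cell_unique a2 hu ▸ a1 k hk⟩, fun a => ⟨u, fun k hk => (mem_filter.1 (a hk)).2, hu⟩⟩
  have h4 : S.Cell w y ↔ u = w := ⟨hθ.cell_unique hu, fun a => a ▸ hu⟩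
  simp only [h3, h4]
  by_cases e : ∃ M : Finset (I D), y⁻¹ * g * y ∈ S.P M ∧ M ⊆ A u
  · have h5 : ∀ M : Finset (I D), y⁻¹ * g * y ∈ S.P M → M ⊆ A u → κ u ⊆ M ∧ y⁻¹ * g * y ∈ S.P (κ u) := fun M a1 a2 => by
      rw [← coe_subset, hκ]; exact hθ.key_min hg' hm (fun k hk => (mem_filter.1 (a2 hk)).2) hu a1
    obtain ⟨M, a1, a2⟩ := e
    obtain ⟨a3, a4⟩ := h5 M a1 a2
    have h6 : ∀ M : Finset (I D), (y⁻¹ * g * y ∈ S.P M ∧ M ⊆ A u) ↔ (κ u ⊆ M ∧ M ⊆ A u) := fun M =>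
      and_congr_left fun a => ⟨fun a' => (h5 M a' a).1, fun a' => P_mono (coe_subset.2 a') a4⟩
    simp only [h6, alt_Icc (a3.trans a2), e1]
    by_cases a : u = w
    · subst a; simp [a4]
    · simp [a]
  · rw [sum_eq_zero fun M _ => if_neg fun a => e ⟨M, a⟩, if_neg fun a : u = w ∧ _ => e ⟨κ w, a.2, a.1 ▸ ((e1 w).2 rfl).le⟩]; simp

theorem St_conj (a g : Γ) : S.St (a * g * a⁻¹) = S.St g := sum_congr rfl fun K _ => by
  rw [fpc_apply, fpc_apply, card_equiv (Equiv.mulLeft a⁻¹) (t := {x | x⁻¹ * g * x ∈ S.P K}) fun x => by simp [mul_assoc]]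

theorem Cov.St_ss [Finite F] (p : ℕ) [hp : Fact p.Prime] [CharP F p] (hθ : S.Cov θ) (hT : S.T = ⊤) (hH : ¬ p ∣ Nat.card S.H) {g : Γ}
    (hg : ¬ p ∣ orderOf g) : ∃ k : ℕ, S.St g = (-1) ^ k * (p ^ (Nat.card (Subgroup.centralizer {g})).factorization p : ℕ) := by
  obtain ⟨Q⟩ : Nonempty (Sylow p (Subgroup.centralizer {g})) := inferInstance
  let Q' := Q.1.map (Subgroup.centralizer {g}).subtype
  have hQ : IsPGroup p Q' := Q.2.map _
  have hc : ∀ x ∈ Q', g * x * g⁻¹ = x := by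
    rintro _ ⟨x, -, rfl⟩; exact mul_inv_eq_iff_eq_mul.2 (Subgroup.mem_centralizer_singleton_iff.1 x.2).symm
  have hU : ∀ K, IsPGroup p (S.UJ K) := fun K => (hθ.isPGroup_U p).to_le (S.gen_mono fun _ h => h.1)
  have h1 : ∃ K : Finset (I D), ∃ a : Γ, (∀ x ∈ Q', a * x * a⁻¹ ∈ S.UJ K) ∧ a * g * a⁻¹ ∈ S.P K := by
    by_cases h0 : Q' = ⊥
    · exact ⟨univ, 1, fun x hx => by simp [Subgroup.mem_bot.1 (h0 ▸ hx)], by simp [P_univ, hT]⟩
    obtain ⟨a, -, ha⟩ := hθ.exists_conj_U p hH (A := ⊤) le_top hT.ge le_top hQ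
    obtain ⟨a, -, J, -, h2, h3⟩ := hθ.borel_tits h0 ⟨a, by simp [hT], ha⟩
    exact ⟨univ.filter (· ∈ J), a, by simpa using h2, by simpa using h3 g (by simp [hT]) fun x hx => (hc x hx).symm ▸ hx⟩
  obtain ⟨K, ⟨a, h2, h3⟩, h4⟩ := exists_minimalFor_of_wellFoundedLT _ id h1
  have hP := P_le_normalizer (S := S) K
  obtain ⟨u, hu, h5⟩ := H1.exists_conj_le_of_le_sup (S.UJ K) (Subgroup.zpowers (a * g * a⁻¹)) (S.LJ K)
    (le_sup_right.trans ((UJ_sup_LJ _).le.trans hP)) (by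
      obtain ⟨k, hk⟩ := IsPGroup.iff_card.1 (hU K)
      rw [hk, Nat.card_zpowers, show orderOf (a * g * a⁻¹) = orderOf g from (MulAut.conj a).orderOf_eq g]
      exact ((Nat.Prime.coprime_iff_not_dvd hp.out).2 hg).pow_left k) (Or.inr inferInstance)
    (by rw [UJ_sup_LJ]; exact Subgroup.zpowers_le.2 h3)
  have hu' : u ∈ S.P K := UJ_sup_LJ (S := S) K ▸ Subgroup.mem_sup_left hu
  have h6 : u * a * g * (u * a)⁻¹ ∈ S.LJ K := by
    simpa [mul_assoc] using h5 (Subgroup.smul_mem_pointwise_smul _ _ _ (Subgroup.mem_zpowers _))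
  obtain ⟨k, hk⟩ := hθ.St_LJ hT h6 fun b hb J hJ h => by
    have := h4 (j := univ.filter (· ∈ J)) ⟨b⁻¹ * (u * a), fun x hx => UJ_anti (K := K) (by simpa using hJ) (by
        simpa [mul_assoc] using conj_mem_of_normalizer (hP (mul_mem (inv_mem hb) hu')) (h2 x hx)), by simpa [mul_assoc] using h⟩
      fun j hj => hJ (by simpa using hj)
    exact fun j hj => by simpa using this hj
  refine ⟨k, ?_⟩
  rw [← St_conj (u * a), hk, ← Q.card_eq_multiplicity]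
  congr 2
  let R := ((S.UJ K).comap (MulAut.conj (u * a)).toMonoidHom).subgroupOf (Subgroup.centralizer {g})
  have h7 : R = Q := Q.is_maximal' (((hU K).comap_of_injective _ (MulAut.conj _).injective).comap_of_injective _ Subtype.val_injective)
    fun x hx => by simpa [R, Subgroup.mem_subgroupOf, mul_assoc] using mul_mem (mul_mem hu (h2 x ⟨x, hx, rfl⟩)) (inv_mem hu)
  rw [← h7]
  refine (Nat.card_eq_of_bijective (fun x : R => (⟨u * a * x.1.1 * (u * a)⁻¹, x.2, Subgroup.mem_centralizer_singleton_iff.2 (by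
    have : ∀ z, g * (x.1.1 * z) = x.1.1 * (g * z) := fun z => by rw [← mul_assoc, ← Subgroup.mem_centralizer_singleton_iff.1 x.1.2, mul_assoc]
    simp [mul_assoc, this])⟩ : (S.UJ K ⊓ Subgroup.centralizer {u * a * g * (u * a)⁻¹} :))) ⟨fun x y e => ?_, fun y => ?_⟩).symm
  · exact Subtype.ext (Subtype.ext (by simpa using e))
  · have := Subgroup.mem_centralizer_singleton_iff.1 y.2.2
    refine ⟨⟨⟨(u * a)⁻¹ * y * (u * a), Subgroup.mem_centralizer_singleton_iff.2 ?_⟩, by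
      simpa [R, Subgroup.mem_subgroupOf, mul_assoc] using y.2.1⟩, Subtype.ext (by simp [mul_assoc])⟩
    simpa [mul_assoc] using congrArg (fun z => (u * a)⁻¹ * z * (u * a)) this

end StSys
end H12
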