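import Cfsg.Agent.H12.Hecke
import Cfsg.Agent.H7.Omega
import Cfsg.Agent.H12.St
import Mathlib.LinearAlgebra.Matrix.Rank
import Mathlib.FieldTheory.Finite.GaloisField
/-! Tits' deformation argument for the number of constituents of `1_B^G`: it does not depend on the cell system over a given
Coxeter system with equal parameters (`CellSys.card_eq`), so it is the class number of `W` (`StSys.Cov.card_constituents`). -/

set_option autoImplicit false

namespace H12
open Cfsg H13 H7 H5 Finset MonoidAlgebra Polynomial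
open scoped Classical Matrix ComplexConjugate

theorem rank_semicont {m n : Type*} [Fintype m] [Fintype n] (A : Matrix m n ℂ[X]) (t : ℂ) :
    {s | (A.map (evalRingHom s)).rank < (A.map (evalRingHom t)).rank}.Finite := by
  set f := (A.map (evalRingHom t)).mulVecLin
  let b := Module.finBasis ℂ (LinearMap.range f)
  obtain ⟨g, hg⟩ := (LinearMap.range f).subtype.exists_leftInverse_of_injective (Submodule.ker_subtype _)
  choose y hy using fun i => (b i).2
  let P := LinearMap.toMatrix' (b.equivFun.toLinearMap ∘ₗ g)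
  let Q : Matrix n _ ℂ := Matrix.of fun j i => y i j
  have h1 : P * A.map (evalRingHom t) * Q = 1 := by
    ext i j
    have : (P *ᵥ f (y j)) i = (1 : Matrix _ _ ℂ) i j := by
      rw [hy, LinearMap.toMatrix'_mulVec, LinearMap.comp_apply, show g (b j) = b j from LinearMap.congr_fun hg _]
      simp [Matrix.one_apply, Finsupp.single_apply, eq_comm]
    rw [← this, Matrix.mulVecLin_apply, Matrix.mulVec_mulVec]; rfl
  have h2 : ∀ s, eval s (P.map C * A * Q.map C).det = (P * A.map (evalRingHom s) * Q).det := fun s => by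
    rw [← coe_evalRingHom, RingHom.map_det, RingHom.mapMatrix_apply, Matrix.map_mul, Matrix.map_mul, Matrix.map_map, Matrix.map_map]
    congr 3 <;> ext <;> simp
  refine (finite_setOf_isRoot (p := (P.map C * A * Q.map C).det) fun e => by simpa [e] using (h2 t).trans (congrArg _ h1)).subset fun s hs => by_contra fun h => ?_
  have := Matrix.rank_of_det_ne_zero (A := P * A.map (evalRingHom s) * Q) (h2 s ▸ h)
  rw [Fintype.card_fin] at this
  exact hs.not_ge (this.ge.trans ((Matrix.rank_mul_le_left _ _).trans (Matrix.rank_mul_le_right _ _)))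

variable {G ι W : Type*} [Group G] [Group W] [Fintype W] (S : InvGen ι W)

section generic
variable {A A' : Type*} [CommRing A] [CommRing A']
/-- left multiplication by a generator in the generic Hecke algebra -/
noncomputable def Lm (t : A) (i : ι) : Matrix W W A := fun v w => if S.len w ≤ S.len (S.σ i * w) then (if v = S.σ i * w then 1 else 0) else
  (if v = S.σ i * w then t else 0) + if v = w then t - 1 else 0
/-- right multiplication by a generator in the generic Hecke algebra -/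
noncomputable def Rm (t : A) (i : ι) : Matrix W W A := fun v w => if S.len w ≤ S.len (w * S.σ i) then (if v = w * S.σ i then 1 else 0) else
  (if v = w * S.σ i then t else 0) + if v = w then t - 1 else 0
/-- two sided multiplication along a word -/
noncomputable def Km (t : A) : List ι → Matrix W W A
  | [] => 1
  | i :: l => Lm S t i * (Rm S t i * Km t l)
/-- Higman's map -/
noncomputable def Hig (t : A) : Matrix W W A := ∑ w, t ^ (univ.sup S.len - S.len w) • Km S t (S.exists_reduced w).choose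
/-- the commutator map -/
noncomputable def Com (t : A) : Matrix (ι × W) W A := fun p w => (Lm S t p.1 - Rm S t p.1) p.2 w
omit [Fintype W] in
theorem Lm_map (f : A →+* A') (t : A) (i : ι) : (Lm S t i).map f = Lm S (f t) i := by ext; simp [Lm, apply_ite f]
omit [Fintype W] in
theorem Rm_map (f : A →+* A') (t : A) (i : ι) : (Rm S t i).map f = Rm S (f t) i := by ext; simp [Rm, apply_ite f]
theorem Km_map (f : A →+* A') (t : A) : ∀ l, (Km S t l).map f = Km S (f t) l
  | [] => by simp [Km]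
  | i :: l => by simp only [Km, Matrix.map_mul, Lm_map, Rm_map, Km_map f t l]
theorem Hig_map (f : A →+* A') (t : A) : (Hig S t).map f = Hig S (f t) := by
  ext; simp [Hig, Matrix.sum_apply, ← Km_map]
omit [Fintype W] in
theorem Com_map (f : A →+* A') (t : A) : (Com S t).map f = Com S (f t) := by ext; simp [Com, ← Lm_map, ← Rm_map]
end generic

/-- the sum of the conjugates -/
noncomputable def trG [Fintype G] (x : ℂ[G]) : ℂ[G] := ∑ g, single g 1 * x * single g⁻¹ 1
theorem trG_mem [Fintype G] (x : ℂ[G]) : trG x ∈ Z ℂ G := mem_Z.2 fun h g => by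
  simp only [trG, coeff_sum', coeff_mul_single_one', coeff_single_one_mul']
  exact (Equiv.sum_comp (Equiv.mulLeft h) _).symm.trans (by simp [mul_assoc])
theorem ev_trG [Fintype G] {χ : G → ℂ} (h : IsClassFunction G χ) (x : ℂ[G]) : ev χ (trG x) = Nat.card G * ev χ x := by
  rw [trG, map_sum, Nat.card_eq_fintype_card, ← nsmul_eq_mul, ← card_univ, ← sum_const]
  exact sum_congr rfl fun g _ => by rw [ev_mul_comm h.apply_mul_comm, ← mul_assoc, single_mul_single]; simp [← one_def]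
theorem eB_mul_eq_zero [Finite G] {e : ℂ[G]} (he : e * e = e) : eB {χ | ev (χ : G → ℂ) e = 0} * e = 0 := by
  have := Fintype.ofFinite G
  obtain ⟨m, h1, h2⟩ := trace_idem (f := eB {χ | ev (χ : G → ℂ) e = 0} * e) (by
    rw [mul_assoc, ← mul_assoc e, ← Z_comm (eB_mem_Z _), mul_assoc, he, ← mul_assoc, (eB_idem _).eq])
  refine h2 (Nat.cast_eq_zero.1 (h1.symm.trans (mul_eq_zero_of_right _ ?_)))
  simp only [coeff_mul_sum, coeff_eB, blockCoeff_eq, mul_one, mul_assoc, ← mul_sum, sum_mul]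
  rw [sum_comm]
  refine mul_eq_zero_of_right _ (sum_eq_zero fun χ _ => ?_)
  split_ifs with h
  · simp only [← χ.2.apply_inv, mul_assoc, ← mul_sum]
    refine mul_eq_zero_of_right _ ((Equiv.sum_comp (Equiv.inv G) fun x => (χ : G → ℂ) x * e.coeff x).trans ?_)
    simpa only [Set.mem_ofPred_eq, ev_apply, mul_comm] using h
  · simp
theorem finrank_Ze [Finite G] {e : ℂ[G]} (he : e * e = e) : Module.finrank ℂ ((Z ℂ G).toSubmodule.map (LinearMap.mulRight ℂ e)) =
    Nat.card {χ : IrrCharacter G // ev (χ : G → ℂ) e ≠ 0} := by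
  have := Fintype.ofFinite G
  have h1 : LinearIndependent ℂ fun χ : {χ : IrrCharacter G // ev (χ : G → ℂ) e ≠ 0} => eB {χ.1} * e :=
    Fintype.linearIndependent_iff.2 fun c hc ψ => by
      have := congrArg (ev (ψ.1 : G → ℂ)) hc
      rw [map_sum, sum_eq_single ψ (fun χ _ h => by rw [map_smul, ev_eB_mul_of_notMem (A := {χ.1}) (ψ := ψ.1) (fun a => h (Subtype.ext a).symm), smul_zero])
        (by simp), map_smul, ev_eB_mul_of_mem (Set.mem_singleton _), map_zero] at this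
      exact (smul_eq_zero.1 this).resolve_right ψ.2
  rw [Nat.card_eq_fintype_card, ← finrank_span_eq_card h1]
  refine congrArg (fun p : Submodule ℂ ℂ[G] => Module.finrank ℂ p) ?_
  refine le_antisymm ?_ (Submodule.span_le.2 (by rintro _ ⟨χ, rfl⟩; exact ⟨_, eB_mem_Z _, rfl⟩))
  rintro _ ⟨y, hy, rfl⟩
  have h2 : y = ∑ χ : IrrCharacter G, om (χ : G → ℂ) y • eB {χ} :=
    Z_ext hy (sum_mem fun _ _ => Subalgebra.smul_mem _ (eB_mem_Z _) _) fun ψ => by simp [om_eB]
  rw [h2, map_sum]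
  refine sum_mem fun χ _ => ?_
  rw [map_smul]
  refine Submodule.smul_mem _ _ ?_
  by_cases h : ev (χ : G → ℂ) e = 0
  · rw [LinearMap.mulRight_apply, ← Set.inter_eq_left.2 (Set.singleton_subset_iff.2 h : _ ⊆ {χ : IrrCharacter G | ev (χ : G → ℂ) e = 0}),
      ← eB_mul_eB, mul_assoc, eB_mul_eq_zero he, mul_zero]
    exact zero_mem _
  · exact Submodule.subset_span ⟨⟨χ, h⟩, rfl⟩

namespace CellSys
variable {S} [Fintype G] (X : CellSys G S) {t : ℝ}

omit [Fintype W] in
theorem ege {w : W} {g : G} (h : X.C w g) : X.T 1 * single g 1 * X.T 1 = (X.q w : ℂ)⁻¹ • X.T w := by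
  have h1 : ∀ b ∈ X.B, single b 1 * X.T 1 = X.T 1 := fun b hb => ga_ext fun y => by
    rw [coeff_single_one_mul', coeff_T, coeff_T, X.left_iff (inv_mem hb)]
  have h2 : ∀ b ∈ X.B, X.T 1 * single b 1 = X.T 1 := fun b hb => ga_ext fun y => by
    rw [coeff_mul_single_one', coeff_T, coeff_T, X.right_iff (inv_mem hb)]
  have h3 : X.T 1 * X.T w * X.T 1 = (X.q w : ℂ) • (X.T 1 * single g 1 * X.T 1) := by
    rw [eq_sum_single (X.T w)]
    simp only [mul_sum, sum_mul, mul_smul_comm, smul_mul_assoc, coeff_T, ite_smul, zero_smul, ← sum_filter]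
    rw [sum_congr rfl (g := fun _ => (Nat.card X.B : ℂ)⁻¹ • (X.T 1 * single g 1 * X.T 1)) fun y hy => ?_, sum_const, ← Nat.cast_smul_eq_nsmul ℂ,
      smul_smul, card_C, mul_inv_cancel_right₀ X.cB]
    obtain ⟨b, hb, b', hb', rfl⟩ := X.trans h (mem_filter.1 hy).2
    rw [show single (b * g * b') (1 : ℂ) = single b 1 * single g 1 * single b' 1 by simp [single_mul_single], ← mul_assoc, ← mul_assoc, h2 b hb,
      mul_assoc _ _ (X.T 1), h1 b' hb']
  rw [T_one_mul, T_mul_one] at h3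
  rw [h3, inv_smul_smul₀ (by simpa using (X.q_pos w).ne')]
theorem trG_mul {x : ℂ[G]} (h1 : X.T 1 * x = x) (h2 : x * X.T 1 = x) :
    trG x * X.T 1 = ∑ w, (Nat.card X.B * (X.q w⁻¹ : ℂ)⁻¹) • (X.T w * x * X.T w⁻¹) := by
  rw [← X.T_mul_one 1, ← mul_assoc, Z_comm (trG_mem x), trG, mul_sum, sum_mul, ← sum_fiberwise univ fun g => (X.ex g).choose]
  refine sum_congr rfl fun w _ => ?_
  rw [filter_congr (q := X.C w) (p := fun g => (X.ex g).choose = w) fun g _ => ⟨fun a => a ▸ (X.ex g).choose_spec, X.uniq (X.ex g).choose_spec⟩,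
    sum_congr rfl (g := fun _ => ((X.q w : ℂ)⁻¹ * (X.q w⁻¹ : ℂ)⁻¹) • (X.T w * x * X.T w⁻¹)) fun g hg => ?_, sum_const,
    ← Nat.cast_smul_eq_nsmul ℂ, smul_smul, card_C]
  · congr 1
    have : (X.q w : ℂ) ≠ 0 := by simpa using (X.q_pos w).ne'
    field_simp
  · rw [← smul_mul_smul_comm, ← smul_mul_assoc, ← X.ege (mem_filter.1 hg).2, ← X.ege (X.inv (mem_filter.1 hg).2)]
    conv_lhs => rw [← h1, ← h2]
    simp only [mul_assoc]

/-- the embedding of the Hecke algebra -/
noncomputable def Θ : (W → ℂ) →ₗ[ℂ] ℂ[G] := Fintype.linearCombination ℂ X.T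
theorem Θ_apply (h : W → ℂ) : X.Θ h = ∑ w, h w • X.T w := rfl
theorem Θ_inj : Function.Injective X.Θ := (injective_iff_map_eq_zero _).2 fun h e => funext fun w => by
  obtain ⟨g, hg⟩ := X.ne w
  have := congrArg (·.coeff g) e
  simp only [Θ_apply, coeff_sum', coeff_smul', coeff_T] at this
  rw [sum_eq_single w (fun v _ a => by rw [if_neg fun b => a (X.uniq b hg), mul_zero]) (by simp), if_pos hg] at this
  simpa [X.cB] using this
theorem e_Θ (h : W → ℂ) : X.T 1 * X.Θ h = X.Θ h := by simp [Θ_apply, mul_sum]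
theorem Θ_e (h : W → ℂ) : X.Θ h * X.T 1 = X.Θ h := by simp [Θ_apply, sum_mul]
theorem exists_Θ (a : ℂ[G]) : ∃ h, X.Θ h = X.T 1 * a * X.T 1 := by
  rw [eq_sum_single a]
  simp only [mul_sum, sum_mul, mul_smul_comm, smul_mul_assoc]
  refine sum_mem (S := LinearMap.range X.Θ) fun g _ => Submodule.smul_mem _ _ ?_
  rw [X.ege (X.ex g).choose_spec]
  exact Submodule.smul_mem _ _ ⟨Pi.single (X.ex g).choose 1, by simp [Θ]⟩
theorem Θ_mulVec (A : Matrix W W ℂ) (h : W → ℂ) : X.Θ (A *ᵥ h) = ∑ w, h w • ∑ v, A v w • X.T v := by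
  simp only [Θ_apply, Matrix.mulVec, dotProduct, sum_smul, smul_sum, smul_smul, mul_comm]; exact sum_comm
variable (hq : ∀ i, X.q (S.σ i) = t)
include hq
theorem Θ_L (i : ι) (h : W → ℂ) : X.Θ (Lm S (t : ℂ) i *ᵥ h) = X.T (S.σ i) * X.Θ h := by
  rw [Θ_mulVec, Θ_apply, mul_sum]
  refine sum_congr rfl fun w _ => ?_
  rw [mul_smul_comm]; congr 1
  by_cases e : S.len w ≤ S.len (S.σ i * w)
  · simp [Lm, e, X.T_s_mul e]
  · simp [Lm, e, X.T_s_mul' e, hq, add_smul, sum_add_distrib]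
theorem Θ_R (i : ι) (h : W → ℂ) : X.Θ (Rm S (t : ℂ) i *ᵥ h) = X.Θ h * X.T (S.σ i) := by
  rw [Θ_mulVec, Θ_apply, sum_mul]
  refine sum_congr rfl fun w _ => ?_
  rw [smul_mul_assoc]; congr 1
  by_cases e : S.len w ≤ S.len (w * S.σ i)
  · simp [Rm, e, X.T_mul_s e]
  · simp [Rm, e, X.T_mul_s' e, hq, add_smul, sum_add_distrib]
theorem Θ_K (h : W → ℂ) {l : List ι} (hl : S.Reduced l) :
    X.Θ (Km S (t : ℂ) l *ᵥ h) = X.T (S.wp l) * X.Θ h * X.T (S.wp l)⁻¹ ∧ X.q (S.wp l) = t ^ l.length ∧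
      ((∀ i, X.T (S.σ i) * X.Θ h = X.Θ h * X.T (S.σ i)) → X.T (S.wp l) * X.Θ h = X.Θ h * X.T (S.wp l)) := by
  induction l with
  | nil => simp [Km, e_Θ, Θ_e]
  | cons i l ih =>
    obtain ⟨h1, h2, h3⟩ := ih (hl.of_cons S)
    have h4 : S.len (S.wp l) ≤ S.len (S.σ i * S.wp l) := by simpa using (hl.len_σ_mul_lt S).le
    have h5 : S.len (S.wp l)⁻¹ ≤ S.len ((S.wp l)⁻¹ * S.σ i) := by rwa [S.len_inv, ← S.len_inv (_ * _), mul_inv_rev, inv_inv, S.inv_σ]
    refine ⟨?_, by rw [S.wp_cons, X.q_s_mul h4, h2, hq, List.length_cons, pow_succ'], fun a => ?_⟩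
    · rw [Km, ← Matrix.mulVec_mulVec, ← Matrix.mulVec_mulVec, X.Θ_L hq, X.Θ_R hq, h1, S.wp_cons, mul_inv_rev, S.inv_σ, ← X.T_s_mul h4,
        ← X.T_mul_s h5]
      simp only [mul_assoc]
    · rw [S.wp_cons, ← X.T_s_mul h4, mul_assoc, h3 a, ← mul_assoc, a, mul_assoc]
theorem q_eq (w : W) : X.q w = t ^ S.len w := by
  obtain ⟨l, h1, rfl⟩ := S.exists_reduced w
  rw [(X.Θ_K hq 0 h1.symm).2.1, h1]
theorem Θ_Hig (t0 : t ≠ 0) (h : W → ℂ) :
    X.Θ (Hig S (t : ℂ) *ᵥ h) = ((t : ℂ) ^ univ.sup S.len * (Nat.card X.B : ℂ)⁻¹) • (trG (X.Θ h) * X.T 1) := by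
  rw [X.trG_mul (X.e_Θ h) (X.Θ_e h), Hig, Matrix.sum_mulVec, map_sum, smul_sum]
  refine sum_congr rfl fun w _ => ?_
  obtain ⟨h1, h2⟩ := (S.exists_reduced w).choose_spec
  rw [Matrix.smul_mulVec, map_smul, (X.Θ_K hq h (by rw [InvGen.Reduced, h2, h1])).1, h2, smul_smul, X.q_eq hq, S.len_inv,
    pow_sub₀ _ (by simpa) (le_sup (mem_univ w))]
  have := X.cB
  congr 1; push_cast; field_simp

theorem rank_eq [Fintype ι] (t0 : t ≠ 0) : (Hig S (t : ℂ)).rank = Nat.card {χ : IrrCharacter G // ev (χ : G → ℂ) (X.T 1) ≠ 0} ∧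
    (Com S (t : ℂ)).rank + Nat.card {χ : IrrCharacter G // ev (χ : G → ℂ) (X.T 1) ≠ 0} = Fintype.card W := by
  have k : ∀ h, h ∈ LinearMap.ker (Com S (t : ℂ)).mulVecLin ↔ ∀ i, X.T (S.σ i) * X.Θ h = X.Θ h * X.T (S.σ i) := fun h => by
    simp only [← X.Θ_L hq, ← X.Θ_R hq, X.Θ_inj.eq_iff, ← sub_eq_zero (a := Lm S (t : ℂ) _ *ᵥ h), ← Matrix.sub_mulVec]
    exact ⟨fun a i => funext fun w => congrFun a (i, w), fun a => funext fun p => congrFun (a p.1) p.2⟩
  set E := (Z ℂ G).toSubmodule.map (LinearMap.mulRight ℂ (X.T 1))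
  have h1 : (LinearMap.range (Hig S (t : ℂ)).mulVecLin).map X.Θ ≤ E := by
    rintro _ ⟨_, ⟨h, rfl⟩, rfl⟩
    rw [Matrix.mulVecLin_apply, X.Θ_Hig hq t0]
    exact Submodule.smul_mem _ _ ⟨_, trG_mem _, rfl⟩
  have h2 : E ≤ (LinearMap.ker (Com S (t : ℂ)).mulVecLin).map X.Θ := by
    rintro _ ⟨y, hy, rfl⟩
    obtain ⟨h, e⟩ := X.exists_Θ y
    rw [← Z_comm hy, mul_assoc, T_mul_one] at e
    exact ⟨h, (k h).2 fun i => by rw [e, ← mul_assoc, ← Z_comm hy, mul_assoc, mul_assoc, T_mul_one, T_one_mul], e⟩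
  have h3 : LinearMap.ker (Com S (t : ℂ)).mulVecLin ≤ LinearMap.range (Hig S (t : ℂ)).mulVecLin := fun h hh => by
    have a1 : ∀ w, X.T w * X.Θ h = X.Θ h * X.T w := fun w => by
      obtain ⟨l, h1, rfl⟩ := S.exists_reduced w
      exact (X.Θ_K hq h h1.symm).2.2 ((k h).1 hh)
    obtain ⟨y, a2, a3⟩ : ∃ y ∈ Z ℂ G, y * trG (X.T 1) * X.T 1 = X.T 1 := by
      have b1 := sum_mem fun (χ : IrrCharacter G) (_ : χ ∈ univ) => (Z ℂ G).smul_mem (eB_mem_Z {χ}) (om (χ : G → ℂ) (trG (X.T 1)))⁻¹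
      refine ⟨_, b1, ?_⟩
      rw [Z_ext (mul_mem b1 (trG_mem _)) (eB_mem_Z {χ | ev (χ : G → ℂ) (X.T 1) = 0}ᶜ) fun ψ => ?_, eB_compl, sub_mul,
        eB_mul_eq_zero (X.T_mul_one 1), one_mul, sub_zero]
      have : om (ψ : G → ℂ) (trG (X.T 1)) = 0 ↔ ev (ψ : G → ℂ) (X.T 1) = 0 := by
        simp [om_apply, ev_trG ψ.2.isCharacter.isClassFunction, ψ.2.apply_one_ne_zero]
      rw [om_mul ψ.2 b1, om_eB]
      by_cases a : ev (ψ : G → ℂ) (X.T 1) = 0 <;> simp [om_eB, a, this]
    obtain ⟨h', e⟩ := X.exists_Θ (X.Θ h * y)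
    rw [← mul_assoc, e_Θ, mul_assoc, Z_comm a2, ← mul_assoc, Θ_e] at e
    have a4 : trG (X.Θ h') * X.T 1 = X.Θ h := by
      rw [X.trG_mul (X.e_Θ _) (X.Θ_e _), ← X.Θ_e h, ← a3, mul_assoc, X.trG_mul (X.T_mul_one 1) (X.T_mul_one 1), mul_sum, mul_sum]
      refine sum_congr rfl fun w _ => ?_
      rw [e, mul_smul_comm, mul_smul_comm, ← mul_assoc, a1, T_mul_one, mul_assoc (X.Θ h), ← Z_comm a2]
      simp only [mul_assoc]
    have a5 : (t : ℂ) ^ univ.sup S.len * (Nat.card X.B : ℂ)⁻¹ ≠ 0 := by simp [t0, X.cB]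
    exact ⟨_ • h', X.Θ_inj (by rw [map_smul, map_smul, Matrix.mulVecLin_apply, X.Θ_Hig hq t0, a4, inv_smul_smul₀ a5])⟩
  have h4 := h3.antisymm ((Submodule.map_le_map_iff_of_injective X.Θ_inj _ _).1 (h1.trans h2))
  have h5 : (Hig S (t : ℂ)).rank = Module.finrank ℂ E := by
    rw [← h1.antisymm (h4 ▸ h2)]; exact (Submodule.equivMapOfInjective _ X.Θ_inj _).finrank_eq
  rw [← finrank_Ze (X.T_mul_one 1), ← h5]
  refine ⟨rfl, ?_⟩
  rw [Matrix.rank, Matrix.rank, ← h4, LinearMap.finrank_range_add_finrank_ker, Module.finrank_fintype_fun_eq_card]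

theorem card_le [Fintype ι] (t0 : t ≠ 0) {G' : Type*} [Group G'] [Fintype G'] (X' : CellSys G' S) {t' : ℝ} (hq' : ∀ i, X'.q (S.σ i) = t')
    (t0' : t' ≠ 0) (h : {s : ℂ | (Hig S s).rank + (Com S s).rank = Fintype.card W}.Infinite) :
    Nat.card {χ : IrrCharacter G // ev (χ : G → ℂ) (X.T 1) ≠ 0} ≤ Nat.card {χ : IrrCharacter G' // ev (χ : G' → ℂ) (X'.T 1) ≠ 0} := by
  obtain ⟨s, h1, h2⟩ := h.exists_notMem_finite ((rank_semicont (Hig S Polynomial.X) t).union (rank_semicont (Com S Polynomial.X) t'))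
  simp only [Hig_map, Com_map, Set.mem_union, Set.mem_ofPred_eq, not_or, not_lt] at h1 h2
  simp only [coe_evalRingHom, eval_X] at h2
  have := (X.rank_eq hq t0).1; have := (X'.rank_eq hq' t0').2; omega
end CellSys

/-- the thin cell system -/
def CellSys.thin {S : InvGen ι W} (hE : S.Exchange) (e : W ≃* G) : CellSys G S where
  B := ⊥
  C w g := g = e w
  exch := hE
  one := by simp
  inv := by simp +contextual
  mul_left := by simp +contextual
  trans := by simp +contextual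
  uniq := by simp +contextual
  ex g := ⟨e.symm g, by simp⟩
  ne w := ⟨_, rfl⟩
  s_mul := by simp +contextual
  s_mul_le := by simp +contextual

namespace StSys
open Cfsg.Lie
variable {D : ChevalleyDatum} [Good D] {F : Type*} [Field F] {Γ : Type*} [Group Γ] {S : StSys D F Γ} {θ : Γ →* GL D.Idx F}
/-- the Bruhat cells of a Steinberg system -/
def Cov.cells (hθ : S.Cov θ) (hT : S.T = ⊤) : CellSys Γ (wg D) where
  B := S.B
  C := S.Cell
  exch := exchange
  one := cell_one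
  inv := Cell.inv
  mul_left := Cell.mul_left
  trans := by
    rintro w _ g' ⟨b, hb, n, hn, b', hb', rfl⟩ h
    obtain ⟨c, hc, c', hc', rfl⟩ := h.exists_bnb hn
    exact ⟨c * b⁻¹, mul_mem hc (inv_mem hb), b'⁻¹ * c', mul_mem (inv_mem hb') hc', by simp [mul_assoc]⟩
  uniq := hθ.cell_unique
  ex g := exists_cell (by simp [hT])
  ne w := (exists_rep w).imp fun _ h => h.cell
  s_mul := by
    rintro i w _ g ⟨b, hb, n, hn, b', hb', rfl⟩ h
    simpa only [mul_assoc, wg_σ] using ((h.mul_left hb').n_mul hn).imp (·.mul_left hb) (·.mul_left hb)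
  s_mul_le := by
    rintro i w _ g e ⟨b, hb, n, hn, b', hb', rfl⟩ h
    simpa only [mul_assoc, wg_σ] using ((h.mul_left hb').n_mul_of_pos hn (by_contra fun a => by
      have := len_sW_mul_of_neg a; rw [wg_σ] at e; omega)).mul_left hb
theorem Cov.q_cells [Fintype Γ] (hθ : S.Cov θ) (hT : S.T = ⊤) (i : I D) : (hθ.cells hT).q ((wg D).σ i) = Nat.card F := by
  have h : ℓ (sW i) = 1 := by simpa using len_sW_mul_of_pos (w := 1) (i := i) (by simpa using isPos_sim i)
  have := hθ.card_cell (sW i)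
  rw [h, pow_one] at this
  rw [CellSys.q, div_eq_iff (Nat.cast_ne_zero.2 Nat.card_pos.ne'), mul_comm]
  exact_mod_cast this
theorem Cov.card_constituents [Finite F] [Finite Γ] (hθ : S.Cov θ) (hT : S.T = ⊤) {W' : Type*} [Group W'] (e : H12.W D ≃* W') :
    Nat.card {χ : IrrCharacter Γ // ∃ φ, IsCharacter Γ φ ∧ fixedPointCharacter S.B = (χ : Γ → ℂ) + φ} = Nat.card (ConjClasses W') := by
  have := Fintype.ofFinite Γ
  have := Fintype.ofFinite (H12.W D)
  have := Fintype.ofEquiv _ e.toEquiv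
  have h : {s : ℂ | (Hig (wg D) s).rank + (Com (wg D) s).rank = Fintype.card (H12.W D)}.Infinite :=
    Set.infinite_of_injective_forall_mem (f := fun k : ℕ => (((2 ^ (k + 1) : ℕ) : ℝ) : ℂ)) (fun a b h => by
      simpa using Nat.pow_right_injective (a := 2) le_rfl (a₁ := a + 1) (a₂ := b + 1) (by beta_reduce at h ⊢; exact_mod_cast h)) fun k => by
      have := Fintype.ofFinite (D.group (GaloisField 2 (k + 1)))
      have := (cov_gr.cells grS_T).rank_eq (cov_gr.q_cells (grS_T (D := D) (F := GaloisField 2 (k + 1)))) (Nat.cast_ne_zero.2 Nat.card_pos.ne')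
      rw [GaloisField.card 2 _ k.succ_ne_zero] at this
      rw [Set.mem_ofPred_eq, ← this.2, add_comm]; exact congrArg _ this.1
  have h1 : ∀ i, (CellSys.thin exchange e).q ((wg D).σ i) = 1 := fun i => by
    rw [CellSys.q, card_eq_one.2 ⟨e (sW i), by ext; rw [mem_filter_univ, mem_singleton]; rfl⟩]; simp [CellSys.thin]
  have h2 := ((hθ.cells hT).card_le (hθ.q_cells hT) (Nat.cast_ne_zero.2 Nat.card_pos.ne') _ h1 one_ne_zero h).antisymm
    ((CellSys.thin exchange e).card_le h1 one_ne_zero _ (hθ.q_cells hT) (Nat.cast_ne_zero.2 Nat.card_pos.ne') h)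
  rw [← card_irr_eq_card_conjClasses, ← Nat.card_congr (Equiv.subtypeUnivEquiv (p := fun χ : IrrCharacter W' =>
    ev (χ : W' → ℂ) ((CellSys.thin exchange e).T 1) ≠ 0) fun χ => by
      simpa [ev_apply, CellSys.coeff_T, CellSys.thin] using χ.2.apply_one_ne_zero), ← h2]
  refine Nat.card_congr (Equiv.subtypeEquivRight fun χ => ?_)
  have h3 : classInner (χ : Γ → ℂ) (fixedPointCharacter S.B) = ev (χ : Γ → ℂ) ((hθ.cells hT).T 1) := by
    rw [fpc_eq, frobenius_reciprocity' _ _ χ.2.isCharacter.isClassFunction, classInner_one_right, ev_apply]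
    simp only [CellSys.coeff_T, ite_mul, zero_mul, ← sum_filter, ← mul_sum]
    congr 1
    exact (sum_subtype _ (fun x => by rw [mem_filter_univ]; exact cell_one) _).symm
  rw [← h3, Ne, classInner_eq_zero_comm]
  refine ⟨fun ⟨φ, a, b⟩ => ?_, fun a => ⟨_, (isCharacter_fpc _).sub_irr χ.2 a, by simp⟩⟩
  obtain ⟨n, hn⟩ := a.exists_classInner_nat χ.2.isCharacter
  rw [b, classInner_add_left, χ.2.classInner_self, hn, add_comm]
  exact Nat.cast_add_one_ne_zero n
end StSys

end H12
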