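import Cfsg.Agent.H12.InvTw

/-! Orders of parabolic subgroups of twisted groups (`Tw.Adm.card_P`); centralisers of involutions in `²F₄(q)` (`cent_inv_F`). -/

set_option autoImplicit false

namespace H12
open Cfsg.Lie H13 StSys

theorem Tw.Adm.card_P {D : ChevalleyDatum} [Good D] {F Γ : Type*} [Field F] [Group Γ] {S : StSys D F Γ} {R : RSym D} {τ : Tw S R}
    {θ : Γ →* GL D.Idx F} {K : Subgroup Γ} (hK : τ.Adm K) (hθ : S.Cov θ) {k q : ℕ} (hq : q ≠ 0)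
    (h : ∀ i, k ∣ ℓ (w0J (R.orb i)) ∧ Nat.card ↥(S.Um (w0J (R.orb i)) ⊓ τ.Fix) = q ^ (ℓ (w0J (R.orb i)) / k)) (J : Set (I D)) :
    Nat.card ↥(S.P J ⊓ K) = q ^ (D.nroots / 2 / k) * Nat.card ↥(S.H ⊓ K) * R.poin J k q := by
  classical
  choose n hn1 hn using fun w : ↥(WJ J ⊓ R.W1) => hK.exists_rep hθ w.2.2
  have hU : ∀ w : ↥(WJ J ⊓ R.W1), Nat.card ↥(S.Um w ⊓ K) = q ^ (ℓ w.1 / k) := fun w => by
    rw [hK.U_inf hθ (S.Um_le_U _), (hK.card_Um hθ h w.2.2).2]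
  rw [← hK.card_U hθ h, ← hK.card_B hθ, ← Nat.card_eq_of_bijective (fun p : ↥(S.B ⊓ K) × Σ w : ↥(WJ J ⊓ R.W1), ↥(S.Um w ⊓ K) =>
    (⟨p.1 * n p.2.1 * p.2.2, mem_P.2 ⟨_, p.2.1.2.1, _, p.1.2.1, _, hn _, _, S.U_le_B (S.Um_le_U _ p.2.2.2.1), rfl⟩,
      mul_mem (mul_mem p.1.2.2 (hn1 _)) p.2.2.2.2⟩ : ↥(S.P J ⊓ K))) ⟨?_, fun g => ?_⟩]
  · have : ∀ w : ↥(WJ J ⊓ R.W1), Finite ↥(S.Um w ⊓ K) := fun w => Nat.finite_of_card_ne_zero (by rw [hU]; exact pow_ne_zero _ hq)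
    rw [Nat.card_prod, Nat.card_sigma, RSym.poin]; simp only [hU]
    congr 1
    exact (Finset.sum_subtype _ (by simp) fun w => q ^ (ℓ w / k)).symm
  · rintro ⟨b, w, u⟩ ⟨b', w', u'⟩ e
    have e1 : (b : Γ) * n w * u = b' * n w' * u' := congrArg Subtype.val e
    obtain rfl : w = w' := Subtype.ext (hθ.cell_unique ⟨b, b.2.1, _, hn w, u, S.U_le_B (S.Um_le_U _ u.2.1), rfl⟩
      ⟨b', b'.2.1, _, hn w', u', S.U_le_B (S.Um_le_U _ u'.2.1), e1⟩)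
    obtain ⟨h1, h2⟩ := hθ.bnu_unique (hn w) b.2.1 b'.2.1 u.2.1 u'.2.1 e1
    rw [Subtype.ext h1, Subtype.ext h2]
  · obtain ⟨w, hw', hw⟩ := mem_P.1 g.2.1
    have h1 := Tw.mem_W1 hθ (hK.le g.2.2) hw
    obtain ⟨b, hb, u, hu, e⟩ := hK.exists_bnu hθ g.2.2 hw (hn ⟨w, hw', h1⟩) (hn1 _)
    exact ⟨(⟨b, hb⟩, ⟨⟨w, hw', h1⟩, u, hu⟩), Subtype.ext e.symm⟩

theorem tpoinRF_2 (hk : ∀ w ∈ RF.W1, 2 ∣ ℓ w) (q : ℕ) :
    RF.poin {j | j.1 ∈ [0, 3]} 2 q = sumD 2 q [1, 0, 1] * RF.poin {j | j.1 ∈ ([] : List ℕ)} 2 q :=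
  RSym.poin_step (ρ := gF4.ρ) (fun _ => rfl) hk hAF4 (by decide) (by unfold RSym.Inv; decide +kernel) (μ := [1, 0, 0, 1])
    (Ls := [[[-1, 1, 0, 1], [1, 0, 1, -1]], [[-1, 1, 1, -1]]]) (by decide) (by decide +kernel) (by rw [tabF4_eq]; decide +kernel) q

theorem cent_inv_F {K : Type*} [Field K] [Fintype K] {m : ℕ} (hK : Fintype.card K = 2 ^ (2 * m + 1)) {a b : twistedF4 K (2 ^ m)}
    (ha : orderOf a = 2) (hab : Commute a b) : orderOf b ∣ Nat.card K ^ 12 * (Nat.card K - 1) ^ 2 * (1 + Nat.card K ^ 2) ∨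
      orderOf b ∣ Nat.card K ^ 12 * (Nat.card K - 1) ^ 2 * (1 + Nat.card K) := by
  obtain ⟨_, φ, hφ, h2⟩ := exists_frob2 hK
  obtain ⟨O, hO, g, hg, e⟩ := invF h2 hφ a a.2 (by rwa [Subgroup.orderOf_coe])
  have h1 : g * b * g⁻¹ ∈ twistedF4 K (2 ^ m) := mul_mem (mul_mem hg b.2) (inv_mem hg)
  have h3 : g * b * g⁻¹ ∈ (adS chevF4 K).T ⊓ Subgroup.centralizer {xs chevF4 K O} := ⟨((admF h2 hφ).le h1).1, by
    rintro _ rfl; rw [← e, conj_mul, conj_mul, ← Subgroup.coe_mul, hab.eq, Subgroup.coe_mul]⟩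
  have h4 : ∀ J, g * b * g⁻¹ ∈ (adS chevF4 K).P J → orderOf b ∣ Nat.card K ^ 12 * (Nat.card K - 1) ^ 2 * RF.poin J 2 (Nat.card K) := fun J h => by
    have := Subgroup.orderOf_dvd_natCard _ (Subgroup.mem_inf.2 ⟨h, h1⟩)
    rwa [(admF h2 hφ).card_P cov_ad Nat.card_pos.ne' (cardJF h2), card_HF h2 hφ, ← MulAut.conj_apply, MulEquiv.orderOf_eq, Subgroup.orderOf_coe] at this
  have h5 : ∀ {J : List ℕ} {L : Set (Φ chevF4)}, (∀ r ∈ L, IsPos r ∨ ∀ i : I chevF4, i.1 ∉ J → (tab chevF4).co r i = 0) →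
      (adS chevF4 K).gen L ≤ (adS chevF4 K).P {j | j.1 ∈ J} := fun h => (StSys.gen_le _).2 fun r hr t =>
    x_mem_P ((h r hr).imp_right fun e i hi => rc_eq_zero_iff.2 (e i hi)) t
  simp only [clsTF, List.map_cons, List.map_nil, List.mem_cons, List.not_mem_nil, or_false] at hO
  rcases hO with rfl | rfl
  · rw [← group_eq, cent_ad (p := 2) charOK2 (O := [47, 44]) (Jl := [1, 2]) (Nl := [20, 22]) (a := [2, 3, 4, 2]) (b := 2)
      (by rw [tabF4_eq]; decide +kernel) (coe_xs (by decide)), posUnipotent_eq] at h3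
    have := h4 _ (sup_le ((adS _ K).U_le_B.trans (B_le_P _)) (h5 (J := [1, 2]) (by rw [tabF4_eq]; simp only [Set.mem_setOf_eq]; decide +kernel)) h3)
    rw [tpoinRF_1 (RSym.dvd_len hkF), RSym.poin_nil] at this
    exact .inl (by simpa [sumD, Finset.sum_range_succ] using this)
  · rw [show xs chevF4 K [39, 45] = _ from xs_map [rF 39, rF 45], cent_F4v] at h3
    have := h4 _ (h5 (J := [0, 3]) (by rw [tabF4_eq]; simp only [Set.mem_setOf_eq]; decide +kernel) h3)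
    rw [tpoinRF_2 (RSym.dvd_len hkF), RSym.poin_nil] at this
    exact .inr (by simpa [sumD, Finset.sum_range_succ] using this)

end H12
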